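import Cfsg.Statements.S0558
import Cfsg.Agent.OD.Pre
import Cfsg.Agent.H1.Primitive

set_option autoImplicit false
open Cfsg

namespace Cfsg.Agent.S0558

/-- Let H be a subgroup of a finite group G that is not a Sylow subgroup of G for any prime, and suppose that for every prime p dividing the order of H and every Sylow p-subgroup P of H the normalizer of P in G is exactly H. Then some normal subgroup of G is a complement to H. -/
theorem result {G : Type*} [Group G] [Finite G] (H : Subgroup G) (hnot : ∀ p : ℕ, p.Prime → ∀ P : Sylow p G, (P : Subgroup G) ≠ H) (hnorm : ∀ p : ℕ, p.Prime → p ∣ Nat.card H → ∀ P : Sylow p H, Subgroup.normalizer (((P : Subgroup H).map H.subtype : Subgroup G) : Set G) = H) : ∃ N : Subgroup G, N.Normal ∧ Subgroup.IsComplement' N H := by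
  open CfH1 Subgroup in
  have hS : ∀ (p : ℕ) [Fact p.Prime], p ∣ Nat.card H → ∀ S, CfH9.SylIn p S H →
      normalizer (S : Set G) = H ∧ CfH9.SylIn p S ⊤ := by
    intro p hp hd S hS
    obtain ⟨P, rfl⟩ := CfH9.sylIn_iff_exists_sylow.1 hS
    have := hnorm p hp.out hd P
    exact ⟨this, hS.of_Nm_le le_top (inf_le_right.trans this.le)⟩
  have hnil : Group.IsNilpotent H := by
    refine CfH7.isNilpotent_of_forall_sylow_normal (fun p hp P => ?_)
    by_cases hd : p ∣ Nat.card H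
    · have := (normal_subgroupOf_iff_le_normalizer (map_subtype_le _)).2 (hnorm p hp.out hd P).ge
      rwa [CfH7.subgroupOf_map_subtype_self] at this
    · rw [((CfH9.sylIn_top P).eq_bot_iff).2 (by rwa [card_top])]
      infer_instance
  have hpn : ∀ (p : ℕ) [Fact p.Prime], p ∣ Nat.card H → CfH9.PNil p (⊤ : Subgroup G) := by
    intro p hp hd
    obtain ⟨S, hSH⟩ := CfH9.exists_sylIn p H
    obtain ⟨-, hST⟩ := hS p hd S hSH
    obtain ⟨q, hq, hqd, hqp⟩ : ∃ q : ℕ, q.Prime ∧ q ∣ Nat.card H ∧ q ≠ p := by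
      by_contra hc
      push Not at hc
      obtain ⟨P, hP⟩ := hST.exists_sylow
      refine hnot p hp.out P (hP.trans ?_)
      exact (hSH.eq_of_le (isPGroup_of_isPiNum hp.out hc) le_rfl hSH.le).symm
    haveI := Fact.mk hq
    obtain ⟨Q, hQH⟩ := CfH9.exists_sylIn q H
    obtain ⟨hNQ, hQT⟩ := hS q hqd Q hQH
    have hQS : Q ≤ centralizer (S : Set G) := le_centralizer_of_coprime hnil hQH.le hSH.le (by
      obtain ⟨k, hk⟩ := hSH.pgrp.exists_card_eq
      rw [hk]
      exact (CfH7.coprime_card_of_isPGroup_of_ne hqp hQH.pgrp).pow_right _)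
    refine CfH9.pNil_of_fusion hST (fun x hx g _ hgx => ?_)
    have c1 : Q ≤ centralizer {g * x * g⁻¹} := hQS.trans (CfH9.Cz_le_Cx hgx)
    have c2 : CfH9.cj g Q ≤ centralizer {g * x * g⁻¹} := by
      rw [← CfH9.cj_Cx]; exact CfH9.cj_mono g (hQS.trans (CfH9.Cz_le_Cx hx))
    obtain ⟨c, hc, e⟩ := ((hQT.cj_top g).mono c2 le_top).conj (hQT.mono c1 le_top)
    rw [← CfH9.cj_mul, ← CfH9.mem_normalizer_iff_cj, hNQ] at e
    obtain ⟨a, ha, b, hb, ⟨k, hk⟩, hbo, e2⟩ := CfH7.exists_pPart_mul_pPrimePart (p := p) (c * g)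
    have haH := zpowers_le.2 e ha
    have hbH := zpowers_le.2 e hb
    have haS : a ∈ S := hSH.le_of_le_Nm' (CfH9.isPGroup_zpowers hk) (zpowers_le.2 haH)
      ((zpowers_le.2 haH).trans (hS p hd S hSH).1.ge) (mem_zpowers a)
    have hbx : Commute b x := by
      refine commute_of_mem_of_coprime hnil hbH (hSH.le hx) ?_
      obtain ⟨m, hm⟩ := CfH9.isPGroup_iff_mem.1 hSH.pgrp x hx
      exact Nat.Coprime.coprime_dvd_right (orderOf_dvd_of_pow_eq_one hm) (hbo.pow_right _)
    refine ⟨a, haS, ?_⟩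
    rw [CfH9.mem_Cx'] at hc
    calc g * x * g⁻¹ = (c * g) * x * (c * g)⁻¹ := by rw [← hc]; group
      _ = a * (b * x) * b⁻¹ * a⁻¹ := by rw [e2]; group
      _ = _ := by rw [hbx.eq]; group
  set N : Subgroup G := ⨅ q : {q : ℕ // q.Prime ∧ q ∣ Nat.card H}, Cfsg.pResidual q G with hN
  haveI hn : N.Normal := normal_iInf_normal (fun q => CfH7.pResidual_normal _ _)
  refine ⟨N, hn, isComplement'_of_normal ?_ ?_⟩
  · refine disjoint_iff.1 (Subgroup.disjoint_of_coprime_natCard ?_)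
    refine Nat.coprime_of_dvd (fun r hr h1 h2 => ?_)
    haveI := Fact.mk hr
    have h3 := hpn r h2
    rw [CfH9.pNil_iff_not_dvd, CfH7.pResidualOf_top] at h3
    exact h3 (h1.trans (card_dvd_of_le (iInf_le _ (⟨r, hr, h2⟩ : {q : ℕ // q.Prime ∧ q ∣ Nat.card H}))))
  · refine CfH7.eq_top_of_forall_sylow_le (fun r hr => ?_)
    by_cases hd : r ∣ Nat.card H
    · obtain ⟨S, hSH⟩ := CfH9.exists_sylIn r H
      obtain ⟨P, hP⟩ := (hS r hd S hSH).2.exists_sylow
      exact ⟨P, hP ▸ le_sup_of_le_right hSH.le⟩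
    · obtain ⟨P⟩ : Nonempty (Sylow r G) := inferInstance
      refine ⟨P, le_sup_of_le_left (le_iInf (fun q => ?_))⟩
      haveI := Fact.mk q.2.1
      exact CfH7.le_pResidual_of_coprime
        (CfH7.coprime_card_of_isPGroup_of_ne (fun e : r = q.1 => hd (by rw [e]; exact q.2.2)) P.isPGroup')

end Cfsg.Agent.S0558
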