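import Cfsg.Statements.S1824
import Cfsg.Agent.OD.Pre
import Cfsg.Agent.H7.QT7

set_option autoImplicit false
set_option linter.unusedVariables false
open Cfsg

namespace Cfsg.Agent.S1824

open Subgroup CfH7 CfH9
open scoped commutatorElement


/-- The qrc-lemma in the form used for simple QTKE-groups. Let G be a non-abelian finite simple QTKE-group, T a Sylow 2-subgroup of G and M a maximal 2-local subgroup of G containing T. Let T ≤ M₀ ≤ M, let H be a minimal member of the set of subgroups of G with nontrivial 2-core that contain T and are not contained in M, and let V be a 2-reduced elementary abelian normal 2-subgroup of M₀ with O₂(M₀) = C_T(V). Suppose H ∩ M normalizes O²(M₀) or normalizes V. Then one of the following holds: (1) some nontrivial subgroup of O₂(M₀) is normalized by both M₀ and H; (2) V ≰ O₂(H) and q̂(M₀/C_{M₀}(V), V) ≤ 2; (3) q(M₀/C_{M₀}(V), V) ≤ 2. Here q (resp. q̂) ≤ 2 means that some subgroup of M₀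 inducing a nontrivial elementary abelian 2-group A on V acts quadratically (resp. cubically) on V with |V : C_V(A)| ≤ |A|². -/
theorem result {G : Type*} [Group G] [Finite G] [IsSimpleGroup G]
    (hG : ¬ IsMulCommutative G) (hQ : Cfsg.IsQTKE G) (T : Sylow 2 G) (M M₀ H V : Subgroup G)
    (hM : M ∈ Cfsg.maxTwoLocalsContaining (T : Subgroup G))
    (hTM₀ : (T : Subgroup G) ≤ M₀) (hM₀M : M₀ ≤ M) (hH : H ∈ Cfsg.calHMin (T : Subgroup G) M)
    (hV : V ∈ Cfsg.calR2 M₀)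
    (hR : (Cfsg.pCore 2 ↥M₀).map M₀.subtype = (T : Subgroup G) ⊓ Subgroup.centralizer (V : Set G))
    (hI : H ⊓ M ≤ Subgroup.normalizer (Cfsg.oddGenerated M₀ : Set G) ∨
      H ⊓ M ≤ Subgroup.normalizer (V : Set G)) :
    (∃ R₀ : Subgroup G, R₀ ≠ ⊥ ∧ R₀ ≤ (Cfsg.pCore 2 ↥M₀).map M₀.subtype ∧
        M₀ ⊔ H ≤ Subgroup.normalizer (R₀ : Set G)) ∨
      (¬ V ≤ (Cfsg.pCore 2 ↥H).map H.subtype ∧ Cfsg.CubicParamLE M₀ V 2) ∨
      Cfsg.QuadParamLE M₀ V 2 := by
  have hpar : IsOfParabolicCharacteristic 2 G := fun R hR hR1 hS => hQ.2.2 _ ⟨R, hR, hR1, rfl⟩ hS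
  have hT := sylIn_top T
  have nV := hTM₀.trans hV.2.1
  have h1 : pCoreOf 2 H ≠ ⊥ := fun e => hH.1.1.1 (pCoreOf_eq_bot_iff.1 e)
  have TH := hH.1.1.2
  refine or_iff_not_imp_left.2 fun n => or_iff_not_imp_right.2 fun n' => ?_
  obtain ⟨⟨R, h2, h3, rfl⟩, -⟩ := hM.1
  rw [oddGenerated_eq] at hI
  refine (qrc hT (fun L h => parabolicChar_Cz_pCoreOf_le hpar hT h) hTM₀ hM₀M
    (ne_bot_of_le (le_pCoreOf le_normalizer le_rfl h2) h3) ⟨le_inf TH hM.2,
      lt_of_le_not_ge inf_le_left fun e => hH.1.2 (e.trans inf_le_right), fun X h4 h5 =>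
        le_inf h5.le (by_contra fun e => h5.ne (hH.2 X ⟨⟨fun e' => ne_bot_of_le ((le_inf
          ((sylIn_pCoreOf_le (hT.mono TH le_top)).trans h4) le_rfl).trans (inf_pCoreOf_le h5.le)) h1
          (pCoreOf_eq_bot_iff.2 e'), h4⟩, e⟩ h5.le))⟩ h1 hV.2.2.1 hV.2.1 hR hI
    (nq_of_not hT hTM₀ nV hV.2.2.1 n') fun X h4 h5 h6 => n ⟨X, h4, h5, h6⟩).imp_right
      (CO.cubic hT hTM₀ nV)

end Cfsg.Agent.S1824
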