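import Cfsg.Statements.S0824
import Cfsg.Agent.H3.PermMod
import Cfsg.Agent.OD.Helper3x3d9fff2671
-- import your own Cfsg.Agent.* helpers here

set_option autoImplicit false
open Cfsg

namespace Cfsg.Agent.S0824

/-- Coordinates on the even weight vectors. -/
def C : Matrix ((Fin 1 ⊕ Fin 1) ⊕ Fin 2) (Fin 5) (ZMod 2) := Matrix.of (Sum.elim
  (Sum.elim ![![1, 0, 1, 1, 1]] ![![0, 1, 1, 1, 1]]) ![![0, 0, 1, 0, 1], ![0, 0, 0, 1, 1]])

/-- A basis. -/
def S : Matrix (Fin 5) ((Fin 1 ⊕ Fin 1) ⊕ Fin 2) (ZMod 2) := (Matrix.of (Sum.elim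
  (Sum.elim ![![0, 1, 1, 1, 1]] ![![1, 0, 1, 1, 1]]) ![![0, 0, 0, 1, 1], ![0, 0, 1, 0, 1]])).transpose

/-- The form. -/
abbrev Q : ((Fin 1 ⊕ Fin 1) ⊕ Fin 2 → ZMod 2) → ZMod 2 := Cfsg.quadFormMinus 1 (ZMod 2) 1 1

theorem hCS : CfH3.PermSub C S :=
  .of_matrix 0 (fun i => (S * C) i 0 + (if i = 0 then 1 else 0)) (by decide +kernel)
    (by decide +kernel) (by decide +kernel) (Or.inr rfl)

theorem swap_mem : ∀ (i j : Fin 5) (u : (Fin 1 ⊕ Fin 1) ⊕ Fin 2 → ZMod 2),
    Q ((1 - Matrix.vecMulVec (C.transpose i - C.transpose j) (S i - S j)).mulVec u) = Q u := by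
  decide +kernel

/-- The singular vectors. -/
def s (i : Fin 5) : (Fin 1 ⊕ Fin 1) ⊕ Fin 2 → ZMod 2 := C.mulVec (1 + Pi.single i 1)

theorem s_sing : ∀ i, s i ≠ 0 ∧ Q (s i) = 0 := by decide +kernel

theorem s_inj : ∀ i j, s i = s j → i = j := by decide +kernel

theorem exists_s : ∀ v, v ≠ 0 → Q v = 0 → ∃ i, v = s i := by decide +kernel

theorem span : ∀ w, w = ∑ i, S.mulVec w i • s i := by decide +kernel

/-- O⁻_4(2) ≅ S_5: the isometry group of the form x y + z_1² + z_1 z_2 + z_2² over the field with 2 elements is isomorphic to the symmetric group on 5 letters. -/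
theorem result {F : Type*} [Field F] [Fintype F] (hF : Fintype.card F = 2) : Nonempty (↥(Cfsg.isometryGroup F (Cfsg.quadFormMinus 1 F 1 1)) ≃* Equiv.Perm (Fin 5)) := by
  obtain ⟨e⟩ := CfH3.nonempty_equiv_zmod (p := 2) hF
  obtain ⟨ψ, -⟩ := CfH3.isometryGroup_equiv e (Cfsg.quadFormMinus 1 F 1 1) Q
    (fun u => by simp [Cfsg.quadFormMinus])
  let f := hCS.hom.toHomUnits
  have h1 : ∀ σ, f σ ∈ Cfsg.isometryGroup (ZMod 2) Q :=
    CfH3.forall_mem_of_swap f _ fun i j h u _ => by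
      change Q ((hCS.hom (Equiv.swap i j)).mulVec u) = _
      rw [hCS.hom_swap]
      exact swap_mem i j u
  let φ := f.codRestrict _ h1
  have h0 : ∀ σ i, (hCS.hom σ).mulVec (s i) = s (σ i) := by
    intro σ i
    rw [s, hCS.hom_mulVec _ _ (by revert i; decide +kernel), s]
    congr 1
    ext k
    simp [Pi.single_apply, Equiv.symm_apply_eq]
  have h2 : Function.Injective φ := by
    rw [injective_iff_map_eq_one]
    intro σ h
    have h3 : hCS.hom σ = 1 := congrArg (fun g => g.1.1) h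
    ext1 i
    apply s_inj
    rw [← h0, h3, Matrix.one_mulVec]; rfl
  have h3 : Function.Surjective φ := by
    intro g
    choose σ hσ using fun i => exists_s (g.1.1.mulVec (s i)) (by
      intro h
      have h4 := congrArg (g.1⁻¹.1.mulVec) h
      rw [Matrix.mulVec_mulVec, Units.inv_mul, Matrix.one_mulVec, Matrix.mulVec_zero] at h4
      exact (s_sing i).1 h4) ((g.2 _ 0).trans (s_sing i).2)
    have h4 : Function.Injective σ := by
      intro i j h
      have h5 := congrArg (g.1⁻¹.1.mulVec) ((hσ i).trans (h ▸ (hσ j).symm))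
      simp only [Matrix.mulVec_mulVec, Units.inv_mul, Matrix.one_mulVec] at h5
      exact s_inj _ _ h5
    refine ⟨Equiv.ofBijective σ (Finite.injective_iff_bijective.1 h4),
      Subtype.ext (Units.ext (Matrix.toLin'.injective (LinearMap.ext fun w => ?_)))⟩
    change (hCS.hom _).mulVec w = g.1.1.mulVec w
    rw [span w]
    simp only [Matrix.mulVec_sum, Matrix.mulVec_smul, h0, hσ, Equiv.ofBijective_apply]
  exact ⟨ψ.trans (MulEquiv.ofBijective φ ⟨h2, h3⟩).symm⟩

end Cfsg.Agent.S0824
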