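import Cfsg.Statements.S0530
import Cfsg.Agent.OD.Pre
import Cfsg.Agent.H1.Super

set_option autoImplicit false
open Cfsg

namespace Cfsg.Agent.S0530

open CfH1 Subgroup in
theorem aux {p n : ℕ} (hp : p.Prime) (G : Type*) [Group G] [Finite G]
    (hG : Nat.card G ∣ 2 * p ^ n) : Cfsg.IsSupersolvable G := by
  revert hG
  refine group_induction (P := fun G _ _ => Nat.card G ∣ 2 * p ^ n → Cfsg.IsSupersolvable G) ?_ G
  intro G _ _ ih hG
  haveI := Fact.mk hp
  obtain ⟨P⟩ : Nonempty (Sylow p G) := inferInstance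
  have hi : (P : Subgroup G).index ∣ 2 := by
    have h1 : (P : Subgroup G).index ∣ 2 * p ^ n := (index_dvd_card _).trans hG
    refine Nat.Coprime.dvd_of_dvd_mul_right ?_ h1
    exact Nat.Coprime.pow_right _ ((Nat.Prime.coprime_iff_not_dvd hp).2 P.not_dvd_index).symm
  rcases (Nat.dvd_prime Nat.prime_two).1 hi with h | h
  · have ht := index_eq_one.1 h
    have : IsPGroup p G := (ht ▸ P.isPGroup').of_equiv topEquiv
    exact isSupersolvable_of_isNilpotent this.isNilpotent
  by_cases hb : (P : Subgroup G) = ⊥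
  · rw [hb, index_bot] at h
    haveI := Fact.mk Nat.prime_two
    haveI : IsCyclic G := isCyclic_of_prime_card h
    letI := IsCyclic.commGroup (α := G)
    exact isSupersolvable_of_isNilpotent inferInstance
  haveI : (P : Subgroup G).Normal := normal_of_index_eq_two h
  obtain ⟨v, hv, h1, hc⟩ := exists_mem_centralizer_of_isNilpotent (H := (P : Subgroup G))
    (N := (P : Subgroup G)) P.isPGroup'.isNilpotent le_rfl le_normalizer hb
  obtain ⟨t, ht⟩ := index_eq_two_iff.1 h
  have key : ∀ w : G, w ≠ 1 → (∀ x ∈ (P : Subgroup G), x * w = w * x) →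
      t * w * t⁻¹ ∈ zpowers w → Cfsg.IsSupersolvable G := by
    intro w hw1 hw ht'
    haveI : (zpowers w).Normal := by
      rw [← normalizer_eq_top_iff, eq_top_iff]
      intro g _
      have hP : ∀ x ∈ (P : Subgroup G), x ∈ normalizer ((zpowers w : Subgroup G) : Set G) := by
        intro x hx
        rw [← conj_smul_eq_iff, conj_smul_zpowers, hw x hx, mul_inv_cancel_right]
      have hT : t ∈ normalizer ((zpowers w : Subgroup G) : Set G) := by
        rw [← conj_smul_eq_iff]
        refine Subgroup.eq_of_le_of_card_ge ?_ (by rw [card_smul])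
        rw [conj_smul_zpowers]; exact zpowers_le.2 ht'
      rcases ht g with ⟨h2, -⟩ | ⟨h2, -⟩
      · have := mul_mem (hP _ h2) (inv_mem hT)
        simpa using this
      · exact hP _ h2
    exact isSupersolvable_of_quotient (zpowers w) inferInstance
      (ih _ (card_quotient_lt (by simpa using hw1)) ((card_quotient_dvd_card _).trans hG))
  have ht2 : t * t ∈ (P : Subgroup G) := by
    rw [mul_mem_iff_of_index_two h]
  have hvt : t * v * t⁻¹ ∈ (P : Subgroup G) := Subgroup.Normal.conj_mem ‹_› _ hv t
  by_cases hw : v * (t * v * t⁻¹) = 1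
  · refine key v h1 (fun x hx => hc x hx) ?_
    rw [← eq_inv_of_mul_eq_one_right hw |>.symm]
    exact inv_mem (mem_zpowers v)
  · refine key _ hw (fun x hx => ?_) ?_
    · have e1 := hc x hx
      have e2 := hc (t⁻¹ * x * t) (Subgroup.Normal.conj_mem' ‹_› _ hx t)
      calc x * (v * (t * v * t⁻¹)) = (x * v) * (t * v * t⁻¹) := by group
        _ = v * (t * ((t⁻¹ * x * t) * v) * t⁻¹) := by rw [e1]; group
        _ = _ := by rw [e2]; group
    · have e1 := hc _ ht2
      have e2 := hc _ hvt
      have : t * (v * (t * v * t⁻¹)) * t⁻¹ = v * (t * v * t⁻¹) := by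
        calc t * (v * (t * v * t⁻¹)) * t⁻¹ = (t * v * t⁻¹) * (t * t * v) * t⁻¹ * t⁻¹ := by group
          _ = (t * v * t⁻¹) * v := by rw [e1]; group
          _ = _ := e2
      rw [this]; exact mem_zpowers _

/-- A finite group whose order is twice a prime power is supersolvable. -/
theorem result {G : Type*} [Group G] [Finite G] (p n : ℕ) (hp : p.Prime) (hG : Nat.card G = 2 * p ^ n) : Cfsg.IsSupersolvable G := by
  exact aux hp G (dvd_of_eq hG)

end Cfsg.Agent.S0530
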