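import Cfsg.Statements.S0534
import Cfsg.Agent.OD.Pre
import Cfsg.Agent.H1.Super

set_option autoImplicit false
open Cfsg

namespace Cfsg.Agent.S0534

/-- Let G be a finite solvable group and A a finite abelian group such that every prime dividing the order of A divides the order of G and, for each prime p dividing the order of G, the exponent of p in the order of A is one less than its exponent in the order of G. Then G × A has a subgroup of every order dividing its order. -/
theorem result {G A : Type*} [Group G] [CommGroup A] [Finite G] [Finite A] [Group.IsSolvable G] (hA : ∀ p : ℕ, p.Prime → p ∣ Nat.card A → p ∣ Nat.card G) (hexp : ∀ p : ℕ, p.Prime → p ∣ Nat.card G → (Nat.card A).factorization p + 1 = (Nat.card G).factorization p) : Cfsg.HasSubgroupOfEveryOrder (G × A) := by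
  intro d hd
  rw [Nat.card_prod] at hd
  have hG0 : Nat.card G ≠ 0 := Nat.card_pos.ne'
  have hA0 : Nat.card A ≠ 0 := Nat.card_pos.ne'
  have hd0 : d ≠ 0 := fun e => by
    rw [e, zero_dvd_iff] at hd; exact mul_ne_zero hG0 hA0 hd
  obtain ⟨H, hH⟩ := CfH1.hall_exists {p | (Nat.card A).factorization p < d.factorization p} G
  have h1 := CfH1.PiHall.card hH
  have h2 := CfH1.PiHall.index hH
  have hm := H.card_mul_index
  have hH0 : Nat.card H ≠ 0 := Nat.card_pos.ne'
  have hi0 : H.index ≠ 0 := (CfH1.index_pos H).ne'
  have hf : ∀ p, (Nat.card H).factorization p + H.index.factorization p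
      = (Nat.card G).factorization p := fun p => by
    rw [← hm, Nat.factorization_mul hH0 hi0]; rfl
  have hdf : ∀ p, d.factorization p ≤ (Nat.card G).factorization p + (Nat.card A).factorization p := by
    intro p
    have := (Nat.factorization_le_iff_dvd hd0 (mul_ne_zero hG0 hA0)).2 hd p
    rwa [Nat.factorization_mul hG0 hA0] at this
  have a1 : Nat.card H ∣ d := by
    rw [← Nat.factorization_prime_le_iff_dvd hH0 hd0]
    intro p hp
    by_cases hpH : p ∣ Nat.card H
    · have e1 : (Nat.card A).factorization p < d.factorization p := h1 p hp hpH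
      have e2 := hexp p hp (hpH.trans (Subgroup.card_subgroup_dvd_card H))
      have := hf p
      omega
    · rw [Nat.factorization_eq_zero_of_not_dvd hpH]; exact Nat.zero_le _
  have a2 : d ∣ Nat.card H * Nat.card A := by
    rw [← Nat.factorization_prime_le_iff_dvd hd0 (mul_ne_zero hH0 hA0)]
    intro p hp
    rw [Nat.factorization_mul hH0 hA0, Finsupp.add_apply]
    by_cases hpH : p ∣ H.index
    · have e1 : ¬ (Nat.card A).factorization p < d.factorization p := h2 p hp hpH
      omega
    · have e1 := Nat.factorization_eq_zero_of_not_dvd hpH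
      have := hf p
      have := hdf p
      omega
  obtain ⟨e, rfl⟩ := a1
  have a3 : e ∣ Nat.card A := Nat.dvd_of_mul_dvd_mul_left (Nat.pos_of_ne_zero hH0) a2
  obtain ⟨K, hK⟩ := CfH1.hasSubgroupOfEveryOrder_of_isSupersolvable
    (CfH1.isSupersolvable_of_isNilpotent (G := A) inferInstance) e a3
  refine ⟨H.prod K, ?_⟩
  rw [Nat.card_congr (H.prodEquiv K).toEquiv, Nat.card_prod, hK]

end Cfsg.Agent.S0534
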