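import Cfsg.Statements.S0535
import Cfsg.Agent.OD.Pre
import Cfsg.Agent.H1.Schmidt

set_option autoImplicit false
open Cfsg

namespace Cfsg.Agent.S0535

open CfH1 Subgroup in
theorem aux (G : Type*) [Group G] [Finite G] (h : ∀ H : Subgroup G, H ≠ ⊥ → ∀ p : ℕ, p.Prime →
    p ∣ Nat.card H → ∃ K : Subgroup H, K ≠ ⊤ ∧ ∃ k : ℕ, K.index = p ^ k) : Group.IsSolvable G := by
  revert h
  refine group_induction (P := fun G _ _ => (∀ H : Subgroup G, H ≠ ⊥ → ∀ p : ℕ, p.Prime →
    p ∣ Nat.card H → ∃ K : Subgroup H, K ≠ ⊤ ∧ ∃ k : ℕ, K.index = p ^ k) → Group.IsSolvable G) ?_ G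
  intro G _ _ ih h
  have hs : ∀ H : Subgroup G, H ≠ ⊤ → Group.IsSolvable H := by
    intro H hH
    refine ih H (card_lt_of_ne_top hH) (fun A hA p hp hd => ?_)
    have e := equivMapOfInjective A H.subtype H.subtype_injective
    obtain ⟨K, hK, k, hk⟩ := h (A.map H.subtype)
      (by rwa [Ne, map_eq_bot_iff_of_injective _ H.subtype_injective]) p hp (by rwa [card_subtype])
    refine ⟨K.comap e.toMonoidHom, fun h1 => hK ?_, k, ?_⟩
    · rw [← index_eq_one] at h1 ⊢
      rwa [index_comap_of_surjective _ e.surjective] at h1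
    · rwa [index_comap_of_surjective _ e.surjective]
  have key : ∀ p : ℕ, p.Prime → p ∣ Nat.card G →
      ∃ K : Subgroup G, Group.IsSolvable K ∧ ∃ k : ℕ, K.index = p ^ k := by
    intro p hp hd
    have hne : (⊤ : Subgroup G) ≠ ⊥ := by
      intro e
      rw [← card_top, e, card_bot] at hd
      exact hp.ne_one (Nat.dvd_one.1 hd)
    obtain ⟨K, hK, k, hk⟩ := h ⊤ hne p hp (by rwa [card_top])
    have e : (K.map (⊤ : Subgroup G).subtype).index = K.index := by
      rw [index_map_subtype, index_top, mul_one]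
    refine ⟨K.map (⊤ : Subgroup G).subtype, hs _ (fun h1 => hK ?_), k, e.trans hk⟩
    rw [← index_eq_one] at h1 ⊢
    rw [← e, h1]
  by_contra hG
  by_cases h1 : ∃ p : ℕ, p.Prime ∧ p ∣ Nat.card G
  swap
  · exact hG (CfH5.burnside_of_prime_dvd (p := 2) (q := 2) (fun r hr hd => absurd ⟨r, hr, hd⟩ h1))
  obtain ⟨p, hp, hpd⟩ := h1
  by_cases h2 : ∃ q : ℕ, q.Prime ∧ q ∣ Nat.card G ∧ q ≠ p
  swap
  · push Not at h2
    exact hG (CfH5.burnside_of_prime_dvd (p := p) (q := p) (fun r hr hd => Or.inl (h2 r hr hd)))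
  obtain ⟨q, hq, hqd, hqp⟩ := h2
  by_cases h3 : ∃ r : ℕ, r.Prime ∧ r ∣ Nat.card G ∧ r ≠ p ∧ r ≠ q
  swap
  · push Not at h3
    exact hG (CfH5.burnside_of_prime_dvd (p := p) (q := q) (fun r hr hd => by
      by_cases e : r = p
      · exact Or.inl e
      · exact Or.inr (h3 r hr hd e)))
  obtain ⟨r, hr, hrd, hrp, hrq⟩ := h3
  obtain ⟨A, hA, a, ha⟩ := key p hp hpd
  obtain ⟨B, hB, b, hb⟩ := key q hq hqd
  obtain ⟨C, hC, c, hc⟩ := key r hr hrd
  refine hG (isSolvable_of_three_coprime hA hB hC ?_ ?_ ?_)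
  · rw [ha, hb]; exact Nat.Coprime.pow _ _ ((Nat.coprime_primes hp hq).2 hqp.symm)
  · rw [ha, hc]; exact Nat.Coprime.pow _ _ ((Nat.coprime_primes hp hr).2 hrp.symm)
  · rw [hb, hc]; exact Nat.Coprime.pow _ _ ((Nat.coprime_primes hq hr).2 hrq.symm)

/-- Suppose that for every nontrivial subgroup H of a finite group and every prime p dividing the order of H there is a proper subgroup of H whose index in H is a power of p. Then the group is solvable. -/
theorem result {G : Type*} [Group G] [Finite G] (h : ∀ H : Subgroup G, H ≠ ⊥ → ∀ p : ℕ, p.Prime → p ∣ Nat.card H → ∃ K : Subgroup H, K ≠ ⊤ ∧ ∃ k : ℕ, K.index = p ^ k) : Group.IsSolvable G := by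
  exact aux G h

end Cfsg.Agent.S0535
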