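import Cfsg.Statements.S0537
import Cfsg.Agent.OD.Pre
import Cfsg.Agent.H1.Schmidt

set_option autoImplicit false
open Cfsg

namespace Cfsg.Agent.S0537

/-- A finite non-abelian group in which every proper subgroup is abelian is either of prime-power order, or is generated by a cyclic Sylow p-subgroup and a normal Sylow q-subgroup that is elementary abelian, for distinct primes p and q. -/
theorem result {G : Type*} [Group G] [Finite G] (hna : ¬ IsMulCommutative G) (h : ∀ H : Subgroup G, H ≠ ⊤ → IsMulCommutative H) : (∃ p : ℕ, p.Prime ∧ IsPGroup p G) ∨ ∃ p q : ℕ, p.Prime ∧ q.Prime ∧ p ≠ q ∧ ∃ (P : Sylow p G) (Q : Sylow q G), IsCyclic P ∧ (Q : Subgroup G).Normal ∧ Cfsg.IsElementaryAbelian q (Q : Subgroup G) ∧ (P : Subgroup G) ⊔ Q = ⊤ := by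
  open CfH1 Subgroup in
  by_cases hG : Group.IsNilpotent G
  · left
    by_contra hc
    push Not at hc
    refine hna (isMulCommutative_of_isNilpotent_of_sylow (fun p hp P => h _ (fun e => ?_)))
    exact hc p hp.out ((e ▸ P.isPGroup').of_equiv topEquiv)
  right
  obtain ⟨p, q, hp, hq, hne, P, Q, x, hP, hQ, ht, hc⟩ := schmidt hG
    (fun H hH => CfH7.isNilpotent_of_isMulCommutative (h H hH))
  haveI := Fact.mk hp
  haveI := Fact.mk hq
  have hQt : (Q : Subgroup G) ≠ ⊤ := fun e => hG ((e ▸ Q.isPGroup').of_equiv topEquiv).isNilpotent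
  haveI := h _ hQt
  have hx : (Nat.card (zpowers x)).Coprime q :=
    CfH7.coprime_card_of_isPGroup_of_ne hne (hP ▸ P.isPGroup')
  refine ⟨p, q, hp, hq, hne, P, Q, hP ▸ inferInstance, hQ, ⟨this, ?_⟩, by rw [hP, sup_comm, ht]⟩
  let A : Subgroup G :=
    { carrier := {u | u ∈ (Q : Subgroup G) ∧ u ^ q = 1}
      one_mem' := ⟨one_mem _, one_pow _⟩
      mul_mem' := fun {a b} ha hb => ⟨mul_mem ha.1 hb.1, by
        have hc : Commute a b := mul_comm_of_mem ha.1 hb.1
        rw [hc.mul_pow, ha.2, hb.2, one_mul]⟩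
      inv_mem' := fun {a} ha => ⟨inv_mem ha.1, by rw [inv_pow, ha.2, inv_one]⟩ }
  haveI : A.Normal := ⟨fun a ha g => ⟨hQ.conj_mem a ha.1 g, by rw [conj_pow, ha.2]; group⟩⟩
  by_cases hA : A ⊔ zpowers x = ⊤
  · have := CfH7.le_of_isPGroup_of_le_sup (N := A) Q.isPGroup' hx (hA ▸ le_top)
    exact fun a ha => (this ha).2
  exfalso
  haveI := h _ hA
  set B := (frattini (Q : Subgroup G)).map (Q : Subgroup G).subtype with hBdef
  have hB : B ⊔ zpowers x ≠ ⊤ := by
    intro hB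
    have h1 := CfH7.le_of_isPGroup_of_le_sup (N := B) Q.isPGroup' hx (hB ▸ le_top)
    have h2 := eq_of_sup_eq_of_le_frattiniOf (K := ⊥) h1 (sup_bot_eq _)
    refine hc ?_
    rw [← h2]
    intro y hy
    rw [mem_bot.1 hy, one_mul, mul_one]
  haveI := h _ hB
  refine hc (fun u hu => ?_)
  have hxu : x * u * x⁻¹ ∈ (Q : Subgroup G) := hQ.conj_mem u hu x
  have e1 : u ^ q * x = x * u ^ q := mul_comm_of_mem
    (mem_sup_left (pow_mem_frattiniOf Q.isPGroup' hu) : u ^ q ∈ B ⊔ zpowers x)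
    (mem_sup_right (mem_zpowers x))
  have e2 : (x * u * x⁻¹ * u⁻¹) ^ q = 1 := by
    have hc : Commute (x * u * x⁻¹) u⁻¹ := mul_comm_of_mem hxu (inv_mem hu)
    rw [hc.mul_pow, conj_pow, ← e1]; group
  have e3 : Commute x (x * u * x⁻¹ * u⁻¹) := mul_comm_of_mem
    (mem_sup_right (mem_zpowers x) : x ∈ A ⊔ zpowers x)
    (mem_sup_left ⟨mul_mem hxu (inv_mem hu), e2⟩)
  refine (commute_of_commute_commutator e3 ?_).eq.symm
  rw [Nat.card_zpowers] at hx
  exact Nat.Coprime.coprime_dvd_right (orderOf_dvd_of_pow_eq_one e2) hx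

end Cfsg.Agent.S0537
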