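import Cfsg.Statements.S0546
import Cfsg.Agent.OD.Pre
import Cfsg.Agent.H1.Carter

set_option autoImplicit false
open Cfsg

namespace Cfsg.Agent.S0546

/-- The normal closure of a system normalizer of a finite solvable group is the whole group. -/
theorem result {G : Type*} [Group G] [Finite G] [Group.IsSolvable G] (K : Nat.Primes → Subgroup G) (hK : Cfsg.IsComplementSystem K) : Subgroup.normalClosure ((Cfsg.systemNormalizer K : Subgroup G) : Set G) = ⊤ := by
  open CfH1 Subgroup in
  set N := normalClosure ((Cfsg.systemNormalizer K : Subgroup G) : Set G) with hN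
  haveI : (N ⊔ commutator G).Normal := Subgroup.Normal.of_commutator_le _ le_sup_right
  have h1 := systemNormalizer_sup_eq_top hK (N ⊔ commutator G)
    (CfH7.isNilpotent_of_isMulCommutative
      (Normal.quotient_commutative_iff_commutator_le.2 le_sup_right))
  rw [sup_eq_right.2 (le_sup_of_le_left le_normalClosure)] at h1
  by_contra hne
  haveI : Nontrivial (G ⧸ N) := QuotientGroup.nontrivial_iff.2 hne
  have h2 := Group.IsSolvable.commutator_lt_top_of_nontrivial (G ⧸ N)
  refine h2.ne ?_
  have hs := QuotientGroup.mk'_surjective N
  rw [_root_.commutator, ← map_top_of_surjective _ hs, ← map_commutator, map_top_of_surjective _ hs,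
    map_mk'_eq_top_iff, sup_comm]
  exact h1

end Cfsg.Agent.S0546
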