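import Cfsg.Statements.S0547
import Cfsg.Agent.OD.Pre
import Cfsg.Agent.H1.Primitive

set_option autoImplicit false
open Cfsg

namespace Cfsg.Agent.S0547

theorem trans {G : Type*} [Group G] {Ω : Type*} [MulAction G Ω] [FaithfulSMul G Ω]
    (hprim : MulAction.IsPreprimitive G Ω) (M : Subgroup G) [M.Normal] (hM : M ≠ ⊥) :
    MulAction.IsPretransitive M Ω := by
  refine MulAction.IsQuasiPreprimitive.isPretransitive_of_normal (fun h => hM ?_)
  rw [eq_bot_iff]
  intro m hm
  rw [Subgroup.mem_bot]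
  refine eq_of_smul_eq_smul (α := Ω) (fun ω => ?_)
  have : ω ∈ MulAction.fixedPoints M Ω := h ▸ Set.mem_univ ω
  rw [one_smul]
  exact this ⟨m, hm⟩

theorem eq_one {G : Type*} [Group G] {Ω : Type*} [MulAction G Ω] [FaithfulSMul G Ω]
    (M : Subgroup G) [MulAction.IsPretransitive M Ω] (ω : Ω) (c : G) (h1 : c • ω = ω)
    (h2 : c ∈ Subgroup.centralizer (M : Set G)) : c = 1 := by
  refine eq_of_smul_eq_smul (α := Ω) (fun ω' => ?_)
  obtain ⟨m, rfl⟩ := MulAction.exists_smul_eq M ω ω'
  rw [one_smul]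
  change c • (m : G) • ω = (m : G) • ω
  rw [smul_smul, ← h2 m m.2, ← smul_smul, h1]

/-- Let a finite solvable group G act faithfully and primitively on a set, and let M be a minimal normal subgroup of G. Then M is transitive with trivial point stabilizers, and the number of points equals the order of M, which is a prime power p ^ d with d ≥ 1. -/
theorem result {G : Type*} [Group G] [Finite G] [Group.IsSolvable G] {Ω : Type*} [Nonempty Ω] [MulAction G Ω] [FaithfulSMul G Ω] (hprim : MulAction.IsPreprimitive G Ω) (M : Subgroup G) [M.Normal] (hM : M ≠ ⊥) (hmin : ∀ K : Subgroup G, K.Normal → K ≤ M → K = ⊥ ∨ K = M) : MulAction.IsPretransitive M Ω ∧ (∀ ω : Ω, MulAction.stabilizer M ω = ⊥) ∧ ∃ p d : ℕ, p.Prime ∧ 0 < d ∧ Nat.card Ω = p ^ d ∧ Nat.card M = p ^ d := by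
  open CfH1 Subgroup in
  haveI := trans hprim M hM
  have mM := isMinNormal_of_forall hM hmin
  haveI := mM.isMulCommutative inferInstance
  have hs : ∀ ω : Ω, MulAction.stabilizer M ω = ⊥ := by
    intro ω
    rw [eq_bot_iff]
    intro m hm
    exact mem_bot.2 (Subtype.ext (eq_one M ω m hm (le_centralizer M m.2)))
  obtain ⟨p, hp, hP⟩ := mM.exists_isPGroup inferInstance
  haveI := Fact.mk hp
  obtain ⟨d, hd⟩ := hP.exists_card_eq
  refine ⟨inferInstance, hs, p, d, hp, Nat.pos_of_ne_zero ?_, ?_, hd⟩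
  · rintro rfl
    exact hM (card_eq_one.1 hd)
  · obtain ⟨ω⟩ := ‹Nonempty Ω›
    rw [← hd, ← MulAction.index_stabilizer_of_transitive M ω, hs, index_bot]

end Cfsg.Agent.S0547
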