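import Cfsg.Statements.S0548
import Cfsg.Agent.OD.Pre
import Cfsg.Agent.H1.Primitive

set_option autoImplicit false
open Cfsg

namespace Cfsg.Agent.S0548

theorem trans {G : Type*} [Group G] {Ω : Type*} [MulAction G Ω] [FaithfulSMul G Ω]
    (hprim : MulAction.IsPreprimitive G Ω) (M : Subgroup G) [M.Normal] (hM : M ≠ ⊥) :
    MulAction.IsPretransitive M Ω := by
  refine MulAction.IsQuasiPreprimitive.isPretransitive_of_normal (fun h => hM ?_)
  rw [eq_bot_iff]
  intro m hm
  rw [Subgroup.mem_bot]
  refine eq_of_smul_eq_smul (α := Ω) (fun ω => ?_)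
  have : ω ∈ MulAction.fixedPoints M Ω := h ▸ Set.mem_univ ω
  rw [one_smul]
  exact this ⟨m, hm⟩

theorem eq_one {G : Type*} [Group G] {Ω : Type*} [MulAction G Ω] [FaithfulSMul G Ω]
    (M : Subgroup G) [MulAction.IsPretransitive M Ω] (ω : Ω) (c : G) (h1 : c • ω = ω)
    (h2 : c ∈ Subgroup.centralizer (M : Set G)) : c = 1 := by
  refine eq_of_smul_eq_smul (α := Ω) (fun ω' => ?_)
  obtain ⟨m, rfl⟩ := MulAction.exists_smul_eq M ω ω'
  rw [one_smul]
  change c • (m : G) • ω = (m : G) • ω
  rw [smul_smul, ← h2 m m.2, ← smul_smul, h1]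

/-- Let a finite solvable group G act faithfully and primitively on a set, let M be a minimal normal subgroup and H the stabilizer of a point. Then H is a complement to M, no non-identity element of H centralizes M, and the only subgroups of M normalized by H are the trivial subgroup and M. -/
theorem result {G : Type*} [Group G] [Finite G] [Group.IsSolvable G] {Ω : Type*} [MulAction G Ω] [FaithfulSMul G Ω] (hprim : MulAction.IsPreprimitive G Ω) (M : Subgroup G) [M.Normal] (hM : M ≠ ⊥) (hmin : ∀ K : Subgroup G, K.Normal → K ≤ M → K = ⊥ ∨ K = M) (ω : Ω) : Subgroup.IsComplement' M (MulAction.stabilizer G ω) ∧ MulAction.stabilizer G ω ⊓ Subgroup.centralizer (M : Set G) = ⊥ ∧ ∀ K : Subgroup G, K ≤ M → MulAction.stabilizer G ω ≤ Subgroup.normalizer (K : Set G) → K = ⊥ ∨ K = M := by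
  open CfH1 Subgroup in
  haveI := trans hprim M hM
  have mM := isMinNormal_of_forall hM hmin
  haveI := mM.isMulCommutative inferInstance
  have hs : M ⊔ MulAction.stabilizer G ω = ⊤ := by
    refine sup_eq_top_of_forall_exists_mul (fun g => ?_)
    obtain ⟨m, hm⟩ := MulAction.exists_smul_eq M ω (g • ω)
    refine ⟨m, m.2, (m : G)⁻¹ * g, ?_, by group⟩
    rw [MulAction.mem_stabilizer_iff, mul_smul, ← hm]
    exact inv_smul_smul (m : G) ω
  refine ⟨isComplement'_of_normal ?_ hs, ?_, fun K hK hn => hmin K ?_ hK⟩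
  · rw [eq_bot_iff]
    intro m hm
    exact mem_bot.2 (eq_one M ω m hm.2 (le_centralizer M hm.1))
  · rw [eq_bot_iff]
    intro m hm
    exact mem_bot.2 (eq_one M ω m hm.1 hm.2)
  · refine normal_of_sup_le_normalizer hs (le_trans ?_ (centralizer_le_normalizer _)) hn
    exact fun a ha x hx => mul_comm_of_mem (hK hx) ha

end Cfsg.Agent.S0548
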