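import Cfsg.Statements.S0550
import Cfsg.Agent.OD.Pre
import Cfsg.Agent.H1.Primitive

set_option autoImplicit false
open Cfsg

namespace Cfsg.Agent.S0550

/-- Let U be a maximal subgroup with trivial normal core in a finite group G, and A ≠ B two minimal normal subgroups. Then A is the centralizer of B and B that of A, U complements each of them, A and B are non-abelian, and A, B and (A ⊔ B) ∩ U are pairwise isomorphic. -/
theorem result {G : Type*} [Group G] [Finite G] (U : Subgroup G) (hU : IsCoatom U) (hcore : U.normalCore = ⊥) (A B : Subgroup G) [A.Normal] [B.Normal] (hA : A ≠ ⊥) (hB : B ≠ ⊥) (hAmin : ∀ K : Subgroup G, K.Normal → K ≤ A → K = ⊥ ∨ K = A) (hBmin : ∀ K : Subgroup G, K.Normal → K ≤ B → K = ⊥ ∨ K = B) (hAB : A ≠ B) : Subgroup.centralizer (B : Set G) = A ∧ Subgroup.centralizer (A : Set G) = B ∧ Subgroup.IsComplement' A U ∧ Subgroup.IsComplement' B U ∧ ¬ IsMulCommutative A ∧ Nonempty (A ≃* B) ∧ Nonempty (A ≃* ↥((A ⊔ B) ⊓ U)) := by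
  open CfH1 Subgroup in
  have mA := isMinNormal_of_forall hA hAmin
  have mB := isMinNormal_of_forall hB hBmin
  have hd : A ⊓ B = ⊥ := (mA.le_or_disjoint B).resolve_left
    (fun h => hAB (mB.eq_of_le inferInstance hA h))
  have c1 : A = centralizer (B : Set G) := eq_centralizer_of_coreFree hU hcore hB inferInstance hA
    (le_centralizer_of_disjoint le_normalizer_of_normal le_normalizer_of_normal (disjoint_iff.2 hd))
  have c2 : B = centralizer (A : Set G) := eq_centralizer_of_coreFree hU hcore hA inferInstance hB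
    (le_centralizer_of_disjoint le_normalizer_of_normal le_normalizer_of_normal
      (disjoint_iff.2 hd).symm)
  have dA : A ⊓ U = ⊥ := by rw [c1]; exact centralizer_inf_eq_bot_of_coreFree hU hcore hB
  have dB : B ⊓ U = ⊥ := by rw [c2]; exact centralizer_inf_eq_bot_of_coreFree hU hcore hA
  have sA := sup_eq_top_of_coreFree hU hcore (N := A) inferInstance hA
  have sB := sup_eq_top_of_coreFree hU hcore (N := B) inferInstance hB
  have eA := dedekind_left (H := U) (N := A) (L := A ⊔ B) le_normalizer_of_normal le_sup_left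
  have eB := dedekind_left (H := U) (N := B) (L := A ⊔ B) le_normalizer_of_normal le_sup_right
  rw [sA, top_inf_eq, inf_comm] at eA
  rw [sB, top_inf_eq, inf_comm] at eB
  obtain ⟨e1⟩ := nonempty_mulEquiv_of_sup_eq (N := B) (H := A) (K := (A ⊔ B) ⊓ U)
    (by rwa [inf_comm]) (le_bot_iff.1 (dB ▸ inf_le_inf_left _ inf_le_right))
    (by rw [← eB, sup_comm])
  obtain ⟨e2⟩ := nonempty_mulEquiv_of_sup_eq (N := A) (H := B) (K := (A ⊔ B) ⊓ U)
    hd (le_bot_iff.1 (dA ▸ inf_le_inf_left _ inf_le_right)) eA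
  refine ⟨c1.symm, c2.symm, isComplement'_of_normal dA sA, isComplement'_of_normal dB sB, ?_,
    ⟨e1.trans e2.symm⟩, ⟨e1⟩⟩
  intro hc
  have : A ≤ B := c2 ▸ le_centralizer A
  exact hA (by rw [← hd, inf_eq_left.2 this])

end Cfsg.Agent.S0550
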