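import Cfsg.Statements.S0552
import Cfsg.Agent.OD.Pre
import Cfsg.Agent.H1.Primitive

set_option autoImplicit false
open Cfsg

namespace Cfsg.Agent.S0552

/-- Let σ be an automorphism of a finite solvable group G fixing every element of the Fitting subgroup. If σ is not the identity then the order of σ and the order of G have a common prime factor. -/
theorem result {G : Type*} [Group G] [Finite G] [Group.IsSolvable G] (σ : G ≃* G) (hσ : ∀ x ∈ Cfsg.fittingSubgroup G, σ x = x) (hne : σ ≠ MulEquiv.refl G) : ¬ (orderOf σ).Coprime (Nat.card G) := by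
  open CfH1 Subgroup in
  intro hc
  refine hne (MulEquiv.ext (fun g => ?_))
  have h1 : g⁻¹ * σ g ∈ Cfsg.fittingSubgroup G := by
    refine centralizer_fitting_le (fun f hf => ?_)
    have h2 := hσ _ ((CfH7.fitting_normal G).conj_mem f hf g)
    rw [map_mul, map_mul, map_inv, hσ f hf] at h2
    calc f * (g⁻¹ * σ g) = g⁻¹ * (g * f * g⁻¹) * σ g := by group
      _ = g⁻¹ * σ g * f := by rw [← h2]; group
  have h3 : ∀ k : ℕ, (σ ^ k : MulAut G) g = g * (g⁻¹ * σ g) ^ k := by
    intro k
    induction k with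
    | zero => simp
    | succ k ih =>
      rw [pow_succ', MulAut.mul_apply, ih, map_mul, hσ _ (pow_mem h1 k), pow_succ',
        ← mul_assoc, mul_inv_cancel_left]
  have h4 := h3 (orderOf σ)
  rw [pow_orderOf_eq_one] at h4
  have h5 : (g⁻¹ * σ g) ^ orderOf σ = 1 := by simpa using h4.symm
  have h6 := Nat.dvd_gcd (orderOf_dvd_of_pow_eq_one h5) (orderOf_dvd_natCard (g⁻¹ * σ g))
  rw [hc, Nat.dvd_one, orderOf_eq_one_iff] at h6
  exact (inv_mul_eq_one.1 h6).symm

end Cfsg.Agent.S0552
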