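import Cfsg.Statements.S0553
import Cfsg.Agent.OD.Pre
import Cfsg.Agent.H1.Primitive

set_option autoImplicit false
open Cfsg

namespace Cfsg.Agent.S0553

/-- Let G be a nontrivial finite solvable group in which every maximal subgroup has order coprime to its index. Then for some prime p dividing the order of G the Sylow p-subgroups of G are normal. -/
theorem result {G : Type*} [Group G] [Finite G] [Group.IsSolvable G] [Nontrivial G] (h : ∀ M : Subgroup G, IsCoatom M → (Nat.card M).Coprime M.index) : ∃ p : ℕ, p.Prime ∧ p ∣ Nat.card G ∧ ∀ P : Sylow p G, (P : Subgroup G).Normal := by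
  open CfH1 Subgroup in
  haveI : Nontrivial (G ⧸ frattini G) := QuotientGroup.nontrivial_iff.2 frattini_ne_top
  obtain ⟨N, p, hp, hN, hE, hNp⟩ := exists_isMinNormal_isPGroup (G ⧸ frattini G)
  haveI := hN.normal
  haveI := hE.1
  haveI := Fact.mk hp
  have hs := QuotientGroup.mk'_surjective (frattini G)
  have h1 : ¬ N ≤ frattini (G ⧸ frattini G) := by
    rw [frattini_quotient_frattini, le_bot_iff]; exact hN.ne_bot
  rw [le_frattini_iff] at h1
  push Not at h1
  obtain ⟨M, hM, hNM⟩ := h1
  have hc := hN.isComplement'_of_not_le hM hNM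
  have h2 := h _ (isCoatom_comap_mk' hM)
  rw [index_comap_of_surjective _ hs, hc.index_eq_card, card_comap_mk'] at h2
  have hpN := CfH9.dvd_card_of_ne_bot hNp hN.ne_bot
  set A := N.comap (QuotientGroup.mk' (frattini G)) with hA
  have hAn : Group.IsNilpotent A := isNilpotent_of_map_mk'_of_le_frattini (B := frattini G) le_rfl
    (by rw [hA, map_comap_eq_self_of_surjective hs]; exact hNp.isNilpotent)
  refine ⟨p, hp, hpN.trans ((card_subgroup_dvd_card N).trans (card_quotient_dvd_card _)),
    fun P => ?_⟩
  have hle : (P : Subgroup G) ≤ A := by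
    refine le_of_coprime_index ?_
    rw [index_comap_of_surjective _ hs, hc.symm.index_eq_card]
    obtain ⟨k, hk⟩ := P.isPGroup'.exists_card_eq
    rw [hk]
    exact Nat.Coprime.pow_left _ (Nat.Coprime.coprime_dvd_right hpN
      (Nat.Coprime.coprime_mul_right h2)).symm
  have h3 := CfH7.le_pCore_of_le_fitting P.isPGroup' (hle.trans (CfH7.le_fitting inferInstance hAn))
  rw [le_antisymm h3 (CfH7.pCore_le_sylow P)]
  infer_instance

end Cfsg.Agent.S0553
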