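import Cfsg.Statements.S0554
import Cfsg.Agent.OD.Pre
import Cfsg.Agent.H1.Primitive

set_option autoImplicit false
open Cfsg

namespace Cfsg.Agent.S0554

theorem move {G : Type*} [Group G] (N : Subgroup G) [hN : N.Normal] (t : ℕ) (s : Fin t → G)
    (j : Fin t) (n : G) (hn : n ∈ N) :
    ∃ m ∈ N, n * (List.ofFn s).prod = (List.ofFn (Function.update s j (m * s j))).prod := by
  induction t generalizing n with
  | zero => exact j.elim0
  | succ t ih =>
    cases j using Fin.cases with
    | zero =>
      refine ⟨n, hn, ?_⟩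
      simp [List.ofFn_succ, mul_assoc, Function.update_of_ne (Fin.succ_ne_zero _)]
    | succ j =>
      obtain ⟨m, hm, e⟩ := ih (fun i => s i.succ) j _ (hN.conj_mem' n hn (s 0))
      refine ⟨m, hm, ?_⟩
      rw [List.ofFn_succ, List.ofFn_succ, List.prod_cons, List.prod_cons,
        Function.update_of_ne (Fin.succ_ne_zero _).symm]
      have : (fun i => Function.update s j.succ (m * s j.succ) i.succ)
          = Function.update (fun i => s i.succ) j (m * s j.succ) := by
        ext i
        by_cases h : i = j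
        · subst h; simp
        · rw [Function.update_of_ne h, Function.update_of_ne (fun e => h (Fin.succ_injective _ e))]
      rw [this, ← e]; group

open CfH1 Subgroup in
theorem aux (t : ℕ) (p : Fin t → ℕ) (hp : ∀ i, (p i).Prime) (G : Type*) [Group G] [Finite G]
    [hG : Group.IsSolvable G] (hall : ∀ q : ℕ, q.Prime → q ∣ Nat.card G → ∃ i, p i = q)
    (S : Fin t → Subgroup G) (hS : ∀ i, CfH9.SylIn (p i) (S i) ⊤) (g : G) :
    ∃ s : (i : Fin t) → G, (∀ i, s i ∈ S i) ∧ g = (List.ofFn s).prod := by
  revert hG hall S g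
  refine group_induction (P := fun G _ _ => ∀ [Group.IsSolvable G],
    (∀ q : ℕ, q.Prime → q ∣ Nat.card G → ∃ i, p i = q) → ∀ (S : Fin t → Subgroup G),
    (∀ i, CfH9.SylIn (p i) (S i) ⊤) → ∀ g : G,
    ∃ s : (i : Fin t) → G, (∀ i, s i ∈ S i) ∧ g = (List.ofFn s).prod) ?_ G
  intro G _ _ ih _ hall S hS g
  rcases subsingleton_or_nontrivial G with h0 | h0
  · exact ⟨fun _ => 1, fun _ => one_mem _, Subsingleton.elim _ _⟩
  obtain ⟨N, q, hq, hN, -, hNq⟩ := exists_isMinNormal_isPGroup G
  haveI := hN.normal
  haveI := Fact.mk hq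
  obtain ⟨j, rfl⟩ := hall q hq
    ((CfH9.dvd_card_of_ne_bot hNq hN.ne_bot).trans (card_subgroup_dvd_card N))
  have hs := QuotientGroup.mk'_surjective N
  obtain ⟨s, h1, h2⟩ := ih (G ⧸ N) (card_quotient_lt hN.ne_bot)
    (fun q hq hd => hall q hq (hd.trans (card_quotient_dvd_card N)))
    (fun i => (S i).map (QuotientGroup.mk' N))
    (fun i => by haveI := Fact.mk (hp i); exact (hS i).map_surj hs) g
  choose r hr1 hr2 using h1
  have e : (g : G ⧸ N) = ((List.ofFn r).prod : G) := by
    rw [h2, ← QuotientGroup.mk'_apply, map_list_prod, List.map_ofFn]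
    congr 2
    ext i
    exact (hr2 i).symm
  have hn : g * ((List.ofFn r).prod)⁻¹ ∈ N := by
    rw [← QuotientGroup.eq_one_iff, QuotientGroup.mk_mul, QuotientGroup.mk_inv, e, mul_inv_cancel]
  obtain ⟨m, hm, e2⟩ := move N t r j _ hn
  refine ⟨_, fun i => ?_, by rw [← e2]; group⟩
  by_cases h : i = j
  · subst h
    rw [Function.update_self]
    exact mul_mem ((hS i).le_of_le_Nm hNq le_top le_normalizer_of_normal hm) (hr1 i)
  · rw [Function.update_of_ne h]; exact hr1 i

/-- Let G be a finite solvable group and let S assign to each of t distinct primes, including every prime divisor of the order of G, a Sylow subgroup of G. Then every element of G is a product s_0 s_1 ⋯ s_(t-1) with s_i in S i, the factors taken in the given order. -/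
theorem result {G : Type*} [Group G] [Finite G] [Group.IsSolvable G] (t : ℕ) (p : Fin t → ℕ) (hp : ∀ i, (p i).Prime) (hinj : Function.Injective p) (hall : ∀ q : ℕ, q.Prime → q ∣ Nat.card G → ∃ i, p i = q) (S : (i : Fin t) → Sylow (p i) G) : ∀ g : G, ∃ s : (i : Fin t) → G, (∀ i, s i ∈ (S i : Subgroup G)) ∧ g = (List.ofFn s).prod := by
  exact aux t p hp G hall (fun i => S i) (fun i => CfH9.sylIn_top _)

end Cfsg.Agent.S0554
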