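import Cfsg.Statements.S0555
import Cfsg.Agent.OD.Pre
import Cfsg.Agent.H1.Primitive

set_option autoImplicit false
open Cfsg

namespace Cfsg.Agent.S0555

/-- Let i ≥ 1. If in the derived series of a group the quotient of the i-th term by the (i+1)-st and the quotient of the (i+1)-st by the (i+2)-nd are both cyclic, then the (i+1)-st and (i+2)-nd terms coincide. -/
theorem result {G : Type*} [Group G] (i : ℕ) (hi : 1 ≤ i) (h₁ : IsCyclic (↥(derivedSeries G i) ⧸ (derivedSeries G (i + 1)).subgroupOf (derivedSeries G i))) (h₂ : IsCyclic (↥(derivedSeries G (i + 1)) ⧸ (derivedSeries G (i + 2)).subgroupOf (derivedSeries G (i + 1)))) : derivedSeries G (i + 1) = derivedSeries G (i + 2) := by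
  open CfH1 Subgroup in
  refine le_antisymm ?_ (derivedSeries_succ G (i + 1) ▸ commutator_le_left _ _)
  obtain ⟨x, hx, h1⟩ := exists_le_sup_zpowers_of_isCyclic_quotient h₁
  obtain ⟨y, hy, h2⟩ := exists_le_sup_zpowers_of_isCyclic_quotient h₂
  set f := QuotientGroup.mk' (derivedSeries G (i + 2)) with hf
  have hA : (derivedSeries G (i + 1)).map f = zpowers (f y) := by
    refine le_antisymm ?_ (zpowers_le.2 (mem_map_of_mem f hy))
    rintro _ ⟨a, ha, rfl⟩
    obtain ⟨k, hk⟩ := h2 a ha
    refine mem_zpowers_iff.2 ⟨k, ?_⟩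
    rw [← map_zpow]
    exact QuotientGroup.eq.2 hk
  haveI : ((derivedSeries G (i + 1)).map f).Normal :=
    Subgroup.Normal.map inferInstance f (QuotientGroup.mk'_surjective _)
  have hc := commutator_le_centralizer_of_isCyclic ((derivedSeries G (i + 1)).map f)
    (hA ▸ inferInstance)
  have hD : ∀ a ∈ derivedSeries G i, f a ∈ commutator (G ⧸ derivedSeries G (i + 2)) := by
    intro a ha
    obtain ⟨j, rfl⟩ : ∃ j, i = j + 1 := ⟨i - 1, by omega⟩
    rw [derivedSeries_succ] at ha
    have := mem_map_of_mem f ha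
    rw [map_commutator] at this
    exact commutator_mono le_top le_top this
  rw [derivedSeries_succ, commutator_le]
  intro a ha b hb
  obtain ⟨k, hk⟩ := h1 a ha
  obtain ⟨l, hl⟩ := h1 b hb
  rw [← QuotientGroup.eq_one_iff, ← QuotientGroup.mk'_apply, map_commutatorElement,
    commutatorElement_eq_one_iff_commute, ← hf]
  have c1 : Commute (f ((x ^ k)⁻¹ * a)) (f b) := hc (hD b hb) _ (mem_map_of_mem f hk)
  have c2 : Commute (f ((x ^ l)⁻¹ * b)) (f (x ^ k)) :=
    hc (hD _ (zpow_mem hx k)) _ (mem_map_of_mem f hl)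
  have c3 : Commute (f (x ^ k)) (f (x ^ l)) := (Commute.zpow_zpow_self x k l).map f
  have c4 : Commute (f (x ^ k)) (f b) := by
    have := c3.mul_right c2.symm
    rwa [← map_mul, mul_inv_cancel_left] at this
  have := c4.mul_left c1
  rwa [← map_mul, mul_inv_cancel_left] at this

end Cfsg.Agent.S0555
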