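import Cfsg.Statements.S0556
import Cfsg.Agent.OD.Pre
import Cfsg.Agent.H1.Primitive

set_option autoImplicit false
open Cfsg

namespace Cfsg.Agent.S0556

/-- If a finite group has a maximal subgroup that is abelian, then the third term of its derived series is trivial (so the group is solvable of derived length at most three). -/
theorem result {G : Type*} [Group G] [Finite G] (A : Subgroup G) (hA : IsCoatom A) [IsMulCommutative A] : derivedSeries G 3 = ⊥ := by
  open CfH1 Subgroup Pointwise in
  have d1 : ∀ N : Subgroup G, commutator G ≤ N → ⁅N, N⁆ ≤ center G → derivedSeries G 3 = ⊥ := by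
    intro N h1 h2
    rw [derivedSeries_succ, commutator_eq_bot_iff_le_centralizer]
    have : derivedSeries G 2 ≤ center G := (commutator_mono h1 h1).trans h2
    exact this.trans (center_le_centralizer _)
  by_cases hn : A.Normal
  · refine d1 A (commutator_le_of_index_prime (index_prime_of_isCoatom_of_normal hA)) ?_
    rw [commutator_eq_bot_iff_le_centralizer.2 (le_centralizer A)]
    exact bot_le
  by_cases hZ : center G ≤ A
  swap
  · exact absurd (normal_of_sup_le_normalizer (sup_eq_top_of_isCoatom hA hZ)
      (center_le_normalizer _) le_normalizer) hn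
  have hN : normalizer (A : Set G) = A := by
    rcases (le_normalizer (H := A)).lt_or_eq with h | h
    · exact absurd (normalizer_eq_top_iff.1 (hA.2 _ h)) hn
    · exact h.symm
  have ti : ∀ g, g ∉ A → ∀ x ∈ A, g * x * g⁻¹ ∈ A → x ∈ center G := by
    intro g hg x hx hx'
    have h1 : ¬ MulAut.conj g⁻¹ • A ≤ A := fun h => hg (by
      have := conj_smul_eq_iff.1 (Subgroup.eq_of_le_of_card_ge h (by rw [card_smul]))
      rw [hN] at this
      simpa using this)
    have h2 : MulAut.conj g⁻¹ • A ⊔ A ≤ centralizer {x} := by
      refine sup_le (fun y hy => ?_) (fun y hy => ?_)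
      · rw [mem_conj_smul, inv_inv] at hy
        rw [mem_centralizer_singleton_iff]
        have := mul_comm_of_mem hy hx'
        calc y * x = g⁻¹ * (g * y * g⁻¹ * (g * x * g⁻¹)) * g := by group
          _ = x * y := by rw [this]; group
      · rw [mem_centralizer_singleton_iff]
        exact mul_comm_of_mem hy hx
    rw [sup_eq_top_of_isCoatom hA h1] at h2
    rw [mem_center_iff]
    exact fun y => mem_centralizer_singleton_iff.1 (h2 (mem_top y))
  have hs := QuotientGroup.mk'_surjective (center G)
  set B := A.map (QuotientGroup.mk' (center G)) with hB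
  have hBm : ∀ g : G, (g : G ⧸ center G) ∈ B ↔ g ∈ A := fun g => by
    rw [hB, mem_map_mk'_iff, sup_eq_left.2 hZ]
  have ti' : ∀ g, g ∉ B → ∀ x ∈ B, g * x * g⁻¹ ∈ B → x = 1 := by
    intro g hg x hx hx'
    obtain ⟨g, rfl⟩ := QuotientGroup.mk_surjective g
    obtain ⟨x, rfl⟩ := QuotientGroup.mk_surjective x
    rw [← QuotientGroup.mk_inv, ← QuotientGroup.mk_mul, ← QuotientGroup.mk_mul] at hx'
    rw [hBm] at hg hx hx'
    exact (QuotientGroup.eq_one_iff x).2 (ti g hg x hx hx')
  obtain ⟨N, hNn, -, hc⟩ := CfH5.frobenius_kernel B ti'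
  haveI := isMulCommutative_of_isCoatom_of_coprime (N := N) (isCoatom_map_mk' hZ hA)
    hc.disjoint.eq_bot (by rw [← hc.index_eq_card]; exact coprime_index_of_ti ti')
    (Or.inl (CfH8.isSolvable_of_comm inferInstance))
  have h3 := commutator_le_of_sup_eq_top hc.sup_eq_top
  refine d1 (N.comap (QuotientGroup.mk' (center G))) ?_ ?_
  · rw [← map_le_iff_le_comap, _root_.commutator, map_commutator]
    exact (commutator_mono le_top le_top).trans h3
  · rw [← map_mk'_eq_bot_iff, map_commutator, map_comap_eq_self_of_surjective hs]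
    exact commutator_eq_bot_iff_le_centralizer.2 (le_centralizer N)

end Cfsg.Agent.S0556
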