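import Cfsg.Statements.S0557
import Cfsg.Agent.OD.Pre
import Cfsg.Agent.H1.Primitive

set_option autoImplicit false
open Cfsg

namespace Cfsg.Agent.S0557

open Subgroup in
theorem mono {G : Type*} [Group G] (K : Subgroup G) (n : ℕ) (A : Subgroup G) (B : Subgroup K)
    (h : B ≤ A.subgroupOf K) : (fun L : Subgroup K => focalSubgroup L)^[n] B ≤
      ((fun L : Subgroup G => focalSubgroup L)^[n] A).subgroupOf K := by
  induction n generalizing A B with
  | zero => exact h
  | succ n ih =>
    rw [Function.iterate_succ_apply, Function.iterate_succ_apply]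
    refine ih _ _ ?_
    rw [focalSubgroup_def, closure_le]
    rintro g ⟨hg, x, hx, u, rfl⟩
    exact subset_closure ⟨h hg, x, h hx, u, rfl⟩

open CfH1 Subgroup in
theorem aux (n : ℕ) (G : Type*) [Group G] [Finite G] (H : Subgroup G)
    (hHall : (Nat.card H).Coprime H.index)
    (hfoc : (fun K : Subgroup G => Subgroup.focalSubgroup K)^[n] H = ⊥) :
    ∃ N : Subgroup G, N.Normal ∧ Subgroup.IsComplement' N H := by
  induction n generalizing G with
  | zero =>
    change H = ⊥ at hfoc
    exact ⟨⊤, inferInstance, hfoc ▸ isComplement'_top_bot⟩
  | succ n ih =>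
    set K := (transferFocal H).ker with hK
    have hcop : (Nat.card (H ⧸ H.focalSubgroupOf)).Coprime H.index :=
      Nat.Coprime.coprime_dvd_left (card_quotient_dvd_card _) hHall
    have h1 : H ⊓ K = focalSubgroup H := by
      ext x
      constructor
      · rintro ⟨hx, hx'⟩
        have e := transferFocal_eq_pow H ⟨x, hx⟩
        rw [show transferFocal H x = 1 from hx'] at e
        have h2 := Nat.dvd_gcd (orderOf_dvd_natCard _) (orderOf_dvd_of_pow_eq_one e.symm)
        rw [hcop, Nat.dvd_one, orderOf_eq_one_iff, QuotientGroup.eq_one_iff] at h2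
        exact h2
      · intro hx
        have hx' := focalSubgroup_le H hx
        refine ⟨hx', ?_⟩
        have e := transferFocal_eq_pow H ⟨x, hx'⟩
        rw [(QuotientGroup.eq_one_iff (⟨x, hx'⟩ : H)).2 hx, one_pow] at e
        exact e
    have h2 : K ⊔ H = ⊤ := by
      refine sup_eq_top_of_coprime_index ?_
      rw [hK, index_ker]
      exact Nat.Coprime.coprime_dvd_left (card_subgroup_dvd_card _) hcop
    have h3 : (H.subgroupOf K).index = H.index :=
      relIndex_eq_index_of_forall (forall_exists_mul_symm (forall_exists_mul_of_sup_eq_top h2))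
    have h4 : Nat.card (H.subgroupOf K) ∣ Nat.card H := CfH7.card_subgroupOf_dvd _ _
    obtain ⟨N, hN, hc⟩ := ih K (H.subgroupOf K)
      (by rw [h3]; exact Nat.Coprime.coprime_dvd_left h4 hHall) (by
        rw [Function.iterate_succ_apply] at hfoc
        have := mono K n (focalSubgroup H) (H.subgroupOf K)
          (by rw [← h1, inf_subgroupOf_right])
        rwa [hfoc, bot_subgroupOf, le_bot_iff] at this)
    have h5 : Nat.card N = H.index := by rw [← hc.index_eq_card, h3]
    haveI : N.Characteristic := characteristic_of_coprime_index (by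
      rw [h5, hc.symm.index_eq_card]
      exact (Nat.Coprime.coprime_dvd_left h4 hHall).symm)
    refine ⟨N.map K.subtype, inferInstance, isComplement'_of_coprime ?_ ?_⟩
    · rw [card_subtype, h5, index_mul_card]
    · rw [card_subtype, h5]; exact hHall.symm

/-- Let H be a subgroup of a finite group G with order coprime to its index. If iterating the focal-subgroup construction starting from H reaches the trivial subgroup after finitely many steps, then H has a normal complement in G. -/
theorem result {G : Type*} [Group G] [Finite G] (H : Subgroup G) (hHall : (Nat.card H).Coprime H.index) (n : ℕ) (hfoc : (fun K : Subgroup G => Subgroup.focalSubgroup K)^[n] H = ⊥) : ∃ N : Subgroup G, N.Normal ∧ Subgroup.IsComplement' N H := by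
  exact aux n G H hHall hfoc

end Cfsg.Agent.S0557
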