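import Cfsg.Statements.S0563
import Cfsg.Agent.OD.Pre
import Cfsg.Agent.H1.KW

set_option autoImplicit false
open Pointwise
open Cfsg

namespace Cfsg.Agent.S0563

/-- If a finite group G is the product AB of two nilpotent subgroups of coprime orders, then G is solvable, and for every Sylow p-subgroup P of A and Sylow q-subgroup Q of B the product set PQ is a subgroup. -/
theorem result {G : Type*} [Group G] [Finite G] (A B : Subgroup G) (hA : Group.IsNilpotent A) (hB : Group.IsNilpotent B) (hcop : (Nat.card A).Coprime (Nat.card B)) (hAB : ∀ g : G, ∃ a ∈ A, ∃ b ∈ B, g = a * b) : Group.IsSolvable G ∧ ∀ (p q : ℕ) [Fact p.Prime] [Fact q.Prime] (P : Sylow p A) (Q : Sylow q B), ∃ S : Subgroup G, (S : Set G) = (((P : Subgroup A).map A.subtype : Subgroup G) : Set G) * (((Q : Subgroup B).map B.subtype : Subgroup G) : Set G) := by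
  open CfH1 Subgroup in
  haveI := kegel_wielandt hA hB hAB
  have h : Fac A B := hAB
  refine ⟨this, fun p q _ _ P Q => h.exists_hall_mul (le_normalizer_map_subtype _)
    (le_normalizer_map_subtype _) ?_ ?_⟩
  · rw [index_map_subtype, card_subtype]
    exact Nat.Coprime.mul_right P.card_coprime_index
      (Nat.Coprime.of_dvd (card_subgroup_dvd_card _) h.index_dvd hcop)
  · rw [index_map_subtype, card_subtype]
    exact Nat.Coprime.mul_right Q.card_coprime_index
      (Nat.Coprime.of_dvd (card_subgroup_dvd_card _) h.symm.index_dvd hcop.symm)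

end Cfsg.Agent.S0563
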