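import Cfsg.Statements.S0567
import Cfsg.Agent.OD.Pre
import Cfsg.Agent.H1.Products

set_option autoImplicit false
open Cfsg

namespace Cfsg.Agent.S0567

/-- A subgroup H of a group G is subnormal exactly when, for some m, the subgroup obtained from G by taking the commutator with H m times in succession is contained in H. -/
theorem result {G : Type*} [Group G] (H : Subgroup G) : H.IsSubnormal ↔ ∃ m : ℕ, (fun K : Subgroup G => ⁅K, H⁆)^[m] ⊤ ≤ H := by
  open CfH1 Subgroup Pointwise commutatorElement in
  constructor
  · intro h
    have mono : ∀ A B : Subgroup G, A ≤ B → ∀ m : ℕ,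
        (fun K : Subgroup G => ⁅K, A⁆)^[m] ⊤ ≤ (fun K : Subgroup G => ⁅K, B⁆)^[m] ⊤ := by
      intro A B hAB m
      induction m with
      | zero => exact le_rfl
      | succ m ih =>
        rw [Function.iterate_succ_apply', Function.iterate_succ_apply']
        exact commutator_mono ih hAB
    induction h with
    | top => exact ⟨0, le_top⟩
    | step H K hle _ hN ih =>
      obtain ⟨m, hm⟩ := ih
      refine ⟨m + 1, ?_⟩
      rw [Function.iterate_succ_apply']
      refine (commutator_mono ((mono H K hle m).trans hm) le_rfl).trans ?_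
      exact le_normalizer_iff_commutator_le_right.1
        ((normal_subgroupOf_iff_le_normalizer hle).1 hN)
  · rintro ⟨m, hm⟩
    have key : ∀ m : ℕ, (H ⊔ (fun K : Subgroup G => ⁅K, H⁆)^[m] ⊤).IsSubnormal ∧
        H ≤ normalizer (((fun K : Subgroup G => ⁅K, H⁆)^[m] ⊤ : Subgroup G) : Set G) := by
      intro m
      induction m with
      | zero => exact ⟨by simpa using IsSubnormal.top, le_normalizer_of_normal (H := ⊤)⟩
      | succ m ih =>
        rw [Function.iterate_succ_apply']
        set L := (fun K : Subgroup G => ⁅K, H⁆)^[m] ⊤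
        have hle : H ⊔ ⁅L, H⁆ ≤ H ⊔ L :=
          sup_le_sup_left (le_normalizer_iff_commutator_le_left.1 ih.2) _
        refine ⟨IsSubnormal.step _ _ hle ih.1 ?_, normalizer_commutator_ge_right L H⟩
        rw [normal_subgroupOf_iff_le_normalizer hle]
        refine sup_le (le_sup_left.trans le_normalizer) ?_
        rw [le_normalizer_iff]
        intro l hl x hx
        have : H ⊔ ⁅L, H⁆ ≤ MulAut.conj l⁻¹ • (H ⊔ ⁅L, H⁆) := by
          refine sup_le (fun y hy => ?_) ?_
          · rw [mem_conj_smul, inv_inv]
            have h1 : ⁅l, y⁆ * y ∈ H ⊔ ⁅L, H⁆ :=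
              mul_mem (mem_sup_right (commutator_mem_commutator hl hy)) (mem_sup_left hy)
            rwa [commutatorElement_def, inv_mul_cancel_right] at h1
          · rw [le_conj_smul_iff, inv_inv,
              conj_smul_eq_iff.2 (normalizer_commutator_ge_left L H hl)]
            exact le_sup_right
        have := this hx
        rwa [mem_conj_smul, inv_inv] at this
    have := (key m).1
    rwa [sup_eq_left.2 hm] at this

end Cfsg.Agent.S0567
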