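import Cfsg.Statements.S0568
import Cfsg.Agent.OD.Pre
import Cfsg.Agent.H1.Carter

set_option autoImplicit false
open Cfsg

namespace Cfsg.Agent.S0568

/-- Let D be the system normalizer of a Hall complement system of a finite solvable group G, and let A < B be normal subgroups with no normal subgroup of G strictly between them (a chief factor). If G centralizes B modulo A then B ≤ A ⊔ D (D covers the factor); otherwise B ∩ D ≤ A (D avoids it). -/
theorem result {G : Type*} [Group G] [Finite G] [Group.IsSolvable G] (K : Nat.Primes → Subgroup G) (hK : Cfsg.IsComplementSystem K) (A B : Subgroup G) [A.Normal] [B.Normal] (hAB : A < B) (hchief : ∀ N : Subgroup G, N.Normal → A ≤ N → N ≤ B → N = A ∨ N = B) : (⁅B, (⊤ : Subgroup G)⁆ ≤ A → B ≤ A ⊔ Cfsg.systemNormalizer K) ∧ (¬ ⁅B, (⊤ : Subgroup G)⁆ ≤ A → B ⊓ Cfsg.systemNormalizer K ≤ A) := by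
  open CfH1 Subgroup in
  have hs := QuotientGroup.mk'_surjective A
  have hK' := isComplementSystem_map hs hK
  have hD := systemNormalizer_map_mk' hK A
  constructor
  · intro h
    rw [sup_comm, ← map_mk'_le_map_mk'_iff, ← hD]
    refine le_iInf (fun p => le_trans ?_ (centralizer_le_normalizer _))
    rw [← commutator_eq_bot_iff_le_centralizer, ← map_commutator, map_mk'_eq_bot_iff]
    exact (commutator_mono le_rfl le_top).trans h
  · intro h
    have hN : IsMinNormal (B.map (QuotientGroup.mk' A)) := by
      refine ⟨Subgroup.Normal.map inferInstance _ hs, ?_, fun L hL hle => ?_⟩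
      · rw [Ne, map_mk'_eq_bot_iff]; exact not_le_of_gt hAB
      · rcases hchief (L.comap (QuotientGroup.mk' A)) (hL.comap _) (le_comap_mk' A L) (by
          refine (comap_mono hle).trans ?_
          rw [comap_map_eq, QuotientGroup.ker_mk', sup_eq_left.2 hAB.le]) with e | e
        · left
          rw [← map_comap_eq_self_of_surjective hs L, map_mk'_eq_bot_iff]
          exact e.le
        · right
          rw [← e, map_comap_eq_self_of_surjective hs L]
    have h1 := hN.inf_systemNormalizer hK' (fun e => h (by
      rw [← map_mk'_eq_bot_iff, map_commutator, commutator_comm, commutator_eq_bot_iff_le_centralizer, e]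
      exact le_top))
    rw [← map_mk'_eq_bot_iff, eq_bot_iff, ← h1, hD]
    exact map_inf_le _ _ _

end Cfsg.Agent.S0568
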