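import Cfsg.Statements.S0571
import Cfsg.Agent.OD.Pre
import Cfsg.Agent.H1.Products

set_option autoImplicit false
open Cfsg

namespace Cfsg.Agent.S0571

open CfH1 Subgroup in
theorem aux (G : Type*) [Group G] [Finite G] (A B : Subgroup G) (hA : IsCyclic A) (hB : IsCyclic B)
    (h : Fac A B) : Cfsg.IsSupersolvable G := by
  revert A B
  refine group_induction (P := fun G _ _ => ∀ A B : Subgroup G, IsCyclic A → IsCyclic B →
    Fac A B → Cfsg.IsSupersolvable G) ?_ G
  intro G _ _ ih A B hA hB h
  rcases subsingleton_or_nontrivial G with h0 | h0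
  · exact isSupersolvable_of_subsingleton
  obtain ⟨N, hN, hne, hle⟩ := exists_normal_le_of_fac h
  refine isSupersolvable_of_quotient N (hle.elim (isCyclic_of_le · hA) (isCyclic_of_le · hB)) ?_
  refine ih _ (card_quotient_lt hne) _ _ ?_ ?_ (h.map (QuotientGroup.mk'_surjective N))
  · exact isCyclic_of_surjective _ (MonoidHom.subgroupMap_surjective _ _)
  · exact isCyclic_of_surjective _ (MonoidHom.subgroupMap_surjective _ _)

/-- If a finite group G is the product AB of two cyclic subgroups (every element is a product ab), then G is supersolvable. -/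
theorem result {G : Type*} [Group G] [Finite G] (A B : Subgroup G) [IsCyclic A] [IsCyclic B] (hAB : ∀ g : G, ∃ a ∈ A, ∃ b ∈ B, g = a * b) : Cfsg.IsSupersolvable G := by
  exact aux G A B inferInstance inferInstance hAB

end Cfsg.Agent.S0571
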