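import Cfsg.Statements.S0574
import Cfsg.Agent.OD.Pre
import Cfsg.Agent.H1.KW

set_option autoImplicit false
open Cfsg

namespace Cfsg.Agent.S0574

open CfH1 Subgroup in
theorem lemL (G : Type*) [Group G] [Finite G] (A B : Subgroup G) (hA : IsMulCommutative A)
    (hB : Group.IsNilpotent B) (h : Fac A B) (ht : A ⊔ ⁅B, B⁆ = ⊤) : ⁅B, B⁆ = ⊥ := by
  revert A B
  refine group_induction (P := fun G _ _ => ∀ A B : Subgroup G, IsMulCommutative A →
    Group.IsNilpotent B → Fac A B → A ⊔ ⁅B, B⁆ = ⊤ → ⁅B, B⁆ = ⊥) ?_ G
  intro G _ _ ih A B hA hB h ht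
  by_contra hne
  haveI := kegel_wielandt (CfH7.isNilpotent_of_isMulCommutative hA) hB h
  have key : ∀ N : Subgroup G, N.Normal → N ≠ ⊥ → ⁅B, B⁆ ≤ N := by
    intro N hN hNb
    have hs := QuotientGroup.mk'_surjective N
    have := ih _ (card_quotient_lt hNb) (A.map (QuotientGroup.mk' N)) (B.map (QuotientGroup.mk' N))
      inferInstance (isNilpotent_map _ hB) (h.map hs)
      (by rw [← map_commutator, ← Subgroup.map_sup, ht, map_top_of_surjective _ hs])
    rwa [← map_commutator, map_mk'_eq_bot_iff] at this
  haveI : Nontrivial G := by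
    rcases subsingleton_or_nontrivial G with h0 | h0
    · exact absurd (Subsingleton.elim _ _) hne
    · exact h0
  obtain ⟨N, p, hp, hN, hE, hNp⟩ := exists_isMinNormal_isPGroup G
  haveI := hN.normal
  haveI := hE.1
  haveI := Fact.mk hp
  have hNA : N ⊔ A = ⊤ := top_le_iff.1 (ht ▸ sup_le le_sup_right
    (le_sup_of_le_left (key N hN.normal hN.ne_bot)))
  have uniq : ∀ K : Subgroup G, K.Normal → K ≠ ⊥ → N ≤ K := fun K hK hKb =>
    hN.le_of_inf_ne_bot (fun e => hne (le_bot_iff.1 (e ▸ le_inf (key N hN.normal hN.ne_bot)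
      (key K hK hKb))))
  have hAt : A ≠ ⊤ := by
    rintro rfl
    refine hne (commutator_eq_bot_iff_le_centralizer.2 (fun x _ y _ => ?_))
    exact mul_comm_of_mem (mem_top y) (mem_top x)
  have hcore : ∀ K : Subgroup G, K.Normal → K ≤ A → K = ⊥ := by
    intro K hK hle
    by_contra hKb
    exact hAt (top_le_iff.1 (hNA ▸ sup_le ((uniq K hK hKb).trans hle) le_rfl))
  have hC : ∀ a ∈ A, a ∈ centralizer (N : Set G) → a = 1 := by
    intro a ha hc
    refine zpowers_eq_bot.1 (hcore _ (normal_of_le_center (zpowers_le.2 ?_)) (zpowers_le.2 ha))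
    rw [mem_center_iff]
    intro g
    obtain ⟨x, hx, y, hy, rfl⟩ := forall_exists_mul_of_sup_eq_top hNA g
    rw [mul_assoc, mul_comm_of_mem hy ha, ← mul_assoc, hc x hx, mul_assoc]
  have hCN : centralizer (N : Set G) ≤ N := by
    intro c hc
    obtain ⟨x, hx, y, hy, rfl⟩ := forall_exists_mul_of_sup_eq_top hNA c
    rw [hC y hy ((mul_mem_cancel_left (le_centralizer N hx)).1 hc), mul_one]
    exact hx
  have hAp : ¬ p ∣ Nat.card A := by
    intro hd
    obtain ⟨x, hx, hxo⟩ := CfH9.exists_orderOf_eq_prime hd
    have hxp : IsPGroup p (zpowers x) := CfH9.isPGroup_zpowers_of_orderOf (k := 1) (by simpa using hxo)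
    have h1 : (N ⊔ zpowers x).Normal :=
      Subgroup.Normal.of_commutator_le _ ((commutator_le_of_sup_eq_top hNA).trans le_sup_left)
    have h2 := hN.le_centralizer_of_isNilpotent (N := N ⊔ zpowers x)
      (CfH8.isPGroup_sup_of_le_normalizer hNp hxp le_normalizer_of_normal).isNilpotent
    have := hC x hx (h2 (mem_sup_right (mem_zpowers x)))
    rw [this, orderOf_one] at hxo
    exact hp.ne_one hxo.symm
  have hNB : N ≤ B := by
    obtain ⟨S, hS⟩ := CfH9.exists_sylIn p B
    have hS' : CfH9.SylIn p S ⊤ := hS.trans le_top (by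
      rw [relIndex_top_right]; exact fun hd => hAp (hd.trans h.symm.index_dvd))
    exact (hS'.le_of_le_Nm hNp le_top le_normalizer_of_normal).trans hS.le
  have hBN : B ≤ N := by
    intro b hb
    refine mem_of_forall_pPart_mem (fun q hq _ x hx ⟨k, hk⟩ => ?_)
    have hxB : zpowers x ≤ B := zpowers_le.2 (zpowers_le.2 hb hx)
    by_cases e : q = p
    · subst e
      refine le_of_coprime_index (N := N) (H := zpowers x) ?_ (mem_zpowers x)
      obtain ⟨m, hm⟩ := (CfH9.isPGroup_zpowers hk).exists_card_eq
      rw [hm]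
      exact Nat.Coprime.pow_left _ ((Nat.Prime.coprime_iff_not_dvd hp).2
        (fun hd => hAp (hd.trans (index_dvd_card_of_sup_eq_top hNA).1)))
    · refine hCN (le_centralizer_of_coprime hB hxB hNB ?_ (mem_zpowers x))
      obtain ⟨m, hm⟩ := hNp.exists_card_eq
      rw [hm]
      exact (coprime_card_zpowers_of_pow hq hp e hk).pow_right _
  refine hne (commutator_eq_bot_iff_le_centralizer.2 (fun x hx y hy => ?_))
  exact mul_comm_of_mem (hBN hy) (hBN hx)

theorem map_derivedSeries_add {G : Type*} [Group G] (H : Subgroup G) (k : ℕ)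
    (h : derivedSeries G k ≤ H) (n : ℕ) :
    derivedSeries G (k + n) ≤ (derivedSeries H n).map H.subtype := by
  induction n with
  | zero => rw [derivedSeries_zero, ← MonoidHom.range_eq_map, Subgroup.range_subtype]; exact h
  | succ n ih =>
    rw [← add_assoc, derivedSeries_succ, derivedSeries_succ, Subgroup.map_commutator]
    exact Subgroup.commutator_mono ih ih

open CfH1 Subgroup in
theorem aux (n : ℕ) (G : Type*) [Group G] [Finite G] (A B : Subgroup G) (hA : IsMulCommutative A)
    (hB : commutator B ≤ center B) (h : Fac A B)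
    (hn : (Nat.card (commutator B)).primeFactorsList.length = n) :
    derivedSeries G (2 * (1 + n)) = ⊥ := by
  induction n using Nat.strong_induction_on generalizing G with
  | _ n ih =>
  have hc : Nat.card (commutator B) = Nat.card (⁅B, B⁆ : Subgroup G) := by
    rw [← map_subtype_commutator, card_subtype]
  have hZ : B ≤ centralizer ((⁅B, B⁆ : Subgroup G) : Set G) := by
    rw [← map_subtype_commutator]
    rintro b hb _ ⟨x, hx, rfl⟩
    exact (congrArg Subtype.val (mem_center_iff.1 (hB hx) ⟨b, hb⟩)).symm
  set K := normalClosure ((⁅B, B⁆ : Subgroup G) : Set G) with hK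
  have hs := QuotientGroup.mk'_surjective K
  have h2 : derivedSeries G 2 ≤ K := by
    haveI := isMulCommutative_map_mk'_of_commutator_le (A := B) (N := K) le_normalClosure
    haveI := isMulCommutative_commutator_of_fac (h.map hs)
    rw [← map_mk'_eq_bot_iff, map_derivedSeries_eq hs, derivedSeries_succ, derivedSeries_one,
      commutator_eq_bot_iff_le_centralizer]
    exact le_centralizer _
  by_cases hb : ⁅B, B⁆ = ⊥
  · have : K = ⊥ := by rw [hK, hb]; simp
    rw [this] at h2
    exact le_bot_iff.1 ((derivedSeries_antitone G (by omega)).trans h2)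
  set H := A ⊔ ⁅B, B⁆ with hH
  have hKH : K ≤ H := normalClosure_le_of_factor (h.symm.mono le_rfl le_sup_left)
    (normalizer_commutator_ge_left B B) le_sup_right
  have hf := h.subgroupOf_left (L := H) le_sup_left
  set B₁ := B.subgroupOf H with hB₁
  have hm : (⁅B₁, B₁⁆ : Subgroup H).map H.subtype ≤ ⁅B, B⁆ := by
    rw [map_commutator]
    exact commutator_mono (map_le_iff_le_comap.2 le_rfl) (map_le_iff_le_comap.2 le_rfl)
  have nB : Group.IsNilpotent B := by
    haveI : Group.IsNilpotent (B ⧸ commutator B) := CfH7.isNilpotent_of_isMulCommutative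
      (Normal.quotient_commutative_iff_commutator_le.2 le_rfl)
    refine Subgroup.isNilpotent_of_ker_le_center (QuotientGroup.mk' (commutator B)) ?_
    rwa [QuotientGroup.ker_mk']
  have hlt : (⁅B₁, B₁⁆ : Subgroup H).map H.subtype ≠ ⁅B, B⁆ := by
    intro e
    have := lemL H (A.subgroupOf H) B₁ inferInstance (isNilpotent_subgroupOf _ nB) hf (by
      apply map_injective H.subtype_injective
      rw [Subgroup.map_sup, e, subgroupOf_map_subtype, inf_eq_left.2 le_sup_left,
        ← MonoidHom.range_eq_map, range_subtype])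
    rw [this, Subgroup.map_bot] at e
    exact hb e.symm
  have hc₁ : Nat.card (commutator B₁) = Nat.card ((⁅B₁, B₁⁆ : Subgroup H).map H.subtype) := by
    rw [card_subtype, ← map_subtype_commutator, card_subtype]
  have hlen : (Nat.card (commutator B₁)).primeFactorsList.length < n := by
    rw [← hn, hc, hc₁]
    obtain ⟨m, hm'⟩ := card_dvd_of_le hm
    have hm1 : m ≠ 1 := by
      rintro rfl
      exact hlt (Subgroup.eq_of_le_of_card_ge hm (by rw [hm', mul_one]))
    have hm0 : m ≠ 0 := by
      rintro rfl
      exact Nat.card_pos.ne' hm'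
    rw [hm', (Nat.perm_primeFactorsList_mul Nat.card_pos.ne' hm0).length_eq, List.length_append]
    have : m.primeFactorsList ≠ [] := by
      rw [Ne, Nat.primeFactorsList_eq_nil]; omega
    have := List.length_pos_iff.2 this
    omega
  have h3 := ih _ hlen H (A.subgroupOf H) B₁ inferInstance (by
    intro x hx
    rw [mem_center_iff]
    intro y
    have hx' : ((x : H) : G) ∈ ⁅B, B⁆ := hm (mem_map_of_mem _ (by
      rw [← map_subtype_commutator]; exact mem_map_of_mem _ hx))
    exact Subtype.ext (Subtype.ext (hZ y.2 _ hx').symm)) hf rfl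
  have h4 := map_derivedSeries_add H 2 (h2.trans hKH)
    (2 * (1 + (Nat.card (commutator B₁)).primeFactorsList.length))
  rw [h3, Subgroup.map_bot] at h4
  exact le_bot_iff.1 ((derivedSeries_antitone G (by omega)).trans h4)

/-- Let the finite group G be the product AB of an abelian subgroup A and a subgroup B of nilpotency class at most two, and let Ω be the number of prime factors, with multiplicity, of the order of the commutator subgroup of B. Then the term of index 2(1 + Ω) of the derived series of G is trivial. -/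
theorem result {G : Type*} [Group G] [Finite G] (A B : Subgroup G) [IsMulCommutative A] (hB : commutator ↥B ≤ Subgroup.center ↥B) (hAB : ∀ g : G, ∃ a ∈ A, ∃ b ∈ B, g = a * b) : derivedSeries G (2 * (1 + (Nat.card ↥(commutator ↥B)).primeFactorsList.length)) = ⊥ := by
  exact aux _ G A B inferInstance hB hAB rfl

end Cfsg.Agent.S0574
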