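import Cfsg.Statements.S0577
import Cfsg.Agent.OD.Pre
import Cfsg.Agent.H1.Schmidt

set_option autoImplicit false
open Cfsg

namespace Cfsg.Agent.S0577

/-- Let G be a finite minimal non-nilpotent group and Q a normal Sylow q-subgroup of G, and let D be the commutator subgroup of Q regarded in G (a normal subgroup). Then G modulo D is non-abelian and all its proper subgroups are abelian. -/
theorem result {G : Type*} [Group G] [Finite G] (hG : Cfsg.IsMinimalNonNilpotent G) (q : ℕ) [Fact q.Prime] (hq : q ∣ Nat.card G) (Q : Sylow q G) (hQ : (Q : Subgroup G).Normal) (D : Subgroup G) [D.Normal] (hD : D = (commutator ↥(Q : Subgroup G)).map (Q : Subgroup G).subtype) : ¬ IsMulCommutative (G ⧸ D) ∧ ∀ K : Subgroup (G ⧸ D), K ≠ ⊤ → IsMulCommutative K := by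
  open CfH1 Subgroup in
  obtain ⟨p, r, hp, hr, hne, P, R, x, hP, hR, ht, hc⟩ := schmidt hG.1 hG.2
  haveI := Fact.mk hp
  haveI := Fact.mk hr
  have hx : (Nat.card (zpowers x)).Coprime r :=
    CfH7.coprime_card_of_isPGroup_of_ne hne (hP ▸ P.isPGroup')
  have hqp : q ≠ p := by
    rintro rfl
    haveI := Sylow.unique_of_normal Q hQ
    have e : P = Q := Subsingleton.elim _ _
    subst e
    refine hc (le_centralizer_of_disjoint (H := (P : Subgroup G)) le_normalizer_of_normal
      le_normalizer_of_normal ?_ (hP ▸ mem_zpowers x))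
    exact IsPGroup.disjoint_of_ne _ _ hne _ _ P.isPGroup' R.isPGroup'
  have hqr : q = r := by
    by_contra hqr
    have h1 := card_sup_mul_card_inf (N := (R : Subgroup G)) (H := zpowers x) le_normalizer_of_normal
    rw [ht, card_top] at h1
    have h2 : q ∣ Nat.card (R : Subgroup G) * Nat.card (zpowers x) := h1 ▸ hq.mul_right _
    have hq' : q.Prime := Fact.out
    rcases (Nat.Prime.dvd_mul hq').1 h2 with h3 | h3
    · obtain ⟨k, hk⟩ := R.isPGroup'.exists_card_eq
      exact hqr ((Nat.prime_dvd_prime_iff_eq hq' hr).1 (hq'.dvd_of_dvd_pow (hk ▸ h3)))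
    · obtain ⟨k, hk⟩ := P.isPGroup'.exists_card_eq
      rw [← hP] at h3
      exact hqp ((Nat.prime_dvd_prime_iff_eq hq' hp).1 (hq'.dvd_of_dvd_pow (hk ▸ h3)))
  subst hqr
  haveI := Sylow.unique_of_normal Q hQ
  have e : R = Q := Subsingleton.elim _ _
  subst e
  have hD' : D = ⁅(R : Subgroup G), (R : Subgroup G)⁆ := by
    rw [hD, _root_.commutator, map_commutator, ← MonoidHom.range_eq_map, range_subtype]
  constructor
  · intro hab
    have h1 : ⁅(R : Subgroup G), zpowers x⁆ ≤ D := by
      rw [commutator_le]
      intro a _ b _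
      rw [← QuotientGroup.eq_one_iff, ← QuotientGroup.mk'_apply, map_commutatorElement,
        commutatorElement_eq_one_iff_mul_comm]
      exact hab.is_comm.comm _ _
    obtain ⟨k, hk⟩ := R.isPGroup'.exists_card_eq
    have h2 := CfH8.commutator_eq_bot_of_le_frattini (A := zpowers x) (N := (R : Subgroup G))
      le_normalizer_of_normal (by rw [hk]; exact hx.pow_right _)
      (Or.inl (CfH8.isSolvable_zpowers x))
      (h1.trans (hD' ▸ commutator_le_frattiniOf R.isPGroup'.isNilpotent))
    rw [commutator_comm, commutator_eq_bot_iff_le_centralizer] at h2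
    exact hc (h2 (mem_zpowers x))
  · intro K hK
    have hs := QuotientGroup.mk'_surjective D
    have h1 : Group.IsNilpotent K := by
      have := isNilpotent_map (QuotientGroup.mk' D) (hG.2 (K.comap (QuotientGroup.mk' D)) (by
        intro e
        exact hK (by rw [← map_comap_eq_self_of_surjective hs K, e, map_top_of_surjective _ hs])))
      rwa [map_comap_eq_self_of_surjective hs K] at this
    refine isMulCommutative_of_isNilpotent_of_sylow (fun s hs' S => ?_)
    set R' := (R : Subgroup G).map (QuotientGroup.mk' D) with hR'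
    haveI : R'.Normal := hR.map _ hs
    haveI : IsMulCommutative R' := isMulCommutative_map_mk'_of_commutator_le hD'.ge
    have hSp : IsPGroup s ((S : Subgroup K).map K.subtype) := S.isPGroup'.map _
    have ht' : R' ⊔ zpowers (QuotientGroup.mk' D x) = ⊤ := by
      rw [← MonoidHom.map_zpowers, ← Subgroup.map_sup, ht, map_top_of_surjective _ hs]
    refine isMulCommutative_of_forall (fun a ha b hb => Subtype.ext ?_)
    have ha' : (a : G ⧸ D) ∈ (S : Subgroup K).map K.subtype := mem_map_of_mem _ ha
    have hb' : (b : G ⧸ D) ∈ (S : Subgroup K).map K.subtype := mem_map_of_mem _ hb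
    by_cases hsq : s = q
    · subst hsq
      have hle := CfH7.le_of_isPGroup_of_le_sup (N := R') hSp
        (B := zpowers (QuotientGroup.mk' D x))
        (by rw [← MonoidHom.map_zpowers]; exact CfH7.coprime_card_map _ hx) (ht' ▸ le_top)
      exact mul_comm_of_mem (hle ha') (hle hb')
    · have h2 := commutator_le_of_sup_zpowers_eq_top ht'
        (commutator_mem_commutator (mem_top (a : G ⧸ D)) (mem_top (b : G ⧸ D)))
      have h3 := IsPGroup.disjoint_of_ne _ _ hsq _ _ hSp (R.isPGroup'.map (QuotientGroup.mk' D))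
      have h4 := (disjoint_def.1 h3) (mul_mem (mul_mem (mul_mem ha' hb') (inv_mem ha')) (inv_mem hb')) h2
      exact commutatorElement_eq_one_iff_mul_comm.1 h4

end Cfsg.Agent.S0577
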