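import Cfsg.Statements.S0578
import Cfsg.Agent.OD.Pre
import Cfsg.Agent.H1.Schmidt

set_option autoImplicit false
open Cfsg

namespace Cfsg.Agent.S0578

open CfH1 Subgroup in
theorem aux (G : Type*) [Group G] [Finite G] (h : ∀ A : Subgroup G, IsMulCommutative A →
    Subgroup.normalizer (A : Set G) = Subgroup.centralizer (A : Set G)) : IsMulCommutative G := by
  revert h
  refine group_induction (P := fun G _ _ => (∀ A : Subgroup G, IsMulCommutative A →
    Subgroup.normalizer (A : Set G) = Subgroup.centralizer (A : Set G)) → IsMulCommutative G) ?_ G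
  intro G _ _ ih h
  have hab : ∀ H : Subgroup G, H ≠ ⊤ → IsMulCommutative H := by
    intro H hH
    refine ih H (card_lt_of_ne_top hH) (fun A hA => le_antisymm ?_ (centralizer_le_normalizer _))
    intro x hx
    have h1 : (x : G) ∈ normalizer ((A.map H.subtype : Subgroup G) : Set G) := by
      rw [← conj_smul_eq_iff] at hx ⊢
      rw [← H.subtype_apply, ← map_conj_smul, hx]
    rw [h _ inferInstance] at h1
    intro y hy
    exact Subtype.ext (h1 y (mem_map_of_mem _ hy))
  by_cases hG : Group.IsNilpotent G
  · rcases subsingleton_or_nontrivial G with h0 | h0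
    · infer_instance
    obtain ⟨M, hM, -⟩ := exists_isCoatom_ge (H := (⊥ : Subgroup G)) bot_ne_top
    haveI := normal_of_isCoatom_of_isNilpotent hM
    have h1 := h M (hab M hM.1)
    rw [normalizer_eq_top] at h1
    have hp := index_prime_of_isCoatom_of_normal hM
    haveI := Fact.mk hp
    haveI : IsCyclic (G ⧸ M) := isCyclic_of_prime_card (p := M.index) rfl
    refine MonoidHom.isMulCommutative_of_isCyclic_of_ker_le_center (QuotientGroup.mk' M) ?_
    rw [QuotientGroup.ker_mk']
    intro x hx
    rw [mem_center_iff]
    intro g
    have : g ∈ centralizer (M : Set G) := h1 ▸ mem_top g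
    exact (this x hx).symm
  · obtain ⟨p, q, hp, hq, hne, Q, x, hQ, ⟨k, hk⟩, hn, hc⟩ := exists_pair_of_not_isNilpotent hG
    refine absurd (h Q (hab Q ?_) ▸ hn) hc
    rintro rfl
    haveI := Fact.mk hq
    exact hG (hQ.of_equiv topEquiv).isNilpotent

/-- If in a finite group the normalizer of each abelian subgroup coincides with its centralizer, then the group is abelian. -/
theorem result {G : Type*} [Group G] [Finite G] (h : ∀ A : Subgroup G, IsMulCommutative A → Subgroup.normalizer (A : Set G) = Subgroup.centralizer (A : Set G)) : IsMulCommutative G := by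
  exact aux G h

end Cfsg.Agent.S0578
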