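import Cfsg.Statements.S0583
import Cfsg.Agent.OD.Pre
import Cfsg.Agent.H1.MinNormal

set_option autoImplicit false
open Cfsg

namespace Cfsg.Agent.S0583

/-- In a finite group the Fitting subgroup is contained in the centralizer of each minimal normal subgroup. -/
theorem result {G : Type*} [Group G] [Finite G] (M : Subgroup G) [M.Normal] (hM : M ≠ ⊥) (hmin : ∀ K : Subgroup G, K.Normal → K ≤ M → K = ⊥ ∨ K = M) : Cfsg.fittingSubgroup G ≤ Subgroup.centralizer (M : Set G) := by
  exact CfH1.IsMinNormal.fitting_le_centralizer ⟨inferInstance, hM, hmin⟩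

end Cfsg.Agent.S0583
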