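import Cfsg.Statements.S0586
import Cfsg.Agent.OD.Pre
import Cfsg.Agent.H1.Frattini

set_option autoImplicit false
open Cfsg

namespace Cfsg.Agent.S0586

/-- If the Frattini subgroup of a finite group G is trivial, then the Fitting subgroup of G equals the join of all abelian minimal normal subgroups of G. -/
theorem result {G : Type*} [Group G] [Finite G] (hΦ : frattini G = ⊥) : Cfsg.fittingSubgroup G = sSup {N : Subgroup G | N.Normal ∧ N ≠ ⊥ ∧ IsMulCommutative N ∧ ∀ K : Subgroup G, K.Normal → K ≤ N → K = ⊥ ∨ K = N} := by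
  set S := sSup {N : Subgroup G | N.Normal ∧ N ≠ ⊥ ∧ IsMulCommutative N ∧
    ∀ K : Subgroup G, K.Normal → K ≤ N → K = ⊥ ∨ K = N} with hS
  have hSF : S ≤ fittingSubgroup G := sSup_le fun N hN =>
    CfH7.le_fitting hN.1 (CfH7.isNilpotent_of_isMulCommutative hN.2.2.1)
  have hF : IsMulCommutative (fittingSubgroup G) := by
    rw [← Subgroup.commutator_self_eq_bot_iff, eq_bot_iff, ← hΦ]
    exact (CfH1.commutator_le_frattiniOf (CfH7.isNilpotent_fitting G)).trans
      (CfH1.frattiniOf_le_frattini _)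
  have hSn : S.Normal := Subgroup.sSup_normal _ fun N hN => hN.1
  have hSc : IsMulCommutative S := CfH1.isMulCommutative_of_le hSF
  obtain ⟨H, hH⟩ := CfH1.exists_complement_of_inf_frattini_eq_bot (A := S)
    (by rw [hΦ, inf_bot_eq])
  have h1 : S ⊔ H ⊓ fittingSubgroup G = fittingSubgroup G := by
    rw [← CfH1.dedekind_left Subgroup.le_normalizer_of_normal hSF, hH.sup_eq_top, top_inf_eq]
  have hn : (H ⊓ fittingSubgroup G).Normal := CfH1.normal_of_sup_le_normalizer hH.sup_eq_top
    (hSF.trans ((Subgroup.le_centralizer _).trans ((Subgroup.centralizer_le inf_le_right).trans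
      (Subgroup.centralizer_le_normalizer _))))
    (CfH1.le_normalizer_inf Subgroup.le_normalizer Subgroup.le_normalizer_of_normal)
  by_cases h0 : H ⊓ fittingSubgroup G = ⊥
  · rw [← h1, h0, sup_bot_eq]
  · exfalso
    obtain ⟨M, hM, hMle⟩ := CfH1.exists_isMinNormal_le hn h0
    have h2 : M ≤ S := le_sSup ⟨hM.normal, hM.ne_bot,
      CfH1.isMulCommutative_of_le (hMle.trans inf_le_right), hM.min⟩
    exact hM.ne_bot (le_bot_iff.mp (hH.disjoint.eq_bot ▸ le_inf h2 (hMle.trans inf_le_left)))

end Cfsg.Agent.S0586
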