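import Cfsg.Statements.S0587
import Cfsg.Agent.OD.Pre
import Cfsg.Agent.H1.Primitive

set_option autoImplicit false
open Cfsg

namespace Cfsg.Agent.S0587

/-- Let G be a finite group whose largest normal p-subgroup L is nontrivial, and M a maximal subgroup of G with trivial normal core. Then L is elementary abelian, M is a complement to L, L is a minimal normal subgroup of G, the centralizer of L is L, and for every prime q such that the largest normal q-subgroup of M is nontrivial, the order of L is congruent to 1 modulo q and q ≠ p. -/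
theorem result {G : Type*} [Group G] [Finite G] (p : ℕ) [Fact p.Prime] (hL : Cfsg.pCore p G ≠ ⊥) (M : Subgroup G) (hM : IsCoatom M) (hcore : M.normalCore = ⊥) : Cfsg.IsElementaryAbelian p (Cfsg.pCore p G) ∧ Subgroup.IsComplement' (Cfsg.pCore p G) M ∧ (∀ K : Subgroup G, K.Normal → K ≤ Cfsg.pCore p G → K = ⊥ ∨ K = Cfsg.pCore p G) ∧ Subgroup.centralizer ((Cfsg.pCore p G : Subgroup G) : Set G) = Cfsg.pCore p G ∧ ∀ (q : ℕ) [Fact q.Prime], Cfsg.pCore q ↥M ≠ ⊥ → Nat.card (Cfsg.pCore p G) % q = 1 % q ∧ q ≠ p := by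
  open CfH1 Subgroup in
  obtain ⟨N, hN, hle⟩ := exists_isMinNormal_le (N := Cfsg.pCore p G) inferInstance hL
  haveI := hN.normal
  have hP := CfH7.isPGroup_pCore p G
  have hE := hN.isElementaryAbelian_of_isPGroup (hP.to_le hle)
  haveI := hE.1
  have hC : N = centralizer (N : Set G) :=
    eq_centralizer_of_coreFree hM hcore hN.ne_bot hN.normal hN.ne_bot (le_centralizer N)
  have e : N = Cfsg.pCore p G :=
    le_antisymm hle (hC.ge.trans' (hN.le_centralizer_of_isNilpotent hP.isNilpotent))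
  rw [← e]
  have hd : N ⊓ M = ⊥ := by rw [hC]; exact centralizer_inf_eq_bot_of_coreFree hM hcore hN.ne_bot
  refine ⟨hE, isComplement'_of_normal hd (sup_eq_top_of_coreFree hM hcore hN.normal hN.ne_bot),
    hN.min, hC.symm, fun q hq hQ => ?_⟩
  have h1 := normalizer_eq_of_coreFree hM hcore (Q := Cfsg.pCoreOf q M)
    (fun h => hQ (CfH7.pCoreOf_eq_bot_iff.1 h)) (CfH7.pCoreOf_le M) (CfH7.le_normalizer_pCoreOf M)
  have h2 := card_modEq_card_inf_centralizer (CfH7.isPGroup_pCoreOf (p := q) M) (N := N)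
    le_normalizer_of_normal
  have h3 : N ⊓ centralizer ((Cfsg.pCoreOf q M : Subgroup G) : Set G) = ⊥ :=
    le_bot_iff.1 (hd ▸ inf_le_inf_left _ ((centralizer_le_normalizer _).trans h1.le))
  rw [h3, card_bot] at h2
  refine ⟨h2, ?_⟩
  rintro rfl
  have h4 := CfH9.dvd_card_of_ne_bot (hP.to_le hle) hN.ne_bot
  exact hq.out.ne_one (Nat.dvd_one.1 ((h2.dvd_iff dvd_rfl).1 h4))

end Cfsg.Agent.S0587
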