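import Cfsg.Statements.S0589
import Cfsg.Agent.OD.Pre
import Cfsg.Agent.H1.Schmidt

set_option autoImplicit false
open Pointwise
open Cfsg

namespace Cfsg.Agent.S0589

/-- Let H be a Frobenius complement in a finite group G and L a subgroup of G whose order divides the order of H. Then L is contained in some conjugate of H. -/
theorem result {G : Type*} [Group G] [Finite G] (H : Subgroup G) (hH : Cfsg.IsFrobeniusComplement H) (L : Subgroup G) (hL : Nat.card L ∣ Nat.card H) : ∃ x : G, L ≤ MulAut.conj x • H := by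
  open CfH1 Subgroup in
  have ti : ∀ a g : G, g ∉ MulAut.conj a • H → ∀ x ∈ MulAut.conj a • H,
      g * x * g⁻¹ ∈ MulAut.conj a • H → x = 1 := by
    intro a g hg x hx hx'
    rw [mem_conj_smul] at hg hx hx'
    have h1 := hH.2.2 _ hg
    have h2 : a⁻¹ * (g * x * g⁻¹) * a ∈ H ⊓ MulAut.conj (a⁻¹ * g * a) • H := by
      refine ⟨hx', ?_⟩
      have := conj_mem_conj_smul (a⁻¹ * g * a) hx
      have e : a⁻¹ * (g * x * g⁻¹) * a = a⁻¹ * g * a * (a⁻¹ * x * a) * (a⁻¹ * g * a)⁻¹ := by group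
      rw [e]; exact this
    rw [h1, mem_bot] at h2
    calc x = g⁻¹ * a * (a⁻¹ * (g * x * g⁻¹) * a) * a⁻¹ * g := by group
      _ = 1 := by rw [h2]; group
  have ti1 : ∀ a g : G, ∀ x ∈ MulAut.conj a • H, x ≠ 1 → g * x = x * g → g ∈ MulAut.conj a • H := by
    intro a g x hx h1 hc
    by_contra hg
    exact h1 (ti a g hg x hx (by rw [hc, mul_inv_cancel_right]; exact hx))
  have cover : ∀ x ∈ L, ∃ a : G, x ∈ MulAut.conj a • H := by
    intro x hx
    by_cases h1 : x = 1
    · exact ⟨1, by rw [h1]; exact one_mem _⟩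
    obtain ⟨p, hp, hd⟩ := Nat.exists_prime_and_dvd (show orderOf x ≠ 1 by simpa using h1)
    haveI := Fact.mk hp
    obtain ⟨y, hy, hyo⟩ := CfH9.exists_orderOf_eq_prime (Q := zpowers x) (p := p)
      (by rwa [Nat.card_zpowers])
    obtain ⟨z, hz, hzo⟩ := CfH9.exists_orderOf_eq_prime (Q := H) (p := p)
      (hd.trans ((orderOf_dvd_natCard _ hx).trans hL))
    have hz1 : z ≠ 1 := by rintro rfl; exact hp.ne_one (by rw [← hzo, orderOf_one])
    have hy1 : y ≠ 1 := by rintro rfl; exact hp.ne_one (by rw [← hyo, orderOf_one])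
    obtain ⟨S, hS⟩ := (CfH9.isPGroup_zpowers_of_orderOf (k := 1)
      (hzo.trans (pow_one p).symm)).exists_le_sylow
    obtain ⟨c, hcS, hc1, hc⟩ := exists_mem_centralizer_of_isNilpotent (H := (S : Subgroup G))
      (N := (S : Subgroup G)) S.isPGroup'.isNilpotent le_rfl le_normalizer
      (fun e => hz1 (mem_bot.1 (e ▸ hS (mem_zpowers z))))
    have hcH : c ∈ MulAut.conj (1 : G) • H :=
      ti1 1 c z (by rwa [conj_one_smul]) hz1 (hc z (hS (mem_zpowers z))).symm
    have hSH : (S : Subgroup G) ≤ H := fun s hs => by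
      have := ti1 1 s c hcH hc1 (hc s hs)
      rwa [conj_one_smul] at this
    obtain ⟨T, hT⟩ := (CfH9.isPGroup_zpowers_of_orderOf (k := 1)
      (hyo.trans (pow_one p).symm)).exists_le_sylow
    obtain ⟨g, rfl⟩ := MulAction.exists_smul_eq G S T
    have hyH : y ∈ MulAut.conj g • H := conj_smul_mono g hSH (hT (mem_zpowers y))
    refine ⟨g, ti1 g x y hyH hy1 ?_⟩
    obtain ⟨k, rfl⟩ := mem_zpowers_iff.1 hy
    exact (Commute.self_zpow x k).eq
  by_contra hcon
  push Not at hcon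
  have tiL : ∀ a : G, ∀ g : L, g ∉ (MulAut.conj a • H).subgroupOf L →
      ∀ x ∈ (MulAut.conj a • H).subgroupOf L, g * x * g⁻¹ ∈ (MulAut.conj a • H).subgroupOf L →
        x = 1 := fun a g hg x hx hx' => Subtype.ext (ti a g hg x hx hx')
  have hLb : L ≠ ⊥ := fun e => hcon 1 (e ▸ bot_le)
  obtain ⟨x, hx, hx1⟩ := (Subgroup.bot_or_exists_ne_one L).resolve_left hLb
  obtain ⟨a, ha⟩ := cover x hx
  obtain ⟨K, -, hK, cK⟩ := CfH5.frobenius_kernel _ (tiL a)
  have hKb : K ≠ ⊥ := by
    rintro rfl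
    have := cK.sup_eq_top
    rw [bot_sup_eq, subgroupOf_eq_top] at this
    exact hcon a this
  obtain ⟨y, hy, hy1⟩ := (Subgroup.bot_or_exists_ne_one K).resolve_left hKb
  obtain ⟨b, hb⟩ := cover y y.2
  obtain ⟨g, z, hz, hz1, hz2⟩ := exists_inf_conj_ne_bot_of_ti
    (A := (MulAut.conj a • H).subgroupOf L) (B := (MulAut.conj b • H).subgroupOf L)
    (fun e => hx1 (by
      have h5 : (⟨x, hx⟩ : L) ∈ (MulAut.conj a • H).subgroupOf L := ha
      rw [e, mem_bot] at h5
      exact congrArg Subtype.val h5))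
    (fun e => hy1 (by
      have h5 : y ∈ (MulAut.conj b • H).subgroupOf L := hb
      rwa [e, mem_bot] at h5)) (tiL a) (tiL b)
  rw [mem_subgroupOf, mem_conj_smul] at hz hz2
  have h3 : b⁻¹ * g * a ∈ H := by
    by_contra h3
    have := ti 1 _ (by rwa [conj_one_smul]) _ (by rw [conj_one_smul]; exact hz) (by
      rw [conj_one_smul]
      convert hz2 using 1
      simp only [coe_mul, coe_inv]; group)
    refine hz1 (Subtype.ext ?_)
    calc (z : G) = a * (a⁻¹ * z * a) * a⁻¹ := by group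
      _ = 1 := by rw [this]; group
  refine ((hK y).1 hy).elim hy1 (fun h4 => h4 g⁻¹ ?_)
  rw [mem_subgroupOf, mem_conj_smul]
  rw [mem_conj_smul] at hb
  have := H.mul_mem (H.mul_mem (H.inv_mem h3) hb) h3
  convert this using 1
  simp only [coe_mul, coe_inv]; group

end Cfsg.Agent.S0589
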