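import Cfsg.Statements.S0757
import Cfsg.Agent.OD.Pre

set_option autoImplicit false
open Cfsg

namespace Cfsg.Agent.S0757

/-- The two diagonal forms Σ x_i^2 and Σ_(i<n) x_i^2 + α x_n^2 on F^(n+1), with α a non-square and 2 ≠ 0 in F, are inequivalent quadratic forms (so over a finite field of odd order there are exactly two classes of non-singular symmetric bilinear forms in each dimension). -/
theorem result {F : Type*} [Field F] (h2 : (2 : F) ≠ 0) (n : ℕ) (α : F) (hα : ¬ IsSquare α) : ¬ (QuadraticMap.weightedSumSquares F (fun _ : Fin (n + 1) => (1 : F))).Equivalent (QuadraticMap.weightedSumSquares F (fun i : Fin (n + 1) => if i = Fin.last n then α else (1 : F))) := by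
  rintro ⟨e⟩
  have : Invertible (2 : F) := invertibleOfNonzero h2
  have key : ∀ w : Fin (n + 1) → F,
      QuadraticForm.discr' (QuadraticMap.weightedSumSquares F w) = ∏ i, w i := by
    intro w
    have : QuadraticForm.toMatrix' (QuadraticMap.weightedSumSquares F w) = Matrix.diagonal w := by
      ext i j
      by_cases hij : i = j
      · subst hij
        simp only [QuadraticForm.toMatrix', LinearMap.toMatrix₂'_apply,
          QuadraticMap.associated_eq_self_apply, QuadraticMap.weightedSumSquares_apply]
        simp [Pi.single_apply]
      · simp only [QuadraticForm.toMatrix', LinearMap.toMatrix₂'_apply,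
          QuadraticMap.associated_apply, QuadraticMap.weightedSumSquares_apply]
        simp [Pi.single_apply, hij, mul_add, Finset.sum_add_distrib, Ne.symm hij]
    rw [QuadraticForm.discr', this, Matrix.det_diagonal]
  have h1 : (QuadraticMap.weightedSumSquares F (fun _ : Fin (n + 1) => (1 : F))) =
      (QuadraticMap.weightedSumSquares F (fun i : Fin (n + 1) => if i = Fin.last n then α else (1 : F))).comp
        (e.toLinearEquiv : (Fin (n + 1) → F) →ₗ[F] (Fin (n + 1) → F)) := by
    ext x
    exact (e.map_app x).symm
  have h3 := congrArg QuadraticForm.discr' h1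
  rw [QuadraticForm.discr'_comp, key, key] at h3
  simp only [Finset.prod_const_one, Finset.prod_ite_eq', Finset.mem_univ, if_true] at h3
  set d := (LinearMap.toMatrix' (e.toLinearEquiv : (Fin (n + 1) → F) →ₗ[F] (Fin (n + 1) → F))).det
  have hd : d ≠ 0 := by rintro h; simp [h] at h3
  exact hα ⟨d⁻¹, by field_simp; linear_combination -h3⟩

end Cfsg.Agent.S0757
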