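import Cfsg.Statements.S0758
import Cfsg.Agent.OD.Pre
import Cfsg.Agent.H2.FField

set_option autoImplicit false
open Cfsg

namespace Cfsg.Agent.S0758

theorem aux {F : Type*} [Field F] (a : F) (ha : a ≠ 0) :
    (∃ x y : F, (x ≠ 0 ∨ y ≠ 0) ∧ x ^ 2 + a * y ^ 2 = 0) ↔ IsSquare (-a) := by
  constructor
  · rintro ⟨x, y, hxy, h⟩
    have hy : y ≠ 0 := by
      rintro rfl
      simp at h hxy
      exact hxy h
    exact ⟨x / y, by field_simp; linear_combination -h⟩
  · rintro ⟨s, hs⟩
    exact ⟨s, 1, Or.inr one_ne_zero, by linear_combination -hs⟩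

/-- For a finite field F of odd order q and a non-square α: the form x² + y² is isotropic iff q ≡ 1 mod 4, and the form x² + α y² is isotropic iff q ≡ 3 mod 4. -/
theorem result {F : Type*} [Field F] [Fintype F] (h2 : (2 : F) ≠ 0) (α : F) (hα : ¬ IsSquare α) : ((∃ x y : F, (x ≠ 0 ∨ y ≠ 0) ∧ x ^ 2 + y ^ 2 = 0) ↔ Fintype.card F % 4 = 1) ∧ ((∃ x y : F, (x ≠ 0 ∨ y ≠ 0) ∧ x ^ 2 + α * y ^ 2 = 0) ↔ Fintype.card F % 4 = 3) := by
  have hodd := FiniteField.odd_card_of_char_ne_two (CfH2.ringChar_ne_two h2)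
  have h1 := FiniteField.isSquare_neg_one_iff (F := F)
  have ha : α ≠ 0 := by rintro rfl; exact hα IsSquare.zero
  constructor
  · have := aux (1 : F) one_ne_zero
    simp only [one_mul] at this
    rw [this, h1]
    omega
  · rw [aux α ha]
    constructor
    · intro h
      by_contra hc
      apply hα
      simpa using (h1.2 hc).mul h
    · intro h
      have : ¬ IsSquare (-1 : F) := by rw [h1]; simpa using h
      simpa using CfH2.isSquare_mul_of_not this hα

end Cfsg.Agent.S0758
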