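import Cfsg.Statements.S0759
import Cfsg.Agent.OD.Pre
import Cfsg.Agent.H2.Disc

set_option autoImplicit false
open Cfsg

namespace Cfsg.Agent.S0759

/-- Type of the orthonormal form: over a finite field of odd order q and for m ≥ 1, the quadratic form Σ_(i<2m) x_i² on F^(2m) admits an m-dimensional subspace on which it vanishes identically if and only if it is not the case that q ≡ 3 (mod 4) and m is odd. -/
theorem result {F : Type*} [Field F] [Fintype F] (h2 : (2 : F) ≠ 0) (m : ℕ) (hm : 1 ≤ m) : (∃ W : Submodule F (Fin (2 * m) → F), Module.finrank F W = m ∧ ∀ w ∈ W, ∑ i, w i ^ 2 = 0) ↔ ¬ (Fintype.card F % 4 = 3 ∧ Odd m) := by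
  classical
  let B : LinearMap.BilinForm F (Fin (2 * m) → F) := Matrix.toBilin' 1
  have hB : ∀ x y, B x y = ∑ i, x i * y i := fun x y => by
    simp [B, Matrix.toBilin'_apply', dotProduct]
  have hS : ∀ x y, B x y = B y x := fun x y => by simp [hB, mul_comm]
  have hN : B.Nondegenerate := LinearMap.BilinForm.nondegenerate_toBilin'_of_det_ne_zero' _ (by simp)
  have hd : CfH2.disc B = 1 := by
    rw [CfH2.disc_eq_basis B (Pi.basisFun F _), LinearMap.BilinForm.toMatrix_basisFun]
    simp [B]
  have key := CfH2.plus_iff_disc h2 B hS hN (m := m) (by simp)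
  have e1 : (∃ W : Submodule F (Fin (2 * m) → F), Module.finrank F W = m ∧ ∀ w ∈ W, ∑ i, w i ^ 2 = 0) ↔
      (∃ X : Submodule F (Fin (2 * m) → F), Module.finrank F X = m ∧ ∀ x ∈ X, ∀ y ∈ X, B x y = 0) := by
    refine exists_congr fun W => and_congr_right fun _ => ⟨fun h x hx y hy => ?_, fun h w hw => ?_⟩
    · have h1 := h x hx
      have h3 := h y hy
      have h4 := h (x + y) (W.add_mem hx hy)
      simp only [Pi.add_apply, add_sq, Finset.sum_add_distrib, h1, h3, mul_assoc,
        ← Finset.mul_sum] at h4
      rw [hB]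
      simpa [h2] using h4
    · simpa [hB, sq] using h w hw w hw
  rw [e1, key, hd]
  have hodd := FiniteField.odd_card_of_char_ne_two (CfH2.ringChar_ne_two h2)
  have h1 := FiniteField.isSquare_neg_one_iff (F := F)
  by_cases h3 : Fintype.card F % 4 = 3
  · have : quadraticChar F (-1) = -1 := quadraticChar_neg_one_iff_not_isSquare.2 (by rw [h1]; simpa using h3)
    rw [this]
    rcases Nat.even_or_odd m with h | h
    · simp [h.neg_one_pow, h]
    · simp [h.neg_one_pow, h, h3]
  · have : quadraticChar F (-1) = 1 := (quadraticChar_one_iff_isSquare (by simp)).2 (h1.2 h3)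
    simp [this, h3]

end Cfsg.Agent.S0759
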