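import Cfsg.Statements.S0760
import Cfsg.Agent.OD.Pre
import Cfsg.Agent.H2.Form2

set_option autoImplicit false
open Cfsg

namespace Cfsg.Agent.S0760

theorem aux {F V : Type*} [Field F] [AddCommGroup V] [Module F V] [FiniteDimensional F V] (Q : QuadraticForm F V) (hQ : (QuadraticMap.polarBilin Q).Nondegenerate) (W₁ W₂ : Submodule F V) (h₁ : ∀ w ∈ W₁, Q w = 0) (h₂ : ∀ w ∈ W₂, Q w = 0) (hmax₁ : ∀ W : Submodule F V, W₁ ≤ W → (∀ w ∈ W, Q w = 0) → W = W₁) (hle : Module.finrank F W₁ ≤ Module.finrank F W₂) : Module.finrank F W₁ = Module.finrank F W₂ := by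
  obtain ⟨Y, hY, hYf⟩ := CfH2.exists_le_finrank_eq W₂ hle
  obtain ⟨φ⟩ : Nonempty (Y ≃ₗ[F] W₁) := FiniteDimensional.nonempty_linearEquiv_of_finrank_eq hYf
  obtain ⟨g, hg, hg'⟩ := (CfH2.isWF_quad (Q := Q) hQ.2).witt_equiv Y W₁ φ (fun x y => by
    simp only [QuadraticMap.polarBilin_apply_apply, QuadraticMap.polar]
    rw [← Submodule.coe_add, ← Submodule.coe_add, h₁ _ (Subtype.prop _), h₁ _ (Subtype.prop _),
      h₁ _ (Subtype.prop _), h₂ _ (hY (Subtype.prop _)), h₂ _ (hY (Subtype.prop _)),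
      h₂ _ (hY (Subtype.prop _))]) (fun x => by rw [h₁ _ (Subtype.prop _), h₂ _ (hY x.2)])
  have := hmax₁ (W₂.map (g : V →ₗ[F] V)) (fun w hw => by
    refine ⟨φ.symm ⟨w, hw⟩, hY (Subtype.prop _), ?_⟩
    simp [hg']) (by
      rintro _ ⟨w, hw, rfl⟩
      simp only [LinearEquiv.coe_coe]
      rw [hg.2, h₂ w hw])
  rw [← this, LinearEquiv.finrank_map_eq]

/-- Witt index is well defined: if Q is a quadratic form on a finite-dimensional space V over a finite field with non-degenerate polar form, and W₁, W₂ are subspaces on which Q vanishes that are maximal with this property, then W₁ and W₂ have the same dimension, and twice this dimension is at most dim V. -/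
theorem result {F V : Type*} [Field F] [Finite F] [AddCommGroup V] [Module F V] [FiniteDimensional F V] (Q : QuadraticForm F V) (hQ : (QuadraticMap.polarBilin Q).Nondegenerate) (W₁ W₂ : Submodule F V) (h₁ : ∀ w ∈ W₁, Q w = 0) (h₂ : ∀ w ∈ W₂, Q w = 0) (hmax₁ : ∀ W : Submodule F V, W₁ ≤ W → (∀ w ∈ W, Q w = 0) → W = W₁) (hmax₂ : ∀ W : Submodule F V, W₂ ≤ W → (∀ w ∈ W, Q w = 0) → W = W₂) : Module.finrank F W₁ = Module.finrank F W₂ ∧ 2 * Module.finrank F W₁ ≤ Module.finrank F V := by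
  refine ⟨?_, ?_⟩
  · rcases le_total (Module.finrank F W₁) (Module.finrank F W₂) with h | h
    · exact aux Q hQ W₁ W₂ h₁ h₂ hmax₁ h
    · exact (aux Q hQ W₂ W₁ h₂ h₁ hmax₂ h).symm
  · have h := (CfH2.isWF_quad (Q := Q) hQ.2).finrank_perp W₁
    have hle : W₁ ≤ CfH2.perp (QuadraticMap.polarBilin Q) W₁ := fun y hy x hx => by
      simp only [QuadraticMap.polarBilin_apply_apply, QuadraticMap.polar]
      rw [h₁ _ hx, h₁ _ hy, h₁ _ (W₁.add_mem hx hy)]; simp
    have := Submodule.finrank_mono hle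
    omega

end Cfsg.Agent.S0760
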