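import Cfsg.Statements.S0761
import Cfsg.Agent.OD.Pre
import Cfsg.Agent.H2.Form

set_option autoImplicit false
open Cfsg

namespace Cfsg.Agent.S0761

/-- Hyperbolic partners: let B be a non-degenerate bilinear form on a finite-dimensional space, either alternating, or symmetric with 2 ≠ 0. If Z is a subspace on which B vanishes, x ∉ Z is isotropic and orthogonal to Z, then there is an isotropic y with B x y = 1 which is orthogonal to Z. -/
theorem result {F V : Type*} [Field F] [AddCommGroup V] [Module F V] [FiniteDimensional F V] (B : LinearMap.BilinForm F V) (hB : B.Nondegenerate) (hform : B.IsAlt ∨ (B.IsSymm ∧ (2 : F) ≠ 0)) (x : V) (Z : Submodule F V) (hxZ : x ∉ Z) (hx : B x x = 0) (hxz : ∀ z ∈ Z, B x z = 0) (hZ : ∀ z ∈ Z, ∀ z' ∈ Z, B z z' = 0) : ∃ y : V, B y y = 0 ∧ B x y = 1 ∧ ∀ z ∈ Z, B z y = 0 := by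
  rcases hform with hA | ⟨hS, h2⟩
  · have h := CfH2.isWF_alt (B := B) hA hB.2
    obtain ⟨f, hf, -, hf1⟩ := h.exists_partner (H := Z) (p := x) rfl hxZ
      (fun z hz => h.refl (hxz z hz))
    exact ⟨f, hA f, hf1, hf⟩
  · have hp : ∀ u v, QuadraticMap.polarBilin B.toQuadraticMap u v = 2 * B u v := fun u v => by
      simp [LinearMap.BilinMap.polar_toQuadraticMap, hS.eq v u, two_mul]
    have h := CfH2.isWF_quad (Q := B.toQuadraticMap) (fun y hy => hB.2 y fun u => by
      simpa [hp, h2] using (hp u y).symm.trans (hy u))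
    obtain ⟨f, hf, hf0, hf1⟩ := h.exists_partner (H := Z) (p := x) hx hxZ
      (fun z hz => by rw [hp, hS.eq, hxz z hz, mul_zero])
    have hf0' : B f f = 0 := hf0
    refine ⟨(2 : F) • f, by simp [hf0'], by rw [← hf1, hp]; simp, fun z hz => ?_⟩
    have := hf z hz
    rw [hp] at this
    simpa using this

end Cfsg.Agent.S0761
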