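import Cfsg.Statements.S0763
import Cfsg.Agent.OD.Pre
import Cfsg.Agent.H2.FField

set_option autoImplicit false
open Cfsg

namespace Cfsg.Agent.S0763

theorem aux {F V : Type*} [Field F] [CharP F 2] [AddCommGroup V] [Module F V] (Q : QuadraticForm F V)
    (v w : V) (h : QuadraticMap.polar Q v w = 1) : LinearIndependent F ![v, w] := by
  have h2 : (2 : F) = 0 := by exact_mod_cast CharP.cast_eq_zero F 2
  rw [LinearIndependent.pair_iff]
  intro s t hst
  have h1 := congrArg (fun x => QuadraticMap.polar Q v x) hst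
  have h3 := congrArg (fun x => QuadraticMap.polar Q x w) hst
  simp [QuadraticMap.polar_add_left, QuadraticMap.polar_add_right, h, h2] at h1 h3
  exact ⟨h3, h1⟩

/-- Binary quadratic forms in characteristic two over a finite field: if Q is a quadratic form on a 2-dimensional space whose polar form is non-degenerate, then either there are vectors v, w with Q v = Q w = 0 and polar value 1 (Q is xy in these coordinates), or there are v, w and μ with Q v = 1, Q w = μ, polar value 1 and x² + x + μ without roots in F (Q is x² + xy + μy²). -/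
theorem result {F V : Type*} [Field F] [Finite F] [CharP F 2] [AddCommGroup V] [Module F V] (Q : QuadraticForm F V) (h2 : Module.finrank F V = 2) (hQ : (QuadraticMap.polarBilin Q).Nondegenerate) : (∃ v w : V, LinearIndependent F ![v, w] ∧ Q v = 0 ∧ Q w = 0 ∧ QuadraticMap.polar Q v w = 1) ∨ (∃ (v w : V) (μ : F), LinearIndependent F ![v, w] ∧ (∀ x : F, x ^ 2 + x + μ ≠ 0) ∧ Q v = 1 ∧ Q w = μ ∧ QuadraticMap.polar Q v w = 1) := by
  have : FiniteDimensional F V := Module.finite_of_finrank_pos (by omega)
  have h := CfH2.isWF_quad (Q := Q) hQ.2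
  have h20 : (2 : F) = 0 := by exact_mod_cast CharP.cast_eq_zero F 2
  by_cases hs : ∃ v, v ≠ 0 ∧ Q v = 0
  · obtain ⟨v, hv0, hv⟩ := hs
    obtain ⟨w, -, hw, hvw⟩ := h.exists_partner (H := ⊥) hv (by simpa using hv0)
      (by simp [CfH2.perp_bot])
    exact Or.inl ⟨v, w, aux Q v w hvw, hv, hw, hvw⟩
  · push Not at hs
    have : Nontrivial V := Module.nontrivial_of_finrank_pos (R := F) (by omega)
    obtain ⟨u, hu⟩ := exists_ne (0 : V)
    obtain ⟨s, hsq⟩ := CfH2.isSquare_of_two_eq_zero h20 (Q u)
    have hs0 : s ≠ 0 := by rintro rfl; exact hs u hu (by simpa using hsq)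
    have hv : Q (s⁻¹ • u) = 1 := by
      rw [QuadraticMap.map_smul, hsq, smul_eq_mul]; field_simp
    have hv0 : s⁻¹ • u ∉ (⊥ : Submodule F V) := by simp [hs0, hu]
    obtain ⟨w, -, hw⟩ := h.exists_perp_ne_zero hv0
    have hw' : QuadraticMap.polar Q (s⁻¹ • u) w = 1 := hw
    have hli := aux Q _ _ hw'
    refine Or.inr ⟨s⁻¹ • u, w, Q w, hli, fun x hx => ?_, hv, rfl, hw'⟩
    refine hs (x • (s⁻¹ • u) + (1 : F) • w) (fun h0 => ?_) ?_
    · exact one_ne_zero (LinearIndependent.pair_iff.1 hli _ _ h0).2
    · rw [one_smul, CfH2.Q_add_of_polar, QuadraticMap.polar_smul_left, hw', QuadraticMap.map_smul, hv]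
      simp only [smul_eq_mul]
      linear_combination hx

end Cfsg.Agent.S0763
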