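import Cfsg.Statements.S0767
import Cfsg.Agent.OD.Pre
import Cfsg.Agent.H2.Symp

set_option autoImplicit false
open Cfsg

namespace Cfsg.Agent.S0767

/-- The root group of a point: T_v(c) T_v(d) = T_v(c + d), and for A in the symplectic group with A v = a v, the conjugate A T_v(c) A⁻¹ is again some T_v(d). -/
theorem result {F : Type*} [Field F] (m : ℕ) (v : Fin m ⊕ Fin m → F) : (∀ c d : F, Cfsg.sympTransvection m v c * Cfsg.sympTransvection m v d = Cfsg.sympTransvection m v (c + d)) ∧ ∀ (A : Matrix (Fin m ⊕ Fin m) (Fin m ⊕ Fin m) F) (a : F), A ∈ Matrix.symplecticGroup (Fin m) F → A.mulVec v = a • v → ∀ c : F, ∃ d : F, A * Cfsg.sympTransvection m v c * A⁻¹ = Cfsg.sympTransvection m v d := by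
  refine ⟨fun c d => CfH2.matrix_ext_mulVec fun x => ?_, fun A a hA hv c => ⟨c * a * a, ?_⟩⟩
  · simp only [← Matrix.mulVec_mulVec, CfH2.sympTransvection_mulVec, map_add, map_smul,
      LinearMap.add_apply, LinearMap.smul_apply, CfH2.sympB_self]
    module
  · have hu : IsUnit A.det := SymplecticGroup.symplectic_det hA
    refine CfH2.matrix_ext_mulVec fun x => ?_
    have h1 : A.mulVec (A⁻¹.mulVec x) = x := by
      rw [Matrix.mulVec_mulVec, Matrix.mul_nonsing_inv _ hu, Matrix.one_mulVec]
    have h2 := CfH2.mem_symplecticGroup_iff.1 hA (A⁻¹.mulVec x) v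
    rw [h1, hv, map_smul] at h2
    simp only [← Matrix.mulVec_mulVec, CfH2.sympTransvection_mulVec, Matrix.mulVec_add,
      Matrix.mulVec_smul, h1, hv, ← h2, smul_eq_mul]
    module

end Cfsg.Agent.S0767
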