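import Cfsg.Statements.S0768
import Cfsg.Agent.OD.Pre
import Cfsg.Agent.H2.Symp

set_option autoImplicit false
open scoped LinearAlgebra.Projectivization
open Cfsg

namespace Cfsg.Agent.S0768

theorem exists_g {F : Type*} [Field F] {m : ℕ} (f : (Fin m ⊕ Fin m → F) ≃ₗ[F] (Fin m ⊕ Fin m → F))
    (hf : f ∈ CfH2.Isom (CfH2.sympB m F) (fun _ => 0)) :
    ∃ g : Cfsg.spGL m F, ∀ v (hv : v ≠ 0) w (hw : w ≠ 0), f v = w →
      g • Projectivization.mk F v hv = Projectivization.mk F w hw := by
  obtain ⟨g, hg⟩ := CfH2.exists_gl f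
  refine ⟨⟨g, fun u v => ?_⟩, fun v hv w hw h => ?_⟩
  · rw [← CfH2.sympB_apply, ← CfH2.sympB_apply, ← hf.1 u v, ← hg, ← hg]; rfl
  · change g • Projectivization.mk F v hv = _
    rw [Projectivization.smul_mk]
    congr 1
    exact (hg v).trans h

/-- Primitivity: for m ≥ 1 and F finite, the symplectic group of the form sympForm (as a subgroup of the general linear group) acts primitively on the projective space of F^(2m). -/
theorem result {F : Type*} [Field F] [Finite F] (m : ℕ) (hm : 1 ≤ m) : MulAction.IsPreprimitive ↥(Cfsg.spGL m F) (ℙ F (Fin m ⊕ Fin m → F)) := by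
  have W := CfH2.isWF_symp m F
  have htr : MulAction.IsPretransitive ↥(Cfsg.spGL m F) (ℙ F (Fin m ⊕ Fin m → F)) := by
    refine ⟨fun p q => ?_⟩
    induction p using Projectivization.ind with | h u hu =>
    induction q using Projectivization.ind with | h v hv =>
    obtain ⟨f, hf, hf'⟩ := W.witt_single hu hv rfl
    obtain ⟨g, hg⟩ := exists_g f hf
    exact ⟨g, hg u hu v hv hf'⟩
  refine ⟨fun {S} hS => ?_⟩
  rw [MulAction.IsTrivialBlock, or_iff_not_imp_left]
  intro hns
  have key : ∀ x (hx : x ≠ 0) y (hy : y ≠ 0), Projectivization.mk F x hx ∈ S →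
      Projectivization.mk F y hy ∈ S → CfH2.sympB m F x y ≠ 0 →
      ∀ z (hz : z ≠ 0), CfH2.sympB m F x z ≠ 0 → Projectivization.mk F z hz ∈ S := by
    intro x hx y hy hxS hyS hxy z hz hxz
    set c := CfH2.sympB m F x y / CfH2.sympB m F x z with hc
    have hc0 : c ≠ 0 := div_ne_zero hxy hxz
    have h3 : CfH2.sympB m F x (c • z) = CfH2.sympB m F x y := by
      rw [map_smul, smul_eq_mul, hc, div_mul_cancel₀ _ hxz]
    obtain ⟨f, hf, h1, h2⟩ := W.witt_pair (u := x) (v := y) (u' := x) (v' := c • z)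
      (CfH2.linearIndependent_pair_of_alt (CfH2.sympB_self m x) hxy)
      (CfH2.linearIndependent_pair_of_alt (CfH2.sympB_self m x) (by rwa [h3])) rfl rfl h3
    obtain ⟨g, hg⟩ := exists_g f hf
    have e1 := hS.smul_eq_of_mem hxS (g := g) (by rw [hg x hx x hx h1]; exact hxS)
    have e2 : g • Projectivization.mk F y hy ∈ S := by
      rw [← e1]; exact Set.smul_mem_smul_set hyS
    rw [hg y hy (c • z) (smul_ne_zero hc0 hz) h2] at e2
    convert e2 using 1
    rw [eq_comm, Projectivization.mk_eq_mk_iff']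
    exact ⟨c, rfl⟩
  have two : ∃ x, ∃ hx : x ≠ 0, ∃ y, ∃ hy : y ≠ 0, Projectivization.mk F x hx ∈ S ∧
      Projectivization.mk F y hy ∈ S ∧ CfH2.sympB m F x y ≠ 0 := by
    obtain ⟨p, hp, q, hq, hpq⟩ := Set.not_subsingleton_iff.1 hns
    induction p using Projectivization.ind with | h x hx =>
    induction q using Projectivization.ind with | h y hy =>
    have hyx : y ∉ F ∙ x := by
      intro hc
      obtain ⟨a, ha⟩ := Submodule.mem_span_singleton.1 hc
      exact hpq ((Projectivization.mk_eq_mk_iff' F _ _ hy hx).2 ⟨a, ha⟩).symm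
    obtain ⟨w, hw, hw1⟩ := W.exists_perp_ne_zero hyx
    rw [CfH2.mem_perp_singleton] at hw
    obtain ⟨f, hf, hf'⟩ := CfH2.exists_transv W w 1
    obtain ⟨g, hg⟩ := exists_g f (CfH2.sympT_subset W hf)
    have h1 : f x = x := by rw [hf', hw]; simp
    have h2 : f y = y + w := by rw [hf', hw1]; simp
    have h3 : CfH2.sympB m F y (y + w) ≠ 0 := by simp [CfH2.sympB_self, hw1]
    have h4 : y + w ≠ 0 := fun hc => h3 (by rw [hc, map_zero])
    have e1 := hS.smul_eq_of_mem hp (g := g) (by rw [hg x hx x hx h1]; exact hp)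
    have e2 : g • Projectivization.mk F y hy ∈ S := by
      rw [← e1]; exact Set.smul_mem_smul_set hq
    rw [hg y hy (y + w) h4 h2] at e2
    exact ⟨y, hy, y + w, h4, hq, e2, h3⟩
  obtain ⟨x, hx, y, hy, hxS, hyS, hxy⟩ := two
  rw [Set.eq_univ_iff_forall]
  intro p
  induction p using Projectivization.ind with | h z hz =>
  obtain ⟨φ, -, h1, h2⟩ := CfH2.exists_dual_two (H := (⊥ : Submodule F _)) (u := x) (u' := z)
    (by simpa using hx) (by simpa using hz)
  obtain ⟨w, hw⟩ := W.exists_repr φ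
  have hwx : CfH2.sympB m F w x ≠ 0 := by rw [hw, h1]; exact one_ne_zero
  have hw0 : w ≠ 0 := by rintro rfl; simp at hwx
  have hwS := key x hx y hy hxS hyS hxy w hw0 (fun hc => hwx (W.refl hc))
  exact key w hw0 x hx hwS hxS hwx z hz (by rwa [hw])

end Cfsg.Agent.S0768
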