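import Cfsg.Statements.S0770
import Cfsg.Agent.OD.Pre
import Cfsg.Agent.H2.GLn

set_option autoImplicit false
open Cfsg

namespace Cfsg.Agent.S0770

theorem mem_iff {F : Type*} [Field F] {n : ℕ} (h : Matrix.GeneralLinearGroup (Fin n) F) :
    h ∈ (Units.map (Matrix.diagonalRingHom (Fin n) F).toMonoidHom).range ↔
      ∃ d : Fin n → F, (h : Matrix (Fin n) (Fin n) F) = Matrix.diagonal d := by
  constructor
  · rintro ⟨u, rfl⟩
    exact ⟨u, rfl⟩
  · rintro ⟨d, hd⟩
    have h0 : ∀ i, d i ≠ 0 := by
      have := h.det_ne_zero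
      rw [hd, Matrix.det_diagonal, Finset.prod_ne_zero_iff] at this
      exact fun i => this i (Finset.mem_univ i)
    exact ⟨⟨d, fun i => (d i)⁻¹, by ext i; simp [h0 i], by ext i; simp [h0 i]⟩, Units.ext hd.symm⟩

/-- For a field with at least 3 elements, an invertible matrix normalises the subgroup of invertible diagonal matrices of GL_n if and only if it is monomial (exactly one non-zero entry in each row). -/
theorem result {F : Type*} [Field F] (hF : ∃ a : F, a ≠ 0 ∧ a ≠ 1) (n : ℕ) (g : Matrix.GeneralLinearGroup (Fin n) F) : g ∈ Subgroup.normalizer ((Units.map (Matrix.diagonalRingHom (Fin n) F).toMonoidHom).range : Subgroup (Matrix.GeneralLinearGroup (Fin n) F)) ↔ ∀ i : Fin n, ∃! j : Fin n, (g : Matrix (Fin n) (Fin n) F) i j ≠ 0 := by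
  obtain ⟨a, ha0, ha1⟩ := hF
  rw [Subgroup.mem_normalizer_iff]
  have hconj : ∀ (h : Matrix.GeneralLinearGroup (Fin n) F) (e : Fin n → F),
      ((g * h * g⁻¹ : Matrix.GeneralLinearGroup (Fin n) F) : Matrix (Fin n) (Fin n) F) = Matrix.diagonal e ↔
      (g : Matrix (Fin n) (Fin n) F) * h = Matrix.diagonal e * g := by
    intro h e
    rw [Units.val_mul, Units.val_mul, Units.mul_inv_eq_iff_eq_mul]
  constructor
  · intro H i
    have hrow : ∃ j, (g : Matrix (Fin n) (Fin n) F) i j ≠ 0 := by
      by_contra hc
      push Not at hc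
      exact g.det_ne_zero (Matrix.det_eq_zero_of_row_eq_zero i hc)
    obtain ⟨j, hj⟩ := hrow
    refine ⟨j, hj, fun k hk => ?_⟩
    by_contra hkj
    let d : Fin n → F := fun l => if l = j then a else 1
    let h : Matrix.GeneralLinearGroup (Fin n) F := Matrix.GeneralLinearGroup.mkOfDetNeZero
      (Matrix.diagonal d) (by
        rw [Matrix.det_diagonal, Finset.prod_ne_zero_iff]
        intro l _
        simp only [d]
        split_ifs <;> simp [ha0])
    obtain ⟨e, he⟩ := (mem_iff _).1 ((H h).1 ((mem_iff _).2 ⟨d, rfl⟩))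
    rw [hconj] at he
    have h1 := congrFun (congrFun he i) j
    have h2 := congrFun (congrFun he i) k
    have hh : (h : Matrix (Fin n) (Fin n) F) = Matrix.diagonal d := rfl
    rw [hh, Matrix.mul_diagonal, Matrix.diagonal_mul] at h1 h2
    simp only [d, if_true, hkj, if_false, mul_one] at h1 h2
    have h3 : e i = 1 := by
      apply mul_right_cancel₀ hk
      rw [← h2, one_mul]
    apply ha1
    apply mul_left_cancel₀ hj
    rw [h1, h3, one_mul, mul_one]
  · intro H
    choose π hπ hπ' using H
    have hsurj : Function.Surjective π := by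
      intro j
      by_contra hc
      push Not at hc
      refine g.det_ne_zero (Matrix.det_eq_zero_of_column_eq_zero j fun i => ?_)
      by_contra h0
      exact hc i (hπ' i j h0).symm
    have key : ∀ d : Fin n → F, (g : Matrix (Fin n) (Fin n) F) * Matrix.diagonal d =
        Matrix.diagonal (d ∘ π) * g := by
      intro d
      ext i j
      rw [Matrix.mul_diagonal, Matrix.diagonal_mul]
      by_cases h0 : (g : Matrix (Fin n) (Fin n) F) i j = 0
      · simp [h0]
      · rw [hπ' i j h0, mul_comm]; rfl
    intro h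
    rw [mem_iff, mem_iff]
    constructor
    · rintro ⟨d, hd⟩
      exact ⟨d ∘ π, by rw [hconj, hd, key]⟩
    · rintro ⟨e, he⟩
      rw [hconj] at he
      let σ := Equiv.ofBijective π (Finite.injective_iff_bijective.1 (Finite.injective_iff_surjective.2 hsurj))
      refine ⟨e ∘ σ.symm, ?_⟩
      have h1 : (e ∘ σ.symm) ∘ π = e := by
        ext i
        exact congrArg e (σ.symm_apply_apply i)
      have := key (e ∘ σ.symm)
      rw [h1, ← he] at this
      exact (g.isUnit.mul_left_cancel this).symm

end Cfsg.Agent.S0770
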