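import Cfsg.Statements.S0772
import Cfsg.Agent.OD.Pre
import Cfsg.Agent.H2.GLn

set_option autoImplicit false
open Cfsg

namespace Cfsg.Agent.S0772

/-- Maximal parabolics are maximal: over a finite field, for 0 < k < n the stabiliser in GL_n of the span of the first k coordinate vectors is a maximal proper subgroup. -/
theorem result {F : Type*} [Field F] [Finite F] (n k : ℕ) (hk0 : 0 < k) (hkn : k < n) : IsCoatom (Cfsg.stabilizing (Cfsg.glToMat (Fin n) F) {v : Fin n → F | ∀ i : Fin n, k ≤ (i : ℕ) → v i = 0}) := by
  have h := CfH2.rep_GL (F := F) (ι := Fin n)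
  have hf := CfH2.finrank_coordSub (F := F) hkn.le
  have h1 := CfH2.isCoatom_stabS (W := CfH2.coordSub F n k)
    (by intro hc; rw [hc] at hf; simp at hf; omega) (by intro hc; rw [hc] at hf; simp at hf; omega)
  exact Subgroup.isCoatom_comap_of_surjective (φ := CfH2.linOf (Cfsg.glToMat (Fin n) F))
    (fun f => h.surj f trivial) h1

end Cfsg.Agent.S0772
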