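import Cfsg.Statements.S0773
import Cfsg.Agent.OD.Pre
import Cfsg.Agent.H2.GLn

set_option autoImplicit false
open Cfsg

namespace Cfsg.Agent.S0773

open scoped Matrix

theorem mem_iff {F : Type*} [Field F] {n k : ℕ} (g : Matrix.GeneralLinearGroup (Fin n) F) :
    g ∈ Cfsg.stabilizing (Cfsg.glToMat (Fin n) F) {v : Fin n → F | ∀ i : Fin n, k ≤ (i : ℕ) → v i = 0} ↔
      ∀ i j : Fin n, k ≤ (i : ℕ) → (j : ℕ) < k → (g : Matrix (Fin n) (Fin n) F) i j = 0 := by
  constructor
  · intro h i j hi hj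
    have := (h (Pi.single j 1)).1 (fun l hl => by
      have : l ≠ j := by rintro rfl; omega
      simp [this]) i hi
    simpa using this
  · intro h
    refine CfH2.mem_stabS_of_le (W := CfH2.coordSub F n k)
      (g := CfH2.linOf (Cfsg.glToMat (Fin n) F) g) fun v hv i hi => ?_
    rw [CfH2.linOf_apply, Matrix.mulVec, dotProduct]
    refine Finset.sum_eq_zero fun j _ => ?_
    by_cases hj : (j : ℕ) < k
    · simp [h i j hi hj]
    · simp [hv j (not_lt.1 hj)]

/-- reversed transpose -/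
def revT {F : Type*} [Field F] {n : ℕ} (M : Matrix (Fin n) (Fin n) F) : Matrix (Fin n) (Fin n) F :=
  (M.submatrix Fin.rev Fin.rev)ᵀ

theorem revT_mul {F : Type*} [Field F] {n : ℕ} (M N : Matrix (Fin n) (Fin n) F) :
    revT (M * N) = revT N * revT M := by
  rw [revT, revT, revT, ← Matrix.transpose_mul,
    Matrix.submatrix_mul _ _ _ Fin.rev _ Fin.rev_bijective]

theorem revT_one {F : Type*} [Field F] {n : ℕ} : revT (1 : Matrix (Fin n) (Fin n) F) = 1 := by
  ext i j
  simp [revT, Matrix.one_apply, Fin.rev_inj, eq_comm]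

theorem revT_revT {F : Type*} [Field F] {n : ℕ} (M : Matrix (Fin n) (Fin n) F) :
    revT (revT M) = M := by
  ext i j
  simp [revT]

/-- the inverse-transpose automorphism, twisted by the reversal of the coordinates -/
def grA {F : Type*} [Field F] {n : ℕ} (g : Matrix.GeneralLinearGroup (Fin n) F) :
    Matrix.GeneralLinearGroup (Fin n) F :=
  ⟨revT g.inv, revT g.val, by rw [← revT_mul, g.val_inv, revT_one],
    by rw [← revT_mul, g.inv_val, revT_one]⟩

/-- as an automorphism -/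
def grE (F : Type*) [Field F] (n : ℕ) :
    Matrix.GeneralLinearGroup (Fin n) F ≃* Matrix.GeneralLinearGroup (Fin n) F where
  toFun := grA
  invFun := grA
  left_inv g := Units.ext (revT_revT _)
  right_inv g := Units.ext (revT_revT _)
  map_mul' g h := Units.ext (revT_mul h.inv g.inv)

theorem grA_mem {F : Type*} [Field F] {n k l : ℕ} (hkl : k + l = n)
    (g : Matrix.GeneralLinearGroup (Fin n) F)
    (hg : g ∈ Cfsg.stabilizing (Cfsg.glToMat (Fin n) F) {v : Fin n → F | ∀ i : Fin n, k ≤ (i : ℕ) → v i = 0}) :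
    grA g ∈ Cfsg.stabilizing (Cfsg.glToMat (Fin n) F) {v : Fin n → F | ∀ i : Fin n, l ≤ (i : ℕ) → v i = 0} := by
  have h := (mem_iff _).1 (inv_mem hg)
  rw [mem_iff]
  intro i j hi hj
  exact h j.rev i.rev (by rw [Fin.val_rev]; omega) (by rw [Fin.val_rev]; omega)

/-- The stabilisers in GL_n(F), F finite, of the coordinate subspaces of dimensions k and n − k are isomorphic groups, but when 2k ≠ n (and 0 < k < n) no element of GL_n conjugates one onto the other. -/
theorem result {F : Type*} [Field F] [Finite F] (n k : ℕ) (hk0 : 0 < k) (hkn : k < n) (h2 : 2 * k ≠ n) : Nonempty (↥(Cfsg.stabilizing (Cfsg.glToMat (Fin n) F) {v : Fin n → F | ∀ i : Fin n, k ≤ (i : ℕ) → v i = 0}) ≃* ↥(Cfsg.stabilizing (Cfsg.glToMat (Fin n) F) {v : Fin n → F | ∀ i : Fin n, n - k ≤ (i : ℕ) → v i = 0})) ∧ ∀ g : Matrix.GeneralLinearGroup (Fin n) F, (Cfsg.stabilizing (Cfsg.glToMat (Fin n) F) {v : Fin n → F | ∀ i : Fin n, k ≤ (i : ℕ) → v i = 0}).map (MulAut.conj g).toMonoidHom ≠ Cfsg.stabilizing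 (Cfsg.glToMat (Fin n) F) {v : Fin n → F | ∀ i : Fin n, n - k ≤ (i : ℕ) → v i = 0} := by
  constructor
  · refine ⟨((grE F n).subgroupMap _).trans (MulEquiv.subgroupCongr (le_antisymm ?_ ?_))⟩
    · rintro _ ⟨g, hg, rfl⟩
      exact grA_mem (by omega) g hg
    · intro g hg
      exact ⟨grA g, grA_mem (by omega) g hg, (grE F n).left_inv g⟩
  · intro g hg
    let ρ := CfH2.linOf (Cfsg.glToMat (Fin n) F)
    have hle : CfH2.stabS F (CfH2.coordSub F n (n - k) : Set (Fin n → F)) ≤
        CfH2.stabS F ((CfH2.coordSub F n k).map (ρ g : (Fin n → F) →ₗ[F] (Fin n → F)) : Set (Fin n → F)) := by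
      intro f hf
      obtain ⟨h, rfl⟩ := (CfH2.rep_GL (F := F) (ι := Fin n)).surj f trivial
      have : h ∈ Cfsg.stabilizing (Cfsg.glToMat (Fin n) F) {v : Fin n → F | ∀ i : Fin n, n - k ≤ (i : ℕ) → v i = 0} := hf
      rw [← hg] at this
      obtain ⟨p, hp, rfl⟩ := this
      apply CfH2.mem_stabS_of_le
      rintro _ ⟨w, hw, rfl⟩
      refine ⟨ρ p w, (hp w).1 hw, ?_⟩
      simp [ρ]
    have h1 := LinearEquiv.finrank_map_eq (ρ g) (CfH2.coordSub F n k)
    rw [CfH2.finrank_coordSub hkn.le] at h1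
    rcases CfH2.eq_of_stabS_le hle with h | h | h <;> rw [h] at h1
    · simp at h1; omega
    · rw [CfH2.finrank_coordSub (by omega)] at h1; omega
    · simp at h1; omega

end Cfsg.Agent.S0773
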