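import Cfsg.Statements.S0774
import Cfsg.Agent.OD.Pre
import Cfsg.Agent.H2.Count

set_option autoImplicit false
open Cfsg

namespace Cfsg.Agent.S0774

/-- Borel subgroup of the symplectic group: the elements of Sp_2m(q) stabilising each of the totally isotropic coordinate subspaces ⟨e_0, ..., e_k⟩ (k < m) form a subgroup of order q^(m²) (q − 1)^m. -/
theorem result {F : Type*} [Field F] [Fintype F] {q : ℕ} (hF : Fintype.card F = q) (m : ℕ) : Nat.card ↥(⨅ k : Fin m, Cfsg.stabilizing (Cfsg.spToMat m F) {v : Fin m ⊕ Fin m → F | (∀ i : Fin m, (k : ℕ) < (i : ℕ) → v (Sum.inl i) = 0) ∧ ∀ i : Fin m, v (Sum.inr i) = 0}) = q ^ (m ^ 2) * (q - 1) ^ m := by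
  have h := CfH2.isWF_symp m F
  let S : Fin m → Set (Fin m ⊕ Fin m → F) := fun k => {v | (∀ i : Fin m, (k : ℕ) < (i : ℕ) → v (Sum.inl i) = 0) ∧ ∀ i : Fin m, v (Sum.inr i) = 0}
  let SW : Fin m → Submodule F (Fin m ⊕ Fin m → F) := fun k =>
    { carrier := S k
      add_mem' := fun ha hb => ⟨fun i hi => by simp [ha.1 i hi, hb.1 i hi],
        fun i => by simp [ha.2 i, hb.2 i]⟩
      zero_mem' := ⟨fun _ _ => rfl, fun _ => rfl⟩
      smul_mem' := fun c _ ha => ⟨fun i hi => by simp [ha.1 i hi], fun i => by simp [ha.2 i]⟩ }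
  rw [(CfH2.rep_sp m F).card_subgroup _ (⨅ k, CfH2.stabS F (S k))
    (fun g => by simp only [Subgroup.mem_iInf]; rfl)]
  let e : Fin m → (Fin m ⊕ Fin m → F) := fun i => Pi.single (Sum.inl i) 1
  have he : LinearIndependent F e :=
    (Pi.linearIndependent_single_one _ F).comp Sum.inl Sum.inl_injective
  have heS : ∀ i k : Fin m, i ≤ k → e i ∈ S k := fun i k hik =>
    ⟨fun j hj => by
      have : j ≠ i := by rintro rfl; exact absurd hik (by simpa using hj)
      simp [e, this], fun j => by simp [e]⟩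
  have hB : ∀ u v : Fin m ⊕ Fin m → F, (∀ i, u (Sum.inr i) = 0) → (∀ i, v (Sum.inr i) = 0) →
      CfH2.sympB m F u v = 0 := fun u v hu hv => by
    simp [CfH2.sympB_apply, CfH2.sympForm_eq_sum, hu, hv]
  let W := Submodule.span F (Set.range e)
  have hWk : Module.finrank F W = m := by rw [finrank_span_eq_card he]; simp
  have hWW : W ≤ CfH2.perp (CfH2.sympB m F) W := by
    rw [Submodule.span_le]
    rintro _ ⟨i, rfl⟩
    rw [SetLike.mem_coe, CfH2.mem_perp_span]
    rintro _ ⟨j, rfl⟩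
    exact hB _ _ (heS j j le_rfl).2 (heS i i le_rfl).2
  have hdec : ∀ k, ∀ v ∈ S k, v = ∑ i, v (Sum.inl i) • e i := by
    intro k v hv
    ext (j | j)
    · simp [e, Finset.sum_apply, Pi.single_apply]
    · simp [e, Finset.sum_apply, hv.2 j]
  have hstab : ∀ g : (Fin m ⊕ Fin m → F) ≃ₗ[F] (Fin m ⊕ Fin m → F), (∀ i, g (e i) ∈ S i) →
      g ∈ ⨅ k, CfH2.stabS F (S k) := by
    intro g hg
    rw [Subgroup.mem_iInf]
    intro k
    refine CfH2.mem_stabS_of_le (W := SW k) fun v hv => ?_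
    rw [hdec k v hv, map_sum]
    refine Submodule.sum_mem _ fun i _ => ?_
    rw [map_smul]
    by_cases hik : i ≤ k
    · exact Submodule.smul_mem _ _ ⟨fun j hj => (hg i).1 j (lt_of_le_of_lt hik hj), (hg i).2⟩
    · rw [hv.1 i (not_le.1 hik), zero_smul]; exact Submodule.zero_mem _
  have hfix : (CfH2.Isom (CfH2.sympB m F) (fun _ => 0) ⊓ ⨅ k, CfH2.stabS F (S k)) ⊓ CfH2.fixS W =
      CfH2.Isom (CfH2.sympB m F) (fun _ => 0) ⊓ CfH2.fixS W := by
    rw [inf_assoc]
    congr 1
    rw [inf_eq_right]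
    intro g hg
    exact hstab g fun i => by
      rw [hg _ (Submodule.subset_span ⟨i, rfl⟩)]; exact heS i i le_rfl
  obtain ⟨H', -, h2, h3⟩ := h.card_fix_sing m 0 ⊥ W CfH2.nondegOn_bot (fun _ _ => rfl) hWW
    (by simp [CfH2.perp_bot]) hWk (by simp [two_mul])
  have h4 : H' = ⊤ := Submodule.eq_top_of_finrank_eq (by simp [h2, two_mul])
  have h5 : {f : Fin m → Fin m ⊕ Fin m → F | LinearIndependent F f ∧ ∀ i, f i ∈ S i}.ncard =
      q ^ (m * (m - 1) / 2) * (q - 1) ^ m := by
    rw [← hF, ← CfH2.card_upper_tri, ← Nat.card_coe_set_eq]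
    let ι : (Fin m → F) →ₗ[F] (Fin m ⊕ Fin m → F) :=
      { toFun := fun v => Sum.elim v 0
        map_add' := fun a b => by ext (i | i) <;> simp
        map_smul' := fun a b => by ext (i | i) <;> simp }
    have hι : LinearMap.ker ι = ⊥ :=
      LinearMap.ker_eq_bot.2 fun a b hab => funext fun i => congrFun hab (Sum.inl i)
    symm
    refine Nat.card_congr (Equiv.ofBijective (fun g => ⟨fun i => ι (g.1.1.col i),
      (Matrix.linearIndependent_cols_iff_isUnit.2 g.1.isUnit).map' ι hι,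
      fun i => ⟨fun j hj => g.2 j i hj, fun _ => rfl⟩⟩) ⟨?_, ?_⟩)
    · intro g g' hgg
      have := congrArg Subtype.val hgg
      refine Subtype.ext (Units.ext (Matrix.ext fun i j => ?_))
      exact congrFun (congrFun this j) (Sum.inl i)
    · rintro ⟨f, hf1, hf2⟩
      let M : Matrix (Fin m) (Fin m) F := Matrix.of fun j i => f i (Sum.inl j)
      have hM : ∀ i, ι (M.col i) = f i := fun i => by
        ext (j | j)
        · rfl
        · exact ((hf2 i).2 j).symm
      have hu : IsUnit M := Matrix.linearIndependent_cols_iff_isUnit.1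
        (LinearIndependent.of_comp ι (by rwa [show ι ∘ M.col = f from funext hM]))
      exact ⟨⟨hu.unit, fun i j hij => (hf2 j).1 i hij⟩, Subtype.ext (funext hM)⟩
  have h6 : ∀ k : ℕ, q ^ (k * (k - 1) / 2) * ∏ j ∈ Finset.range k, (q ^ (0 + j) * q) = q ^ (k ^ 2) := by
    intro k
    induction k with
    | zero => simp
    | succ k ih =>
      rw [Finset.prod_range_succ, Nat.triangle_succ, pow_add, mul_mul_mul_comm, ih]
      ring
  rw [CfH2.card_eq_ncard_mul _ e {f | LinearIndependent F f ∧ ∀ i, f i ∈ S i},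
    CfH2.stabilizer_family, hfix, ← bot_sup_eq W, h3, h4, CfH2.fixS_top, h5, AddMonoidHom.ker_zero,
    AddSubgroup.card_top, Nat.card_eq_fintype_card, hF, ← h6 m]
  · simp; ring
  · intro f
    constructor
    · rintro ⟨hf1, hf2⟩
      obtain ⟨g, hg, hg'⟩ := h.witt_family e f he hf1 (fun i j => by
        rw [hB _ _ (hf2 i).2 (hf2 j).2, hB _ _ (heS i i le_rfl).2 (heS j j le_rfl).2])
        (fun _ => rfl)
      exact ⟨g, ⟨hg, hstab g fun i => hg' i ▸ hf2 i⟩, funext hg'⟩
    · rintro ⟨g, ⟨-, hg⟩, rfl⟩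
      exact ⟨he.map' g.toLinearMap g.ker,
        fun i => ((Subgroup.mem_iInf.1 hg i) _).1 (heS i i le_rfl)⟩

end Cfsg.Agent.S0774
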