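import Cfsg.Statements.S0776
import Cfsg.Agent.OD.Pre
import Cfsg.Agent.H2.Decomp

set_option autoImplicit false
open Cfsg

namespace Cfsg.Agent.S0776

/-- If W ≤ F^(2m) is a 2k-dimensional subspace on which the symplectic form is non-degenerate, then the stabiliser of W in Sp_2m(F) is isomorphic to Sp_2k(F) × Sp_(2m−2k)(F). -/
theorem result {F : Type*} [Field F] (m k : ℕ) (hk : k ≤ m) (W : Submodule F (Fin m ⊕ Fin m → F)) (hWk : Module.finrank F W = 2 * k) (hW : ∀ u ∈ W, (∀ v ∈ W, Cfsg.sympForm m F u v = 0) → u = 0) : Nonempty (↥(Cfsg.stabilizing (Cfsg.spToMat m F) (W : Set (Fin m ⊕ Fin m → F))) ≃* Matrix.symplecticGroup (Fin k) F × Matrix.symplecticGroup (Fin (m - k)) F) := by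
  have h := CfH2.isWF_symp m F
  have hN : CfH2.NondegOn (CfH2.sympB m F) W := fun y hy H =>
    hW y hy fun v hv => (CfH2.sympB_apply m y v).symm.trans (h.refl (H v hv))
  have hd := h.finrank_perp W
  obtain ⟨e₁, he₁⟩ := CfH2.exists_equiv_symp (h.restrict hN) hWk
  obtain ⟨e₂, he₂⟩ := CfH2.exists_equiv_symp (h.restrict (h.nondegOn_perp hN)) (k := m - k)
    (by simp at hd; omega)
  obtain ⟨Φ, hΦ⟩ := h.exists_rep_prod hN e₁ e₂ he₁ (fun _ => rfl) he₂ (fun _ => rfl)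
    (CfH2.rep_sp k F) (CfH2.rep_sp (m - k) F)
  exact ⟨((CfH2.rep_sp m F).subgroup _ (CfH2.stabS F (W : Set _)) (fun g => Iff.rfl)).equiv.trans
    hΦ.equiv.symm⟩

end Cfsg.Agent.S0776
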