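import Cfsg.Statements.S0777
import Cfsg.Agent.OD.Pre
import Cfsg.Agent.H2.Count

set_option autoImplicit false
open Cfsg

namespace Cfsg.Agent.S0777

open CfH2 in
theorem aux {F : Type*} [Field F] [Fintype F] (hq : 4 ≤ Fintype.card F) :
    ∃ a : F, a ≠ 0 ∧ a ≠ 1 ∧ a ≠ a⁻¹ := by
  classical
  have : ({0, 1, -1} : Finset F).card < (Finset.univ : Finset F).card := by
    have := Finset.card_le_three (a := (0 : F)) (b := 1) (c := -1)
    rw [Finset.card_univ]; omega
  obtain ⟨a, -, ha⟩ := Finset.exists_mem_notMem_of_card_lt_card this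
  simp only [Finset.mem_insert, Finset.mem_singleton, not_or] at ha
  refine ⟨a, ha.1, ha.2.1, fun h => ?_⟩
  have : a * a = 1 := by
    nth_rewrite 2 [h]
    exact mul_inv_cancel₀ ha.1
  rcases mul_self_eq_one_iff.1 this with h1 | h1
  · exact ha.2.1 h1
  · exact ha.2.2 h1

/-- The side of an index. -/
def side {m : ℕ} (s : Bool) (i : Fin m) : Fin m ⊕ Fin m := if s then Sum.inl i else Sum.inr i

theorem exists_side {m : ℕ} (j : Fin m ⊕ Fin m) : ∃ s i, j = side s i := by
  rcases j with j | j
  · exact ⟨true, j, rfl⟩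
  · exact ⟨false, j, rfl⟩

theorem side_inj {m : ℕ} {s t : Bool} {i j : Fin m} : side s i = side t j ↔ s = t ∧ i = j := by
  cases s <;> cases t <;> simp [side]

theorem sympB_side {F : Type*} [Field F] {m : ℕ} (s t : Bool) (i j : Fin m) :
    CfH2.sympB m F (Pi.single (side s i) 1) (Pi.single (side t j) 1) =
      if i = j ∧ s ≠ t then (if s then -1 else 1) else 0 := by
  cases s <;> cases t <;>
    simp [side, CfH2.sympB_apply, CfH2.sympForm_eq_sum, Pi.single_apply, eq_comm, apply_ite]

set_option maxHeartbeats 1000000 in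
/-- Weyl group of type C_m: for q ≥ 4 the diagonal matrices of Sp_2m(q) form a torus T ≅ (C_(q−1))^m (the elements stabilising every coordinate axis), and the normaliser of T in Sp_2m(q) has order 2^m · m! · (q − 1)^m. -/
theorem result {F : Type*} [Field F] [Fintype F] {q : ℕ} (hF : Fintype.card F = q) (hq : 4 ≤ q) (m : ℕ) : Nat.card ↥(Subgroup.normalizer (⨅ i : Fin m ⊕ Fin m, Cfsg.stabilizing (Cfsg.spToMat m F) ((Submodule.span F {(Pi.single i (1 : F) : Fin m ⊕ Fin m → F)} : Submodule F (Fin m ⊕ Fin m → F)) : Set (Fin m ⊕ Fin m → F)) : Set (Matrix.symplecticGroup (Fin m) F))) = 2 ^ m * Nat.factorial m * (q - 1) ^ m := by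
  classical
  have h := CfH2.isWF_symp m F
  obtain ⟨a, ha0, ha1, ha2⟩ := aux (hF ▸ hq : 4 ≤ Fintype.card F)
  let e : Fin m ⊕ Fin m → (Fin m ⊕ Fin m → F) := fun i => Pi.single i 1
  have he : LinearIndependent F e := Pi.linearIndependent_single_one _ F
  have he0 : ∀ i, e i ≠ 0 := he.ne_zero
  let K := CfH2.Isom (CfH2.sympB m F) (fun _ => 0)
  let ρ := CfH2.linOf (Cfsg.spToMat m F)
  have hρ : CfH2.Rep ρ K := CfH2.rep_sp m F
  let M : Subgroup ((Fin m ⊕ Fin m → F) ≃ₗ[F] (Fin m ⊕ Fin m → F)) :=
    { carrier := {g | ∃ π : Equiv.Perm (Fin m ⊕ Fin m), ∀ i, ∃ c : F, c ≠ 0 ∧ g (e i) = c • e (π i)}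
      one_mem' := ⟨1, fun i => ⟨1, one_ne_zero, by simp⟩⟩
      mul_mem' := by
        rintro g k ⟨π, hπ⟩ ⟨π', hπ'⟩
        refine ⟨π * π', fun i => ?_⟩
        obtain ⟨c, hc, hc'⟩ := hπ' i
        obtain ⟨d, hd, hd'⟩ := hπ (π' i)
        exact ⟨c * d, mul_ne_zero hc hd, by simp [hc', hd', smul_smul]⟩
      inv_mem' := by
        rintro g ⟨π, hπ⟩
        refine ⟨π⁻¹, fun i => ?_⟩
        obtain ⟨c, hc, hc'⟩ := hπ (π⁻¹ i)
        refine ⟨c⁻¹, inv_ne_zero hc, ?_⟩
        rw [LinearEquiv.coe_inv, LinearEquiv.symm_apply_eq, map_smul, hc', smul_smul,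
          inv_mul_cancel₀ hc]
        simp }
  set T := (⨅ i : Fin m ⊕ Fin m, Cfsg.stabilizing (Cfsg.spToMat m F) ((Submodule.span F {(Pi.single i (1 : F) : Fin m ⊕ Fin m → F)} : Submodule F (Fin m ⊕ Fin m → F)) : Set (Fin m ⊕ Fin m → F))) with hT
  have hTmem : ∀ t, t ∈ T ↔ ∀ i, ∃ c : F, c • e i = ρ t (e i) := by
    intro t
    rw [hT, Subgroup.mem_iInf]
    refine forall_congr' fun i => ⟨fun H => Submodule.mem_span_singleton.1
      ((H _).1 (Submodule.mem_span_singleton_self _)), fun ⟨c, hc⟩ => ?_⟩
    refine CfH2.mem_stabS_of_le (W := F ∙ e i) (g := ρ t) fun v hv => ?_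
    obtain ⟨d, rfl⟩ := Submodule.mem_span_singleton.1 hv
    rw [map_smul, ← hc]
    exact Submodule.smul_mem _ _ (Submodule.smul_mem _ _ (Submodule.mem_span_singleton_self _))
  have hwitt : ∀ (π : Equiv.Perm (Fin m)) (s : Fin m → Bool) (c : Fin m → Fˣ), ∃ g ∈ K,
      ∀ t i, g (e (side t i)) = (if t then (c i : F) else (if s i then 1 else -1) * ((c i)⁻¹ : Fˣ)) •
        e (side (t == s i) (π i)) := by
    intro π s c
    let w : Fin m ⊕ Fin m → (Fin m ⊕ Fin m → F) := Sum.elim
      (fun i => (c i : F) • e (side (s i) (π i)))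
      (fun i => ((if s i then 1 else -1) * ((c i)⁻¹ : Fˣ) : F) • e (side (!s i) (π i)))
    have hw : ∀ t i, w (side t i) =
        (if t then (c i : F) else (if s i then 1 else -1) * ((c i)⁻¹ : Fˣ)) •
        e (side (t == s i) (π i)) := fun t i => by cases t <;> simp [w, side]
    obtain ⟨g, hg, hg'⟩ := h.exists_isom_of_linearMap ((Pi.basisFun F _).constr F w) (fun x y => by
      refine CfH2.B_span (B := CfH2.sympB m F) (B' := CfH2.sympB m F) _
        (s := Set.range (Pi.basisFun F _)) ?_ x (by simp) y (by simp)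
      rintro _ ⟨i, rfl⟩ _ ⟨j, rfl⟩
      obtain ⟨t, i, rfl⟩ := exists_side i
      obtain ⟨t', j, rfl⟩ := exists_side j
      rw [Module.Basis.constr_basis, Module.Basis.constr_basis, hw, hw]
      simp only [map_smul, LinearMap.smul_apply, e, sympB_side, Pi.basisFun_apply, smul_eq_mul,
        EmbeddingLike.apply_eq_iff_eq]
      by_cases hij : i = j
      · subst hij
        cases t <;> cases t' <;> cases s i <;> simp
      · simp [hij]) (fun _ => rfl)
    refine ⟨g, hg, fun t i => ?_⟩
    rw [hg', ← hw, ← (Pi.basisFun F _).constr_basis F w]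
    simp [e]
  have hN : ∀ g, g ∈ Subgroup.normalizer (T : Set (Matrix.symplecticGroup (Fin m) F)) ↔ ρ g ∈ M := by
    intro g
    constructor
    · intro hg
      have h1 : ∀ i, ∃ j c, c ≠ (0 : F) ∧ ρ g (e i) = c • e j := by
        intro i
        obtain ⟨j, hj⟩ : ∃ j, ρ g (e i) j ≠ 0 :=
          Function.ne_iff.1 ((LinearEquiv.map_ne_zero_iff (ρ g)).2 (he0 i))
        refine ⟨j, _, hj, funext fun k => ?_⟩
        by_cases hjk : k = j
        · simp [hjk, e]
        obtain ⟨s, j, rfl⟩ := exists_side j
        obtain ⟨t, ht, ht'⟩ := hwitt 1 (fun _ => true)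
          (fun l => if l = j then Units.mk0 a ha0 else 1)
        obtain ⟨t, rfl⟩ := hρ.surj t ht
        let d : Fin m ⊕ Fin m → F := Sum.elim (fun l => if l = j then a else 1)
          (fun l => if l = j then a⁻¹ else 1)
        have hd : ∀ l, ρ t (e l) = d l • e l := by
          intro l
          obtain ⟨u, l, rfl⟩ := exists_side l
          rw [ht']
          by_cases hl : l = j <;> cases u <;> simp [d, side, hl]
        have hd' : ∀ (v : Fin m ⊕ Fin m → F) l, ρ t v l = d l * v l := by
          intro v l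
          conv_lhs => rw [← (Pi.basisFun F _).sum_repr v, map_sum]
          simp only [map_smul, Pi.basisFun_apply, Finset.sum_apply]
          rw [Finset.sum_eq_single l]
          · have := hd l
            simp only [e] at this
            simp [this, mul_comm]
          · intro b _ hb
            have := hd b
            simp only [e] at this
            simp [this, hb.symm]
          · simp
        have htT : t ∈ T := (hTmem t).2 fun l => ⟨_, (hd l).symm⟩
        obtain ⟨c, hc⟩ := (hTmem _).1 ((Subgroup.mem_normalizer_iff''.1 hg t).1 htT) i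
        have h2 : ρ t (ρ g (e i)) = c • ρ g (e i) := by
          rw [← map_smul, hc, map_mul, map_mul, map_inv]
          simp
        have h3 := congrFun h2 (side s j)
        have h4 := congrFun h2 k
        rw [hd', Pi.smul_apply, smul_eq_mul] at h3 h4
        rw [← mul_right_cancel₀ hj h3] at h4
        have h5 : d k ≠ d (side s j) := by
          obtain ⟨u, k, rfl⟩ := exists_side k
          by_cases hk : k = j
          · subst hk
            cases u <;> cases s
            · exact absurd rfl hjk
            · simpa [d, side] using ha2.symm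
            · simpa [d, side] using ha2
            · exact absurd rfl hjk
          · cases u <;> cases s <;> simp [d, side, hk, ha1.symm, ha1]
        have := mul_eq_mul_right_iff.1 h4
        simp [this.resolve_left h5, e, hjk]
      choose π c hc hc' using h1
      have hπ : Function.Injective π := by
        intro i j hij
        by_contra hne
        have h2 : ρ g (c j • e i - c i • e j) = 0 := by
          rw [map_sub, map_smul, map_smul, hc', hc', hij, smul_smul, smul_smul, mul_comm, sub_self]
        have h3 := congrFun ((LinearEquiv.map_eq_zero_iff _).1 h2) i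
        simp [e, Ne.symm hne, hc j] at h3
      exact ⟨Equiv.ofBijective π (Finite.injective_iff_bijective.1 hπ), fun i => ⟨_, hc i, hc' i⟩⟩
    · intro hg
      have key : ∀ g, ρ g ∈ M → ∀ t ∈ T, g * t * g⁻¹ ∈ T := by
        rintro g ⟨π, hπ⟩ t ht
        rw [hTmem] at ht ⊢
        intro i
        obtain ⟨i, rfl⟩ := π.surjective i
        obtain ⟨c, hc, hc'⟩ := hπ i
        obtain ⟨d, hd⟩ := ht i
        refine ⟨d, ?_⟩
        have : e (π i) = ρ g (c⁻¹ • e i) := by rw [map_smul, hc', smul_smul]; simp [hc]
        rw [this, map_mul, map_mul, map_inv]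
        simp [← hd, smul_comm d]
      refine Subgroup.mem_normalizer_iff.2 fun t => ⟨key g hg t, fun ht => ?_⟩
      simpa [mul_assoc] using key g⁻¹ (by rw [map_inv]; exact inv_mem hg) _ ht
  let P : Equiv.Perm (Fin m) × (Fin m → Bool) × (Fin m → Fˣ) → (Fin m → Fin m ⊕ Fin m → F) :=
    fun p i => (p.2.2 i : F) • e (side (p.2.1 i) (p.1 i))
  have hP : Function.Injective P := by
    rintro ⟨π, s, c⟩ ⟨π', s', c'⟩ hpp
    have h1 : ∀ i, side (s i) (π i) = side (s' i) (π' i) ∧ c i = c' i := by
      intro i
      have h2 := congrFun (congrFun hpp i) (side (s i) (π i))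
      by_cases h3 : side (s i) (π i) = side (s' i) (π' i)
      · exact ⟨h3, Units.ext (by simpa [P, e, ← h3] using h2)⟩
      · simp [P, e, h3] at h2
    simp only [side_inj] at h1
    exact Prod.ext (Equiv.ext fun i => (h1 i).1.2)
      (Prod.ext (funext fun i => (h1 i).1.1) (funext fun i => (h1 i).2))
  have hstab : (K ⊓ M) ⊓ MulAction.stabilizer _ (fun i : Fin m => e (side true i)) = ⊥ := by
    rw [eq_bot_iff]
    rintro g ⟨⟨hgK, π, hπ⟩, hg⟩
    have h1 : ∀ i, g (e (side true i)) = e (side true i) := fun i => congrFun hg i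
    refine LinearEquiv.toLinearMap_injective ((Pi.basisFun F _).ext fun l => ?_)
    obtain ⟨t, i, rfl⟩ := exists_side l
    suffices g (e (side t i)) = e (side t i) by simpa [e] using this
    cases t
    · obtain ⟨c, hc, hc'⟩ := hπ (side false i)
      obtain ⟨u, j, hj⟩ := exists_side (π (side false i))
      have h2 := hgK.1 (e (side true i)) (e (side false i))
      rw [h1, hc', hj, map_smul] at h2
      simp only [e, sympB_side] at h2
      by_cases h3 : i = j ∧ true ≠ u
      · obtain ⟨rfl, h3⟩ := h3
        obtain rfl : u = false := by simpa using h3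
        rw [hc', hj, show c = 1 by simpa using h2, one_smul]
      · rw [if_neg h3] at h2
        simp at h2
    · exact h1 i
  have hTc : (⨅ i : Fin m ⊕ Fin m, Cfsg.stabilizing (Cfsg.spToMat m F) ((Submodule.span F {(Pi.single i (1 : F) : Fin m ⊕ Fin m → F)} : Submodule F (Fin m ⊕ Fin m → F)) : Set (Fin m ⊕ Fin m → F)) : Set (Matrix.symplecticGroup (Fin m) F)) = (T : Set (Matrix.symplecticGroup (Fin m) F)) := by
    rw [hT, Subgroup.coe_iInf]
    rfl
  rw [hTc, hρ.card_subgroup _ M hN, CfH2.card_eq_ncard_mul (K ⊓ M) (fun i : Fin m => e (side true i))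
    (Set.range P), hstab, Set.ncard_range_of_injective hP]
  · simp [Fintype.card_perm, Fintype.card_units, hF]
    ring
  · intro f
    constructor
    · rintro ⟨⟨π, s, c⟩, rfl⟩
      obtain ⟨g, hg, hg'⟩ := hwitt π s c
      refine ⟨g, ⟨hg, ?_⟩, funext fun i => by simpa [P] using hg' true i⟩
      let π' : Fin m ⊕ Fin m → Fin m ⊕ Fin m :=
        Sum.elim (fun i => side (s i) (π i)) (fun i => side (!s i) (π i))
      have h1 : ∀ t i, π' (side t i) = side (t == s i) (π i) := fun t i => by
        cases t <;> simp [π', side]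
      have h2 : Function.Injective π' := by
        intro k l hkl
        obtain ⟨t, k, rfl⟩ := exists_side k
        obtain ⟨u, l, rfl⟩ := exists_side l
        rw [h1, h1, side_inj] at hkl
        obtain rfl := π.injective hkl.2
        have h3 := hkl.1
        rw [show t = u by revert h3; cases t <;> cases u <;> cases s k <;> simp]
      refine ⟨Equiv.ofBijective π' (Finite.injective_iff_bijective.1 h2), fun l => ?_⟩
      obtain ⟨t, i, rfl⟩ := exists_side l
      refine ⟨_, ?_, by rw [hg', Equiv.ofBijective_apply, h1]⟩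
      cases t <;> cases s i <;> simp
    · rintro ⟨g, ⟨hgK, π, hπ⟩, rfl⟩
      choose c hc hc' using hπ
      choose s σ hsσ using fun i => exists_side (π (side true i))
      have hσ : Function.Injective σ := by
        intro i j hij
        by_contra hne
        have h1 : s i ≠ s j := fun h1 => hne (side_inj.1 (π.injective (by
          rw [hsσ, hsσ, h1, hij]))).2
        have h2 := hgK.1 (e (side true i)) (e (side true j))
        rw [hc', hc', hsσ, hsσ, hij] at h2
        simp only [map_smul, LinearMap.smul_apply, e, sympB_side] at h2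
        cases h3 : s i <;> simp [h1, h3, hc] at h2 <;> simp_all
      refine ⟨⟨Equiv.ofBijective σ (Finite.injective_iff_bijective.1 hσ), s,
        fun i => Units.mk0 _ (hc (side true i))⟩, funext fun i => ?_⟩
      change _ = g (e (side true i))
      rw [hc', hsσ]
      rfl

end Cfsg.Agent.S0777
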