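import Cfsg.Statements.S0778
import Cfsg.Agent.OD.Pre
import Cfsg.Agent.H2.Bridge

set_option autoImplicit false
open Cfsg

namespace Cfsg.Agent.S0778

/-- The elements of Sp_2m(F) stabilising both W = ⟨e_1..e_m⟩ and U = ⟨f_1..f_m⟩ form a subgroup isomorphic to GL_m(F) (block-diagonal matrices diag(X, X^(−ᵀ)) up to the sign convention of J), for m ≥ 1 or m = 0 alike. -/
theorem result {F : Type*} [Field F] (m : ℕ) : Nonempty (↥(Cfsg.stabilizing (Cfsg.spToMat m F) {v : Fin m ⊕ Fin m → F | ∀ i : Fin m, v (Sum.inr i) = 0} ⊓ Cfsg.stabilizing (Cfsg.spToMat m F) {v : Fin m ⊕ Fin m → F | ∀ i : Fin m, v (Sum.inl i) = 0}) ≃* Matrix.GeneralLinearGroup (Fin m) F) := by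
  let φ : Matrix.GeneralLinearGroup (Fin m) F →* Matrix.symplecticGroup (Fin m) F :=
    { toFun := fun X => ⟨Matrix.fromBlocks X.1 0 0 (X⁻¹).1.transpose, by
        rw [SymplecticGroup.mem_iff]
        simp [Matrix.J, Matrix.fromBlocks_multiply, Matrix.fromBlocks_transpose,
          ← Matrix.transpose_mul]⟩
      map_one' := Subtype.ext (by simp)
      map_mul' := fun X Y => Subtype.ext (by simp [Matrix.fromBlocks_multiply]) }
  have hmem : ∀ g : Matrix.symplecticGroup (Fin m) F, g ∈ (Cfsg.stabilizing (Cfsg.spToMat m F) {v : Fin m ⊕ Fin m → F | ∀ i : Fin m, v (Sum.inr i) = 0} ⊓ Cfsg.stabilizing (Cfsg.spToMat m F) {v : Fin m ⊕ Fin m → F | ∀ i : Fin m, v (Sum.inl i) = 0}) → g.1.toBlocks₁₂ = 0 ∧ g.1.toBlocks₂₁ = 0 := by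
    rintro g ⟨h1, h2⟩
    constructor
    · ext i j
      simpa [Cfsg.spToMat, Matrix.toBlocks₁₂] using (h2 (Pi.single (Sum.inr j) 1)).1 (fun i => by simp) i
    · ext i j
      simpa [Cfsg.spToMat, Matrix.toBlocks₂₁] using (h1 (Pi.single (Sum.inl j) 1)).1 (fun i => by simp) i
  have hφ : CfH2.Rep φ (Cfsg.stabilizing (Cfsg.spToMat m F) {v : Fin m ⊕ Fin m → F | ∀ i : Fin m, v (Sum.inr i) = 0} ⊓ Cfsg.stabilizing (Cfsg.spToMat m F) {v : Fin m ⊕ Fin m → F | ∀ i : Fin m, v (Sum.inl i) = 0}) := by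
    refine ⟨fun X Y h => Units.ext (Matrix.fromBlocks_inj.1 (congrArg Subtype.val h)).1,
      fun X => ?_, fun g hg => ?_⟩
    · have key : ∀ (X : Matrix.GeneralLinearGroup (Fin m) F) (v : Fin m ⊕ Fin m → F),
          ((∀ i, v (Sum.inr i) = 0) → ∀ i, (Cfsg.spToMat m F (φ X)).mulVec v (Sum.inr i) = 0) ∧
          ((∀ i, v (Sum.inl i) = 0) → ∀ i, (Cfsg.spToMat m F (φ X)).mulVec v (Sum.inl i) = 0) := by
        intro X v
        constructor
        · intro h i
          simp [φ, Cfsg.spToMat, Matrix.mulVec, dotProduct, h]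
        · intro h i
          simp [φ, Cfsg.spToMat, Matrix.mulVec, dotProduct, h]
      have hv : ∀ v, (Cfsg.spToMat m F (φ X⁻¹)).mulVec ((Cfsg.spToMat m F (φ X)).mulVec v) = v :=
        fun v => by rw [Matrix.mulVec_mulVec, ← map_mul, ← map_mul]; simp
      exact ⟨fun v => ⟨(key X v).1, fun h => hv v ▸ (key X⁻¹ _).1 h⟩,
        fun v => ⟨(key X v).2, fun h => hv v ▸ (key X⁻¹ _).2 h⟩⟩
    · obtain ⟨h1, h2⟩ := hmem g hg
      have h3 := SymplecticGroup.mem_iff.1 g.2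
      have h4 := g.1.fromBlocks_toBlocks
      rw [h1, h2] at h4
      rw [← h4] at h3
      simp only [Matrix.J, Matrix.fromBlocks_multiply, Matrix.fromBlocks_transpose,
        Matrix.fromBlocks_inj] at h3
      have h5 : g.1.toBlocks₁₁ * g.1.toBlocks₂₂.transpose = 1 := by simpa using h3.2.1
      refine ⟨⟨_, _, h5, mul_eq_one_comm.1 h5⟩, Subtype.ext ?_⟩
      exact h4
  exact ⟨hφ.equiv.symm⟩

end Cfsg.Agent.S0778
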