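import Cfsg.Statements.S0779
import Cfsg.Agent.OD.Pre
import Cfsg.Agent.H2.Symp

set_option autoImplicit false
open Cfsg

namespace Cfsg.Agent.S0779

/-- Unitary transvections: let |F| = q², h the standard Hermitian form Σ x_i y_i^q and v ≠ 0 with h(v, v) = 0. The linear map x ↦ x + c h(x, v) v is an isometry of h if and only if c = 0 or c^(q−1) = −1. -/
theorem result {F : Type*} [Field F] [Fintype F] {q : ℕ} (hF : Fintype.card F = q ^ 2) (n : ℕ) (v : Fin n → F) (hv : v ≠ 0) (hv0 : Cfsg.hermForm n F q v v = 0) (c : F) : (∀ x y : Fin n → F, Cfsg.hermForm n F q ((Cfsg.unitaryTransvection n q v c).mulVec x) ((Cfsg.unitaryTransvection n q v c).mulVec y) = Cfsg.hermForm n F q x y) ↔ (c = 0 ∨ c ^ (q - 1) = -1) := by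
  have h := CfH2.isWF_hermB hF n
  have hq := CfH2.two_le_of_card_sq hF
  have hT : ∀ x, (Cfsg.unitaryTransvection n q v c).mulVec x =
      x + (c * CfH2.hermB hF n v x) • v := fun x => by
    rw [Cfsg.unitaryTransvection, CfH2.one_add_smul_vecMulVec_mulVec]
    congr 3
    simp [CfH2.hermB_apply', dotProduct, CfH2.frobQ_apply, mul_comm]
  have hv0' : CfH2.hermB hF n v v = 0 := hv0
  have key : ∀ x y, Cfsg.hermForm n F q ((Cfsg.unitaryTransvection n q v c).mulVec x)
      ((Cfsg.unitaryTransvection n q v c).mulVec y) = Cfsg.hermForm n F q x y +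
        (c + c ^ q) * (CfH2.hermB hF n v x * CfH2.hermB hF n y v) := fun x y => by
    rw [← CfH2.hermB_apply hF, ← CfH2.hermB_apply hF, hT, hT, h.symm v y]
    simp only [map_add, map_smul, LinearMap.map_smulₛₗ, LinearMap.add_apply, LinearMap.smul_apply,
      hv0', smul_eq_mul, map_mul, h.symm v y, ← CfH2.frobQ_apply hF]
    ring
  have hc : c + c ^ q = 0 ↔ (c = 0 ∨ c ^ (q - 1) = -1) := by
    have : c + c ^ q = c * (c ^ (q - 1) + 1) := by
      rw [mul_add, ← pow_succ', Nat.sub_add_cancel (by omega)]; ring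
    rw [this, mul_eq_zero, add_eq_zero_iff_eq_neg]
  rw [← hc]
  constructor
  · intro H
    obtain ⟨x, hx⟩ := h.exists_ne_zero' hv
    obtain ⟨y, hy⟩ := h.exists_ne_zero hv
    have := key x y
    rw [H, left_eq_add] at this
    exact (mul_eq_zero.1 this).resolve_right (mul_ne_zero hx hy)
  · intro H x y
    rw [key, H]; simp

end Cfsg.Agent.S0779
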