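import Cfsg.Statements.S0780
import Cfsg.Agent.OD.Pre
import Cfsg.Agent.H2.Unitary

set_option autoImplicit false
open Cfsg

namespace Cfsg.Agent.S0780

/-- Generation of SU_n(q), n ≥ 3, (n, q) ≠ (3, 2), by unitary transvections: the subgroup generated by the elements whose matrix is x ↦ x + c h(x, v) v with v isotropic is all of SU_n(q). -/
theorem result {F : Type*} [Field F] [Fintype F] {q : ℕ} (hF : Fintype.card F = q ^ 2) (n : ℕ) (hn : 3 ≤ n) (h32 : ¬ (n = 3 ∧ q = 2)) : Subgroup.closure {A : ↥(Cfsg.SU n F q) | ∃ (v : Fin n → F) (c : F), Cfsg.hermForm n F q v v = 0 ∧ ((A : Matrix.SpecialLinearGroup (Fin n) F) : Matrix (Fin n) (Fin n) F) = Cfsg.unitaryTransvection n q v c} = ⊤ := by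
  have h := CfH2.isWF_hermB hF n
  have hq := CfH2.two_le_of_card_sq hF
  refine (CfH2.rep_SU hF n).closure_eq_top (T := CfH2.utSet (CfH2.hermB hF n)) ?_
    (h.su_le_closure (CfH2.frobQ_ne_id hF) (by simpa using hn) ?_)
  · rintro t ht
    obtain ⟨A, hA⟩ := (CfH2.rep_SU hF n).surj t
      (CfH2.closure_utSet_le (Subgroup.subset_closure ht))
    obtain ⟨-, v, c, hv, hc⟩ := ht
    refine ⟨A, ⟨v, c, hv, CfH2.matrix_ext_mulVec fun x => ?_⟩, hA⟩
    rw [Cfsg.unitaryTransvection, CfH2.one_add_smul_vecMulVec_mulVec]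
    refine (LinearEquiv.congr_fun hA x).trans ((hc x).trans ?_)
    congr 3
    simp [CfH2.hermB_apply', dotProduct, CfH2.frobQ_apply, mul_comm]
  · by_cases h4 : 4 ≤ n
    · exact Or.inl (by simpa using h4)
    · exact Or.inr (CfH2.exists_norm_ne_one hF (by omega))

end Cfsg.Agent.S0780
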