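import Cfsg.Statements.S0783
import Cfsg.Agent.OD.Pre
import Cfsg.Agent.H2.Unitary
import Cfsg.Agent.OD.Helper2x4e724aec38

set_option autoImplicit false
open Cfsg

namespace Cfsg.Agent.S0783

/-- PGU_n(q)/PSU_n(q) is cyclic of order (n, q+1): for n ≥ 2 and |F| = q² there is a surjective homomorphism from GU_n(q) onto the cyclic group of order gcd(n, q + 1) whose kernel is generated by the determinant-one elements together with the centre. -/
theorem result {F : Type*} [Field F] [Fintype F] {q : ℕ} (hF : Fintype.card F = q ^ 2) (n : ℕ) (hn : 2 ≤ n) : ∃ φ : ↥(Cfsg.GU n F q) →* Multiplicative (ZMod (Nat.gcd n (q + 1))), Function.Surjective φ ∧ φ.ker = (Matrix.GeneralLinearGroup.det : Matrix.GeneralLinearGroup (Fin n) F →* Fˣ).ker.subgroupOf (Cfsg.GU n F q) ⊔ Subgroup.center ↥(Cfsg.GU n F q) := by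
  have h := CfH2.isWF_hermB hF n
  have hσ := CfH2.frobQ_ne_id hF
  have hρ := CfH2.rep_GU hF n
  let μ := (powMonoidHom (q + 1) : Fˣ →* Fˣ).ker
  have hμ : Nat.card μ = q + 1 := by
    rw [IsCyclic.card_powMonoidHom_ker, CfH2.card_units_eq hF]; simp
  have hμm : ∀ u : Fˣ, u ∈ μ ↔ (u : F) * CfH2.frobQ hF u = 1 := fun u => by
    rw [MonoidHom.mem_ker, powMonoidHom_apply, Units.ext_iff, pow_succ']
    simp [CfH2.frobQ_apply]
  have hdet : ∀ g : Cfsg.GU n F q, ((Matrix.GeneralLinearGroup.det g.1 : Fˣ) : F) =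
      LinearMap.det (((CfH2.linOf (Cfsg.glToMat (Fin n) F)).comp (Cfsg.GU n F q).subtype g :
        (Fin n → F) ≃ₗ[F] (Fin n → F)) : (Fin n → F) →ₗ[F] (Fin n → F)) :=
    fun g => (CfH2.det_linOf (Cfsg.glToMat (Fin n) F) g.1).symm
  let D : Cfsg.GU n F q →* μ := (Matrix.GeneralLinearGroup.det.comp (Cfsg.GU n F q).subtype).codRestrict μ
    (fun g => (hμm _).2 (by
      have := h.det_mul_sigma hσ (hρ.mem g)
      rwa [← hdet] at this))
  have hD : Function.Surjective D := by
    intro l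
    obtain ⟨g, hg, hg'⟩ := h.exists_det_stab hσ (by simp; omega) (W := ⊥) bot_le ((hμm _).1 l.2)
    obtain ⟨g, rfl⟩ := hρ.surj g hg.1
    exact ⟨g, Subtype.ext (Units.ext ((hdet g).trans hg'))⟩
  let R := (powMonoidHom n : μ →* μ).range
  have hR : Nat.card (μ ⧸ R) = Nat.card (Multiplicative (ZMod (Nat.gcd n (q + 1)))) := by
    rw [← Subgroup.index, IsCyclic.index_powMonoidHom_range, hμ, Nat.gcd_comm]
    exact (Nat.card_zmod _).symm
  have : IsCyclic (μ ⧸ R) := isCyclic_of_surjective _ (QuotientGroup.mk'_surjective R)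
  let e := mulEquivOfCyclicCardEq hR
  have hscal : ∀ l : μ, ∃ s ∈ Subgroup.center (Cfsg.GU n F q), D s = l ^ n := by
    intro l
    refine ⟨⟨Matrix.GeneralLinearGroup.scalar (Fin n) l.1, fun u v => ?_⟩, ?_, ?_⟩
    · have h1 := h.smul l.1.1
      have h2 : ∀ x : Fin n → F, (Units.coeHom (Matrix (Fin n) (Fin n) F)
        (Matrix.GeneralLinearGroup.scalar (Fin n) l.1)).mulVec x = l.1.1 • x := fun x => by
        ext i; simp [Matrix.GeneralLinearGroup.scalar, Matrix.mulVec_diagonal]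
      rw [h2, h2, ← CfH2.hermB_apply hF, ← CfH2.hermB_apply hF]
      simp only [map_smul, LinearMap.map_smulₛₗ, LinearMap.smul_apply, smul_eq_mul]
      linear_combination (CfH2.hermB hF n v u) * (hμm _).1 l.2
    · rw [Subgroup.mem_center_iff]
      intro g
      refine Subtype.ext (Units.ext ?_)
      exact (Matrix.scalar_commute _ (fun _ => Commute.all _ _) _).eq.symm
    · refine Subtype.ext (Units.ext ?_)
      simp [D, Matrix.GeneralLinearGroup.scalar]
  refine ⟨e.toMonoidHom.comp ((QuotientGroup.mk' R).comp D),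
    e.surjective.comp ((QuotientGroup.mk'_surjective R).comp hD), ?_⟩
  have hker : ∀ g, g ∈ (e.toMonoidHom.comp ((QuotientGroup.mk' R).comp D)).ker ↔ D g ∈ R := by
    intro g
    simp [MonoidHom.mem_ker]
  apply le_antisymm
  · intro g hg
    obtain ⟨l, hl⟩ := (hker g).1 hg
    obtain ⟨s, hs, hs'⟩ := hscal l
    have h1 : D (g * s⁻¹) = 1 := by rw [map_mul, map_inv, hs', ← hl]; simp
    have := Subgroup.mul_mem_sup (S := (Matrix.GeneralLinearGroup.det : Matrix.GeneralLinearGroup (Fin n) F →* Fˣ).ker.subgroupOf (Cfsg.GU n F q)) (x := g * s⁻¹) (congrArg Subtype.val h1) hs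
    simpa using this
  · refine sup_le (fun g hg => (hker g).2 ?_) (fun z hz => (hker z).2 ?_)
    · rw [show D g = 1 from Subtype.ext hg]; exact one_mem _
    · obtain ⟨l, hl⟩ := h.scalar_of_comm hσ (z := (CfH2.linOf (Cfsg.glToMat (Fin n) F)).comp (Cfsg.GU n F q).subtype z) (fun g hg => by
        obtain ⟨g, rfl⟩ := hρ.surj g hg
        rw [← map_mul, ← map_mul, Subgroup.mem_center_iff.1 hz g])
      let x : Fin n → F := Pi.single ⟨0, by omega⟩ 1
      have hx : CfH2.hermB hF n x x = 1 := by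
        simp [x, CfH2.hermB_apply', Pi.single_apply]
      have h1 := (hρ.mem z).1 x x
      rw [hl, h.smul, hx, mul_one] at h1
      have hl0 : l ≠ 0 := left_ne_zero_of_mul_eq_one h1
      refine ⟨⟨Units.mk0 l hl0, (hμm _).2 h1⟩, Subtype.ext (Units.ext ?_)⟩
      have h2 : (((CfH2.linOf (Cfsg.glToMat (Fin n) F)).comp (Cfsg.GU n F q).subtype z :
        (Fin n → F) ≃ₗ[F] (Fin n → F)) : (Fin n → F) →ₗ[F] (Fin n → F)) = l • LinearMap.id :=
        LinearMap.ext hl
      refine Eq.trans ?_ (hdet z).symm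
      rw [h2, LinearMap.det_smul]
      simp

end Cfsg.Agent.S0783
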