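import Cfsg.Statements.S0785
import Cfsg.Agent.OD.Pre
import Cfsg.Agent.H2.Orth

set_option autoImplicit false
open Cfsg

namespace Cfsg.Agent.S0785

/-- det(I) = {±1}: for a quadratic form on F^n whose polar form is non-degenerate, every element of the isometry group has determinant 1 or −1, and as soon as Q takes a non-zero value some isometry has determinant −1. -/
theorem result {F : Type*} [Field F] {n : ℕ} (Q : QuadraticForm F (Fin n → F)) (hQ : (QuadraticMap.polarBilin Q).Nondegenerate) : (∀ g : ↥(Cfsg.isometryGroup F ⇑Q), ((g : Matrix.GeneralLinearGroup (Fin n) F) : Matrix (Fin n) (Fin n) F).det = 1 ∨ ((g : Matrix.GeneralLinearGroup (Fin n) F) : Matrix (Fin n) (Fin n) F).det = -1) ∧ ((∃ v, Q v ≠ 0) → ∃ g : ↥(Cfsg.isometryGroup F ⇑Q), ((g : Matrix.GeneralLinearGroup (Fin n) F) : Matrix (Fin n) (Fin n) F).det = -1) := by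
  refine ⟨fun g => ?_, fun ⟨v, hv⟩ => ?_⟩
  · have hg := (CfH2.rep_O Q).mem g
    set A := ((g : Matrix.GeneralLinearGroup (Fin n) F) : Matrix (Fin n) (Fin n) F) with hA
    let M := LinearMap.BilinForm.toMatrix' (QuadraticMap.polarBilin Q)
    have h1 : LinearMap.BilinForm.comp (QuadraticMap.polarBilin Q) (Matrix.toLin' A)
        (Matrix.toLin' A) = QuadraticMap.polarBilin Q :=
      LinearMap.ext₂ fun x y => hg.1 x y
    have h2 := congrArg (fun B => (LinearMap.BilinForm.toMatrix' B).det) h1
    simp only [LinearMap.BilinForm.toMatrix'_comp, LinearMap.toMatrix'_toLin', Matrix.det_mul,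
      Matrix.det_transpose] at h2
    have h3 : (LinearMap.BilinForm.toMatrix' (QuadraticMap.polarBilin Q)).det ≠ 0 :=
      LinearMap.BilinForm.nondegenerate_toBilin'_iff_det_ne_zero.1
        (by rwa [Matrix.toBilin'_toMatrix'])
    have h4 : A.det * A.det = 1 := by
      apply mul_left_cancel₀ h3
      linear_combination h2
    exact mul_self_eq_one_iff.1 h4
  · obtain ⟨g, hg⟩ := (CfH2.rep_O Q).surj _ (CfH2.rf_mem Q v)
    refine ⟨g, ?_⟩
    rw [← CfH2.det_oRep, ← CfH2.det_rf hv, ← hg]

end Cfsg.Agent.S0785
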