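import Cfsg.Statements.S0787
import Cfsg.Agent.OD.Pre
import Cfsg.Agent.H2.Orth3

set_option autoImplicit false
open Cfsg

namespace Cfsg.Agent.S0787

/-- Existence and uniqueness of Ω: if F is finite, n ≥ 2, Q is a quadratic form on F^n with non-degenerate polar form and (|F|, n) ≠ (2, 4), then the group of isometries of determinant one has a unique subgroup of index 2. -/
theorem result {F : Type*} [Field F] [Fintype F] {n : ℕ} (hn : 2 ≤ n) (Q : QuadraticForm F (Fin n → F)) (hQ : (QuadraticMap.polarBilin Q).Nondegenerate) (h : Fintype.card F ≠ 2 ∨ n ≠ 4) : ∃! H : Subgroup ↥(Cfsg.specialIsometryGroup F ⇑Q), H.index = 2 := by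
  classical
  have hQ' := CfH2.qwf_of_nondeg hQ
  have h24 : (∃ a : F, a ≠ 0 ∧ a ≠ 1) ∨ Module.finrank F (Fin n → F) ≠ 4 :=
    h.imp CfH2.exists_ne_zero_one_of_card (by simp)
  have hA : ∀ g, g ∈ Cfsg.specialIsometryGroup F ⇑Q ↔
      LinearMap.det (CfH2.oRep Q g : (Fin n → F) →ₗ[F] (Fin n → F)) = 1 := fun g => by
    rw [CfH2.det_oRep, Cfsg.specialIsometryGroup, MonoidHom.mem_ker, Units.ext_iff]
    rfl
  by_cases h2 : (2 : F) = 0
  · have hS := (CfH2.rep_O Q).closure_rS hQ' h24
    obtain ⟨χ, -, hχ⟩ := (CfH2.rep_O Q).exists_parity hQ' hS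
    have hall : ∀ g, g ∈ Cfsg.specialIsometryGroup F ⇑Q := fun g => by
      rw [hA, (CfH2.rep_O Q).det_eq_parity hS hχ]
      rcases Int.units_eq_one_or (χ g) with h1 | h1 <;> rw [h1]
      · simp
      · simp only [Units.val_neg, Units.val_one, Int.cast_neg, Int.cast_one]
        linear_combination -h2
    have hρ := (CfH2.rep_O Q).subgroup (Cfsg.specialIsometryGroup F ⇑Q) ⊤
      (fun g => iff_of_true (hall g) trivial)
    rw [inf_top_eq] at hρ
    exact hρ.unique_index_two_even hQ' h2 (by simp; omega) h24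
  · exact (CfH2.rep_O Q).unique_index_two_odd hQ' h2 (by simpa using hn) _ hA

end Cfsg.Agent.S0787
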