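import Cfsg.Statements.S0788
import Cfsg.Agent.OD.Pre
import Cfsg.Agent.H2.Orth3

set_option autoImplicit false
open Cfsg

namespace Cfsg.Agent.S0788

/-- Ω has index 4 in O for q odd: if F is finite of odd characteristic, n ≥ 2 and Q is a quadratic form on F^n with non-degenerate polar form, then the commutator subgroup of the isometry group of Q (the group Ω of our definitions) has index 4 in it. -/
theorem result {F : Type*} [Field F] [Fintype F] (h2 : (2 : F) ≠ 0) {n : ℕ} (hn : 2 ≤ n) (Q : QuadraticForm F (Fin n → F)) (hQ : (QuadraticMap.polarBilin Q).Nondegenerate) : (Cfsg.Omega F ⇑Q).index = 4 := by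
  classical
  exact (CfH2.rep_O Q).index_commutator_odd (CfH2.qwf_of_nondeg hQ) h2 (by simpa using hn)

end Cfsg.Agent.S0788
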