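import Cfsg.Statements.S0790
import Cfsg.Agent.OD.Pre
import Cfsg.Agent.H2.StdQuad

set_option autoImplicit false
open Cfsg

namespace Cfsg.Agent.S0790

/-- −1 ∈ Ω⁺_2m(q) iff q^m ≡ 1 (mod 4), for q odd and m ≥ 1 (so that in the other case SO⁺_2m(q) = 2 × Ω⁺_2m(q)). -/
theorem result {F : Type*} [Field F] [Fintype F] {q : ℕ} (hF : Fintype.card F = q) (hodd : Odd q) (m : ℕ) (hm : 1 ≤ m) : (∃ g : ↥(Cfsg.isometryGroup F (Cfsg.quadFormPlus m F)), g ∈ Cfsg.Omega F (Cfsg.quadFormPlus m F) ∧ ((g : Matrix.GeneralLinearGroup (Fin m ⊕ Fin m) F) : Matrix (Fin m ⊕ Fin m) (Fin m ⊕ Fin m) F) = -1) ↔ q ^ m % 4 = 1 := by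
  classical
  have h2 : (2 : F) ≠ 0 := CfH2.two_ne_zero_of_odd_card (hF ▸ hodd)
  rw [← CfH2.coe_qPlus, CfH2.neg_one_mem_Omega_iff h2 _ (CfH2.nondeg_qPlus m) (by simp; omega)
    (by simp), CfH2.disc_eq_basis _ (Pi.basisFun F _), CfH2.toMatrix_qPlus,
    CfH2.det_swap_blocks', map_pow, ← hF]
  exact (CfH2.quadraticChar_neg_one_pow h2 m).1

end Cfsg.Agent.S0790
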