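import Cfsg.Statements.S0791
import Cfsg.Agent.OD.Pre
import Cfsg.Agent.H2.StdQuad

set_option autoImplicit false
open Cfsg

namespace Cfsg.Agent.S0791

/-- −1 ∈ Ω⁻_2m(q) iff q^m ≡ −1 (mod 4), for q odd and m ≥ 1; for the minus-type form quadFormMinus (m−1) with anisotropic binary part. -/
theorem result {F : Type*} [Field F] [Fintype F] {q : ℕ} (hF : Fintype.card F = q) (hodd : Odd q) (m : ℕ) (hm : 1 ≤ m) (a b : F) (hab : ∀ z₁ z₂ : F, z₁ ^ 2 + a * z₁ * z₂ + b * z₂ ^ 2 = 0 → z₁ = 0 ∧ z₂ = 0) : (∃ g : ↥(Cfsg.isometryGroup F (Cfsg.quadFormMinus (m - 1) F a b)), g ∈ Cfsg.Omega F (Cfsg.quadFormMinus (m - 1) F a b) ∧ ((g : Matrix.GeneralLinearGroup ((Fin (m - 1) ⊕ Fin (m - 1)) ⊕ Fin 2) F) : Matrix ((Fin (m - 1) ⊕ Fin (m - 1)) ⊕ Fin 2) ((Fin (m - 1) ⊕ Fin (m - 1)) ⊕ Fin 2) F) = -1) ↔ q ^ m % 4 = 3 := by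
  classical
  have h2 : (2 : F) ≠ 0 := CfH2.two_ne_zero_of_odd_card (hF ▸ hodd)
  have hns := CfH2.not_isSquare_disc h2 hab
  have hne : a ^ 2 - 4 * b ≠ 0 := fun h => hns (h ▸ IsSquare.zero)
  have hN : (CfH2.qMinus (m - 1) F a b).polarBilin.Nondegenerate :=
    LinearMap.BilinForm.nondegenerate_of_det_ne_zero _ (Pi.basisFun F _) (by
      rw [CfH2.det_qMinus]; exact mul_ne_zero (by simp) hne)
  rw [← CfH2.coe_qMinus, CfH2.neg_one_mem_Omega_iff h2 _ hN (by simp)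
    (by simp [parity_simps]), CfH2.disc_eq_basis _ (Pi.basisFun F _), CfH2.det_qMinus,
    Nat.sub_add_cancel hm, map_mul, map_pow, quadraticChar_neg_one_iff_not_isSquare.2 hns, ← hF,
    ← (CfH2.quadraticChar_neg_one_pow h2 m).2]
  omega

end Cfsg.Agent.S0791
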