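import Cfsg.Statements.S0792
import Cfsg.Agent.OD.Pre
import Cfsg.Agent.H2.Orth3

set_option autoImplicit false
open Cfsg

namespace Cfsg.Agent.S0792

/-- For q odd and Q with non-degenerate polar form on F^n, the determinant-one isometries form the subgroup generated by all products r_u r_v of two reflections (Q(u), Q(v) ≠ 0). -/
theorem result {F : Type*} [Field F] [Fintype F] (h2 : (2 : F) ≠ 0) {n : ℕ} (Q : QuadraticForm F (Fin n → F)) (hQ : (QuadraticMap.polarBilin Q).Nondegenerate) : Cfsg.specialIsometryGroup F ⇑Q = Subgroup.closure {g : ↥(Cfsg.isometryGroup F ⇑Q) | ∃ u v : Fin n → F, Q u ≠ 0 ∧ Q v ≠ 0 ∧ ((g : Matrix.GeneralLinearGroup (Fin n) F) : Matrix (Fin n) (Fin n) F) = Cfsg.reflectionMatrix ⇑Q u * Cfsg.reflectionMatrix ⇑Q v} := by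
  have hA : ∀ g, g ∈ Cfsg.specialIsometryGroup F ⇑Q ↔
      LinearMap.det (CfH2.oRep Q g : (Fin n → F) →ₗ[F] (Fin n → F)) = 1 := fun g => by
    rw [CfH2.det_oRep, Cfsg.specialIsometryGroup, MonoidHom.mem_ker, Units.ext_iff]
    rfl
  rw [(CfH2.rep_O Q).so_eq_closure (CfH2.qwf_of_nondeg hQ) h2 _ hA]
  congr 1
  ext g
  refine exists_congr fun u => exists_congr fun v => and_congr_right fun _ =>
    and_congr_right fun _ => ?_
  have hu := (CfH2.oRep_eq_rf_iff Q _ u).1 ((CfH2.rep_O Q).map_rG u)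
  have hv := (CfH2.oRep_eq_rf_iff Q _ v).1 ((CfH2.rep_O Q).map_rG v)
  rw [← hu, ← hv]
  exact ⟨fun h => by rw [h]; rfl, fun h => Subtype.ext (Units.ext h)⟩

end Cfsg.Agent.S0792
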