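import Cfsg.Statements.S0793
import Cfsg.Agent.OD.Pre
import Cfsg.Agent.H2.Orth

set_option autoImplicit false
open Cfsg

namespace Cfsg.Agent.S0793

/-- Root elements: if Q(u) = Q(v) = 0 and f(u, v) = 0 (f the polar form), then for every c the Siegel matrix T_(u,v)(c) preserves Q, fixes u and v, and T(c) T(d) = T(c + d). -/
theorem result {F : Type*} [Field F] {n : ℕ} (Q : QuadraticForm F (Fin n → F)) (u v : Fin n → F) (hu : Q u = 0) (hv : Q v = 0) (huv : QuadraticMap.polar ⇑Q u v = 0) : (∀ c x, Q ((Cfsg.siegelMatrix ⇑Q u v c).mulVec x) = Q x) ∧ (∀ c, (Cfsg.siegelMatrix ⇑Q u v c).mulVec u = u ∧ (Cfsg.siegelMatrix ⇑Q u v c).mulVec v = v) ∧ ∀ c d, Cfsg.siegelMatrix ⇑Q u v c * Cfsg.siegelMatrix ⇑Q u v d = Cfsg.siegelMatrix ⇑Q u v (c + d) := by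
  have hvu : QuadraticMap.polar ⇑Q v u = 0 := by rw [QuadraticMap.polar_comm, huv]
  refine ⟨fun c x => ?_, fun c => ⟨?_, ?_⟩, fun c d => CfH2.matrix_ext_mulVec fun x => ?_⟩
  · obtain ⟨g, hg, hg'⟩ := CfH2.exists_isEich (Q := Q) (w := c • v) hu (by simp [huv])
    rw [CfH2.siegelMatrix_mulVec, ← CfH2.Q_orth hg x, hg', CfH2.Q_smul' Q c v, hv]
    simp
  · simp [CfH2.siegelMatrix_mulVec, hu, hvu]
  · simp [CfH2.siegelMatrix_mulVec, hv, huv]
  · rw [← Matrix.mulVec_mulVec]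
    simp only [CfH2.siegelMatrix_mulVec, QuadraticMap.polar_add_right,
      QuadraticMap.polar_sub_right, QuadraticMap.polar_smul_right, QuadraticMap.polar_smul_left,
      CfH2.polar_self', hu, hv, huv, hvu, smul_eq_mul]
    module

end Cfsg.Agent.S0793
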