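import Cfsg.Statements.S0794
import Cfsg.Agent.OD.Pre
import Cfsg.Agent.H2.Orth

set_option autoImplicit false
open Cfsg

namespace Cfsg.Agent.S0794

open scoped commutatorElement

/-- For q odd, n ≥ 5 and Q with non-degenerate polar form: an isometry whose matrix is a Siegel transformation T_(u,v)(c) (u, v singular and orthogonal) is a commutator in the isometry group, so lies in Ω. -/
theorem result {F : Type*} [Field F] [Fintype F] (h2 : (2 : F) ≠ 0) {n : ℕ} (hn : 5 ≤ n) (Q : QuadraticForm F (Fin n → F)) (hQ : (QuadraticMap.polarBilin Q).Nondegenerate) (u v : Fin n → F) (hu : Q u = 0) (hv : Q v = 0) (huv : QuadraticMap.polar ⇑Q u v = 0) (c : F) (g : ↥(Cfsg.isometryGroup F ⇑Q)) (hg : ((g : Matrix.GeneralLinearGroup (Fin n) F) : Matrix (Fin n) (Fin n) F) = Cfsg.siegelMatrix ⇑Q u v c) : g ∈ commutatorSet ↥(Cfsg.isometryGroup F ⇑Q) ∧ g ∈ Cfsg.Omega F ⇑Q := by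
  have h := CfH2.qwf_of_nondeg hQ
  have hg' := (CfH2.isEich_oRep_iff Q g u v c hv).2 hg
  suffices H : g ∈ commutatorSet ↥(Cfsg.isometryGroup F ⇑Q) from
    ⟨H, by rw [Cfsg.Omega, commutator_eq_closure]; exact Subgroup.subset_closure H⟩
  by_cases hli : LinearIndependent F ![u, v]
  · have hli' : LinearIndependent F ![-u, v] := by
      rw [LinearIndependent.pair_iff] at hli ⊢
      intro s t hst
      have := hli (-s) t (by simpa using hst)
      simpa using this
    obtain ⟨k, hk, hku, hkv⟩ := h.witt_pair hli hli' (Q.map_neg u) rfl (by simp [huv])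
    obtain ⟨t, ht, ht'⟩ := CfH2.exists_isEich (Q := Q) (w := (-c / 2) • v) hu (by simp [huv])
    refine (CfH2.rep_O Q).mem_commutatorSet hk ht ?_
    have h1 := ht'.conj hk
    rw [commutatorElement_def, mul_inv_eq_iff_eq_mul]
    have h2' := hg'.mul hu (by simp [huv]) (by simp [huv]) ht'
    ext1 z
    rw [h1 z, h2' z, hku, map_smul, hkv, ← add_smul]
    simp only [CfH2.Q_smul', hv, QuadraticMap.polar_neg_left, QuadraticMap.polar_smul_left,
      smul_eq_mul]
    match_scalars <;> field_simp <;> ring
  · have : CfH2.oRep Q g = 1 := by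
      by_cases hu0 : u = 0
      · ext1 z
        rw [hg' z]; simp [hu0]
      · rw [LinearIndependent.pair_iff' hu0] at hli
        push Not at hli
        obtain ⟨a, rfl⟩ := hli
        rw [smul_smul] at hg'
        exact hg'.unique (CfH2.isEich_one hu _)
    have : g = 1 := (CfH2.rep_O Q).inj (by rw [map_one]; exact this)
    rw [this]
    exact one_mem_commutatorSet _

end Cfsg.Agent.S0794
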