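import Cfsg.Statements.S0795
import Cfsg.Agent.OD.Pre
import Cfsg.Agent.H2.Orth3
import Cfsg.Agent.S0794

set_option autoImplicit false
open Cfsg

namespace Cfsg.Agent.S0795

/-- Generation of Ω by root elements: for q odd, n ≥ 5 and Q with non-degenerate polar form on F^n, the commutator subgroup of the isometry group equals the subgroup generated by the isometries whose matrices are Siegel transformations T_(u,v)(c) with u, v singular and orthogonal. -/
theorem result {F : Type*} [Field F] [Fintype F] (h2 : (2 : F) ≠ 0) {n : ℕ} (hn : 5 ≤ n) (Q : QuadraticForm F (Fin n → F)) (hQ : (QuadraticMap.polarBilin Q).Nondegenerate) : Cfsg.Omega F ⇑Q = Subgroup.closure {g : ↥(Cfsg.isometryGroup F ⇑Q) | ∃ (u v : Fin n → F) (c : F), Q u = 0 ∧ Q v = 0 ∧ QuadraticMap.polar ⇑Q u v = 0 ∧ ((g : Matrix.GeneralLinearGroup (Fin n) F) : Matrix (Fin n) (Fin n) F) = Cfsg.siegelMatrix ⇑Q u v c} := by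
  apply le_antisymm
  · have : (Subgroup.closure {g : ↥(Cfsg.isometryGroup F ⇑Q) | ∃ (u v : Fin n → F) (c : F), Q u = 0 ∧ Q v = 0 ∧ QuadraticMap.polar ⇑Q u v = 0 ∧ ((g : Matrix.GeneralLinearGroup (Fin n) F) : Matrix (Fin n) (Fin n) F) = Cfsg.siegelMatrix ⇑Q u v c}).Normal := by
      refine CfH2.normal_closure_of_conj ?_
      rintro s ⟨u, v, c, hu, hv, huv, hs⟩ g
      have hg := (CfH2.rep_O Q).mem g
      have hv' : Q (CfH2.oRep Q g v) = 0 := by rw [CfH2.Q_orth hg, hv]
      refine ⟨CfH2.oRep Q g u, CfH2.oRep Q g v, c, by rw [CfH2.Q_orth hg, hu], hv',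
        by rw [CfH2.polar_orth hg, huv], ?_⟩
      rw [← CfH2.isEich_oRep_iff Q _ _ _ _ hv', map_mul, map_mul, map_inv, ← map_smul]
      exact ((CfH2.isEich_oRep_iff Q _ _ _ _ hv).2 hs).conj hg
    refine (CfH2.rep_O Q).commutator_le_of_siegel (CfH2.qwf_of_nondeg hQ) h2 (by simpa using hn) _
      fun u w g hu hw huw hg => Subgroup.subset_closure ⟨u, w, 1, hu, hw, huw, ?_⟩
    rw [← CfH2.isEich_oRep_iff Q _ _ _ _ hw, one_smul]
    exact hg
  · rw [Subgroup.closure_le]
    rintro g ⟨u, v, c, hu, hv, huv, hg⟩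
    exact (Cfsg.Agent.S0794.result h2 hn Q hQ u v hu hv huv c g hg).2

end Cfsg.Agent.S0795
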