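import Cfsg.Statements.S0799
import Cfsg.Agent.H3.DicksonPSL

set_option autoImplicit false
open Cfsg

namespace Cfsg.Agent.S0799

/-- Dickson's classification of the subgroups of PSL_2(q), q a power of the prime p, d = gcd(2, q − 1): every subgroup H is (a) cyclic or dihedral with k dividing (q+1)/d or (q−1)/d (cyclic of order k, or dihedral of order 2k), (b) isomorphic to a subgroup of the normaliser of a Sylow p-subgroup, (c) isomorphic to A_4, S_4 or A_5, or (d) isomorphic to PSL_2(K) or PGL_2(K) for a finite field K with |K|^m = q. -/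
theorem result {F : Type*} [Field F] [Fintype F] {q : ℕ} (hF : Fintype.card F = q) (p : ℕ) [Fact p.Prime] [CharP F p] (H : Subgroup (Matrix.ProjectiveSpecialLinearGroup (Fin 2) F)) : (∃ k : ℕ, (k ∣ (q + 1) / Nat.gcd 2 (q - 1) ∨ k ∣ (q - 1) / Nat.gcd 2 (q - 1)) ∧ ((IsCyclic H ∧ Nat.card H = k) ∨ Nonempty (H ≃* DihedralGroup k))) ∨ (∃ (P : Sylow p (Matrix.ProjectiveSpecialLinearGroup (Fin 2) F)) (K : Subgroup (Matrix.ProjectiveSpecialLinearGroup (Fin 2) F)), K ≤ Subgroup.normalizer ((P : Subgroup (Matrix.ProjectiveSpecialLinearGroup (Fin 2) F)) : Set (Matrix.ProjectiveSpecialLinearGroup (Fin 2) F)) ∧ Nonempty (H ≃* K)) ∨ Nonempty (H ≃* alternatingGroup (Fin 4)) ∨ Nonempty (H ≃* Equiv.Perm (Fin 4)) ∨ Nonempty (H ≃* alternatingGroup (Fin 5)) ∨ (∃ (K : Type) (_ : Field K) (_ : Fintype K) (m : ℕ), Fintype.card K ^ m = q ∧ (Nonempty (H ≃* Matrix.ProjectiveSpecialLinearGroup (Fin 2) K) ∨ Nonempty (H ≃* Matrix.ProjGenLinGroup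 (Fin 2) K))) := by
  classical
  rcases CfH3.dickson_psl hF p H with h | ⟨h1, x, hx⟩ | h | h | h | ⟨E, h⟩
  · exact Or.inl h
  · obtain ⟨P, hP⟩ := CfH3.exists_sylow_normalized p H h1 x hx
    exact Or.inr (Or.inl ⟨P, H, hP, ⟨MulEquiv.refl _⟩⟩)
  · exact Or.inr (Or.inr (Or.inl h))
  · exact Or.inr (Or.inr (Or.inr (Or.inl h)))
  · exact Or.inr (Or.inr (Or.inr (Or.inr (Or.inl h))))
  · right; right; right; right; right
    obtain ⟨K, _, _, ⟨e⟩⟩ := CfH3.exists_small_field E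
    obtain ⟨m, -, hm⟩ := CfH3.card_eq_pow_of_subfield E
    refine ⟨K, inferInstance, inferInstance, m, ?_, ?_⟩
    · rw [← hF, ← Nat.card_eq_fintype_card, ← Nat.card_eq_fintype_card, ← hm,
        Nat.card_congr e.toEquiv]
    · rcases h with ⟨⟨f⟩⟩ | ⟨⟨f⟩⟩
      · obtain ⟨g⟩ := CfH3.psl_equiv_of_ringEquiv (n := Fin 2) e
        exact Or.inl ⟨f.trans g⟩
      · obtain ⟨g⟩ := CfH3.pgl_equiv_of_ringEquiv (n := Fin 2) e
        exact Or.inr ⟨f.trans g⟩

end Cfsg.Agent.S0799
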