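import Cfsg.Statements.S0800
import Cfsg.Agent.H3.SL2Basic

set_option autoImplicit false
open Cfsg

namespace Cfsg.Agent.S0800

/-- Tori of SL_2(q): if g ∈ SL_2(q) has order coprime to the characteristic p, then the order of g divides q − 1 or q + 1. -/
theorem result {F : Type*} [Field F] [Fintype F] {q : ℕ} (hF : Fintype.card F = q) (p : ℕ) [Fact p.Prime] [CharP F p] (g : Matrix.SpecialLinearGroup (Fin 2) F) (hg : Nat.Coprime (orderOf g) p) : orderOf g ∣ q - 1 ∨ orderOf g ∣ q + 1 := by
  rcases CfH3.sl2_pow hF p g with (h | h) | h | h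
  · left
    rw [Nat.Coprime.eq_one_of_dvd hg (orderOf_dvd_of_pow_eq_one h)]; exact one_dvd _
  · have h1 : g ^ (2 * p) = 1 := by rw [mul_comm, pow_mul, h]; simp
    have h2 : orderOf g ∣ 2 := hg.dvd_of_dvd_mul_right (orderOf_dvd_of_pow_eq_one h1)
    rcases (Nat.dvd_prime Nat.prime_two).1 h2 with h3 | h3
    · left; rw [h3]; exact one_dvd _
    · left
      rw [h3] at hg ⊢
      obtain ⟨n, -, hn⟩ := FiniteField.card F p
      have : Odd q := by
        rw [← hF, hn]; exact (Nat.coprime_two_left.1 hg).pow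
      obtain ⟨k, hk⟩ := this
      exact ⟨k, by omega⟩
  · exact Or.inl (orderOf_dvd_of_pow_eq_one h)
  · exact Or.inr (orderOf_dvd_of_pow_eq_one h)

end Cfsg.Agent.S0800
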