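import Cfsg.Statements.S0801
import Cfsg.Agent.H3.DicksonGen
import Cfsg.Agent.OD.Helper3x0d29c0b427

set_option autoImplicit false
open Cfsg

namespace Cfsg.Agent.S0801

/-- Let F be a finite field of odd characteristic and λ ≠ 0 an element generating F as a field. Then the lower and upper unitriangular matrices with off-diagonal entries 1 and λ generate SL_2(F), unless |F| = 9 and λ² = −1, in which case they generate a subgroup of order 120. -/
theorem result {F : Type*} [Field F] [Fintype F] (h2 : (2 : F) ≠ 0) (lam : F) (hlam : lam ≠ 0) (hgen : Subfield.closure ({lam} : Set F) = ⊤) : (Subgroup.closure {g : Matrix.SpecialLinearGroup (Fin 2) F | (g : Matrix (Fin 2) (Fin 2) F) = !![1, 0; 1, 1] ∨ (g : Matrix (Fin 2) (Fin 2) F) = !![1, lam; 0, 1]} = ⊤ ∧ ¬ (Fintype.card F = 9 ∧ lam ^ 2 = -1)) ∨ (Fintype.card F = 9 ∧ lam ^ 2 = -1 ∧ Nat.card ↥(Subgroup.closure {g : Matrix.SpecialLinearGroup (Fin 2) F | (g : Matrix (Fin 2) (Fin 2) F) = !![1, 0; 1, 1] ∨ (g : Matrix (Fin 2) (Fin 2) F) = !![1, lam;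 0, 1]}) = 120) := by
  classical
  obtain ⟨p, hp⟩ := CharP.exists F
  obtain ⟨n, hp', hn⟩ := FiniteField.card F p
  have : Fact p.Prime := ⟨hp'⟩
  have hp2 : p ≠ 2 := by rintro rfl; exact h2 (CharP.cast_eq_zero F 2)
  set G := Subgroup.closure {g : Matrix.SpecialLinearGroup (Fin 2) F |
    (g : Matrix (Fin 2) (Fin 2) F) = !![1, 0; 1, 1] ∨
    (g : Matrix (Fin 2) (Fin 2) F) = !![1, lam; 0, 1]} with hG
  let u : Matrix.SpecialLinearGroup (Fin 2) F := ⟨!![1, 0; 1, 1], by simp [Matrix.det_fin_two_of]⟩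
  let v : Matrix.SpecialLinearGroup (Fin 2) F := ⟨!![1, lam; 0, 1], by simp [Matrix.det_fin_two_of]⟩
  have huG : u ∈ G := Subgroup.subset_closure (Or.inl rfl)
  have hvG : v ∈ G := Subgroup.subset_closure (Or.inr rfl)
  have hfix : ∀ k : ℕ, lam ^ p ^ k = lam → ∀ z : F, z ^ p ^ k = z := by
    intro k hk z
    have h1 : Subfield.closure ({lam} : Set F) ≤ CfH3.fixField F p k :=
      Subfield.closure_le.2 (by rintro _ rfl; exact hk)
    rw [hgen] at h1
    exact h1 (Subfield.mem_top z)
  rcases CfH3.dickson_gen p hp2 lam hlam G u v rfl rfl huG hvG with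
    ⟨rfl, h1 | h1, h3, -⟩ | ⟨E, h1, h3⟩
  · right
    refine ⟨?_, h1, h3⟩
    have h4 := CfH3.card_le_of_forall_pow (q := 3 ^ 2) (by norm_num)
      (hfix 2 (by linear_combination (lam ^ 7 - lam ^ 5 + lam ^ 3 - lam) * h1))
    rw [Nat.card_eq_fintype_card, hn] at h4
    have h5 : (n : ℕ) ≤ 2 := (Nat.pow_le_pow_iff_right (by norm_num)).1 h4
    have h6 : (n : ℕ) ≠ 1 := by
      intro h
      rw [h] at hn
      have h7 := FiniteField.pow_card_sub_one_eq_one lam hlam
      rw [hn] at h7
      exact h2 (by linear_combination h1 - h7)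
    have h7 := n.pos
    have h8 : (n : ℕ) = 2 := by omega
    rw [hn, h8]; rfl
  · exfalso
    have h4 := CfH3.card_le_of_forall_pow (q := 3 ^ 1) (by norm_num) (hfix 1 h1)
    have h5 := Subgroup.card_le_card_group G
    rw [h3, CfH3.card_SL2 rfl] at h5
    rw [Nat.card_eq_fintype_card] at h4
    generalize Fintype.card F = q at h4 h5
    interval_cases q <;> omega
  · left
    have h4 : E = ⊤ := by
      rw [eq_top_iff, ← hgen]
      exact Subfield.closure_le.2 (by rintro _ rfl; exact h1)
    subst h4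
    have h5 : G = ⊤ := by
      rw [eq_top_iff]
      intro s _
      convert h3 (Matrix.SpecialLinearGroup.map Subfield.topEquiv.symm.toRingHom s) using 1
      ext i j; rfl
    refine ⟨h5, ?_⟩
    rintro ⟨h6, h7⟩
    have h8 : (3 : F) = 0 := by
      have h9 := FiniteField.cast_card_eq_zero F
      rw [h6] at h9
      have : (3 : F) ^ 2 = 0 := by rw [← h9]; norm_num
      exact pow_eq_zero_iff (by norm_num) |>.1 this
    obtain ⟨f, hu, hv⟩ := CfH3.exists_A5_of_sq_eq_neg_one h8 lam h7 u v rfl rfl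
    have h9 : G ≤ f.range.comap (QuotientGroup.mk' _) := by
      rw [hG, Subgroup.closure_le]
      rintro g (hg | hg)
      · rw [show g = u from Subtype.ext hg]; exact hu
      · rw [show g = v from Subtype.ext hg]; exact hv
    have h10 : Function.Surjective f := by
      intro x
      induction x using QuotientGroup.induction_on with | H g =>
      exact h9 (h5 ▸ Subgroup.mem_top g)
    have h11 := Nat.card_le_card_of_surjective f h10
    have h12 := CfH3.card_PSL2 h6
    rw [nat_card_alternatingGroup] at h11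
    simp [Nat.factorial] at h11 h12
    omega

end Cfsg.Agent.S0801
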