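import Cfsg.Statements.S0802
import Cfsg.Agent.H3.Triangle
import Cfsg.Agent.OD.Helper3xdbc20513d5

set_option autoImplicit false
open Cfsg

namespace Cfsg.Agent.S0802

/-- PSL_2(p^n) has a subgroup isomorphic to A_4 if and only if it is not the case that p = 2 and n is odd. -/
theorem result {F : Type*} [Field F] [Fintype F] (p n : ℕ) [Fact p.Prime] [CharP F p] (hF : Fintype.card F = p ^ n) : (∃ H : Subgroup (Matrix.ProjectiveSpecialLinearGroup (Fin 2) F), Nonempty (H ≃* alternatingGroup (Fin 4))) ↔ ¬ (p = 2 ∧ Odd n) := by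
  have hp : p.Prime := Fact.out
  constructor
  · rintro ⟨H, ⟨e⟩⟩ ⟨rfl, hn⟩
    have h2 : (2 : F) = 0 := CharP.cast_eq_zero F 2
    let α : alternatingGroup (Fin 4) := ⟨Equiv.swap 0 1 * Equiv.swap 2 3, Equiv.Perm.mem_alternatingGroup.2 (by decide)⟩
    let β : alternatingGroup (Fin 4) := ⟨Equiv.swap 0 2 * Equiv.swap 0 1, Equiv.Perm.mem_alternatingGroup.2 (by decide)⟩
    let f := H.subtype.comp e.symm.toMonoidHom
    have hf : Function.Injective f := H.subtype_injective.comp e.symm.injective
    obtain ⟨a, ha⟩ := QuotientGroup.mk_surjective (f α)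
    obtain ⟨b, hb⟩ := QuotientGroup.mk_surjective (f β)
    have ha1 : (a : Matrix.ProjectiveSpecialLinearGroup (Fin 2) F) ≠ 1 := by
      rw [ha, Ne, map_eq_one_iff f hf]; decide
    have h3 := CfH3.trace_of_pow_two (g := a) (by rw [ha, ← map_pow, map_eq_one_iff f hf]; decide) ha1
    have h4 := CfH3.trace_of_pow_three (g := b)
      (by rw [hb, ← map_pow, map_eq_one_iff f hf]; decide)
      (by rw [hb, Ne, map_eq_one_iff f hf]; decide)
    have h5 := CfH3.trace_of_pow_three (g := a * b)
      (by rw [QuotientGroup.mk_mul, ha, hb, ← map_mul, ← map_pow, map_eq_one_iff f hf]; decide)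
      (by rw [QuotientGroup.mk_mul, ha, hb, ← map_mul, Ne, map_eq_one_iff f hf]; decide)
    have hsq : ∀ x : F, x ^ 2 = 1 → x = 1 := fun x hx => by
      have : (x - 1) ^ 2 = 0 := by linear_combination hx + (1 - x) * h2
      exact sub_eq_zero.1 (pow_eq_zero_iff (by norm_num) |>.1 this)
    replace h4 := hsq _ h4
    replace h5 := hsq _ h5
    have da := a.2
    have db := b.2
    rw [Matrix.det_fin_two] at da db
    rw [Matrix.SpecialLinearGroup.coe_mul] at h5
    simp only [Matrix.trace_fin_two, Matrix.mul_apply, Fin.sum_univ_two] at h3 h4 h5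
    obtain ⟨ω, hω⟩ : ∃ ω : F, ω ^ 2 + ω + 1 = 0 := by
      have e1 : a.1 1 1 = -a.1 0 0 := by linear_combination h3
      have e2 : b.1 1 1 = 1 - b.1 0 0 := by linear_combination h4
      rw [e1] at da h5
      rw [e2] at db h5
      by_cases hy : a.1 0 1 = 0
      · have hx : a.1 0 0 = 1 := hsq _ (by
          rw [hy] at da; linear_combination -da - h2)
        have hz : a.1 1 0 ≠ 0 := by
          intro hz
          apply ha1
          rw [CfH3.psl2_mk_eq_one_iff]
          left
          ext i j
          fin_cases i <;> fin_cases j <;> simp [hx, hy, hz, e1]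
          linear_combination -h2
        have ht : b.1 0 1 = 0 := by
          rw [hx, hy] at h5
          apply (mul_eq_zero.1 (_ : a.1 1 0 * b.1 0 1 = 0)).resolve_left hz
          linear_combination h5 + (1 - b.1 0 0) * h2
        refine ⟨b.1 0 0, ?_⟩
        rw [ht] at db
        linear_combination -db + b.1 0 0 * h2
      · refine ⟨b.1 0 0 + b.1 0 1 * (a.1 0 0 + 1) / a.1 0 1, ?_⟩
        field_simp
        generalize a.1 0 0 = x at *
        generalize a.1 0 1 = y at *
        generalize a.1 1 0 = z at *
        generalize b.1 0 0 = s at *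
        generalize b.1 0 1 = t at *
        generalize b.1 1 0 = u at *
        linear_combination (-y ^ 2) * db - t ^ 2 * da - t * y * h5 +
          (s * y ^ 2 + s * t * x * y * 2 + s * t * y + t ^ 2 * x) * h2
    have h6 : ω ≠ 0 := by rintro rfl; simp at hω
    have h7 : orderOf ω = 3 := by
      refine orderOf_eq_prime (by linear_combination (ω - 1) * hω) ?_
      rintro rfl
      exact one_ne_zero (by linear_combination hω - h2 : (1 : F) = 0)
    have h8 : 3 ∣ 2 ^ n - 1 := by
      rw [← h7, ← hF, orderOf_dvd_iff_pow_eq_one]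
      exact FiniteField.pow_card_sub_one_eq_one ω h6
    obtain ⟨k, rfl⟩ := hn
    have h9 : 2 ^ (2 * k + 1) % 3 = 2 := by
      rw [pow_succ, pow_mul, Nat.mul_mod, Nat.pow_mod]; simp
    generalize 2 ^ (2 * k + 1) = r at h8 h9
    omega
  · intro h
    by_cases h2 : p = 2
    · subst h2
      obtain ⟨k, rfl⟩ : Even n := by simpa using h
      obtain ⟨f, hf⟩ := CfH3.exists_A5_of_dvd hF (by
        refine Dvd.dvd.mul_left ?_ _
        rw [← pow_mul, show (k + k) * 2 = 4 * k by ring, pow_mul]
        exact (by norm_num : 5 ∣ 2 ^ 4 - 1).trans (Nat.sub_one_dvd_pow_sub_one _ k))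
      let g : alternatingGroup (Fin 4) →* alternatingGroup (Fin 5) :=
        ((Equiv.Perm.extendDomainHom (finSuccAboveEquiv (0 : Fin 5))).comp
          (alternatingGroup (Fin 4)).subtype).codRestrict _ (fun x => by
            have := x.2
            rw [Equiv.Perm.mem_alternatingGroup] at this ⊢
            simpa using this)
      have hg : Function.Injective g := by
        intro x y hxy
        exact Subtype.ext (Equiv.Perm.extendDomainHom_injective _ (congrArg Subtype.val hxy))
      exact ⟨_, ⟨(MonoidHom.ofInjective (f := f.comp g) (hf.comp hg)).symm⟩⟩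
    · obtain ⟨f, hf⟩ := CfH3.exists_A4_of_odd (F := F) (by
        intro h3
        exact h2 ((Nat.prime_dvd_prime_iff_eq hp Nat.prime_two).1
          ((CharP.cast_eq_zero_iff F p 2).1 h3)))
      exact ⟨_, ⟨(MonoidHom.ofInjective hf).symm⟩⟩

end Cfsg.Agent.S0802
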