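import Cfsg.Statements.S0804
import Cfsg.Agent.H3.Triangle

set_option autoImplicit false
open Cfsg

namespace Cfsg.Agent.S0804

/-- PSL_2(q) has a subgroup isomorphic to A_5 iff 5 ∣ q(q² − 1). -/
theorem result {F : Type*} [Field F] [Fintype F] {q : ℕ} (hF : Fintype.card F = q) : (∃ H : Subgroup (Matrix.ProjectiveSpecialLinearGroup (Fin 2) F), Nonempty (H ≃* alternatingGroup (Fin 5))) ↔ 5 ∣ q * (q ^ 2 - 1) := by
  constructor
  · rintro ⟨H, ⟨e⟩⟩
    have h1 := H.card_subgroup_dvd_card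
    rw [Nat.card_congr e.toEquiv, nat_card_alternatingGroup] at h1
    rw [← CfH3.card_PSL2 hF]
    refine Dvd.dvd.mul_right (Dvd.dvd.trans ?_ h1) _
    simp [Nat.factorial]
  · intro h
    obtain ⟨f, hf⟩ := CfH3.exists_A5_of_dvd hF h
    exact ⟨f.range, ⟨(MonoidHom.ofInjective hf).symm⟩⟩

end Cfsg.Agent.S0804
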