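import Cfsg.Statements.S0805
import Cfsg.Agent.H3.DicksonPSL

set_option autoImplicit false
open Cfsg

namespace Cfsg.Agent.S0805

/-- Subfield subgroups: let F be a finite field of odd order q and K a finite field with |K|^m = q, m ≥ 1. Then PSL_2(F) has a subgroup isomorphic to PSL_2(K), and has a subgroup isomorphic to PGL_2(K) if and only if m is even. -/
theorem result {F K : Type*} [Field F] [Fintype F] [Field K] [Fintype K] {q : ℕ} (hF : Fintype.card F = q) (hodd : Odd q) (m : ℕ) (hm : 1 ≤ m) (hK : Fintype.card K ^ m = q) : (∃ H : Subgroup (Matrix.ProjectiveSpecialLinearGroup (Fin 2) F), Nonempty (H ≃* Matrix.ProjectiveSpecialLinearGroup (Fin 2) K)) ∧ ((∃ H : Subgroup (Matrix.ProjectiveSpecialLinearGroup (Fin 2) F), Nonempty (H ≃* Matrix.ProjGenLinGroup (Fin 2) K)) ↔ Even m) := by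
  classical
  obtain ⟨p, hp⟩ := CharP.exists K
  obtain ⟨a, hp', ha⟩ := FiniteField.card K p
  have : Fact p.Prime := ⟨hp'⟩
  have hq : Fintype.card F = p ^ (a * m) := by rw [hF, ← hK, ha, pow_mul]
  have : CharP F p := charP_of_card_eq_prime_pow hq
  let _ := ZMod.algebra F p
  let _ := ZMod.algebra K p
  have h1 : Module.finrank (ZMod p) K = a := by
    apply Nat.pow_right_injective hp'.two_le
    simp only []
    rw [FiniteField.pow_finrank_eq_card, ha]
  have h2 : Module.finrank (ZMod p) F = a * m := by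
    apply Nat.pow_right_injective hp'.two_le
    simp only []
    rw [FiniteField.pow_finrank_eq_card, hq]
  obtain ⟨φ⟩ := FiniteField.nonempty_algHom_of_finrank_dvd (F := ZMod p) (K := K) (L := F)
    (by rw [h1, h2]; exact Dvd.intro _ rfl)
  let f : K →+* F := φ.toRingHom
  set r := Fintype.card K with hr
  have hr1 : 1 < r := Fintype.one_lt_card
  have hro : Odd r := by
    rw [← hK] at hodd
    exact (Nat.odd_pow_iff (by omega)).1 hodd
  refine ⟨⟨_, ⟨(MonoidHom.ofInjective (CfH3.pslMap_injective f)).symm⟩⟩, ?_, ?_⟩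
  · rintro ⟨H, ⟨e⟩⟩
    by_contra h3
    rw [Nat.not_even_iff_odd] at h3
    have h4 := H.card_subgroup_dvd_card
    rw [Nat.card_congr e.toEquiv, CfH3.card_PGL2 rfl, ← hr] at h4
    have h5 := CfH3.card_PSL2 hF
    rw [CfH3.gcd_two_of_odd hodd] at h5
    have h6 : r * (r ^ 2 - 1) * 2 ∣ q * (q ^ 2 - 1) := h5 ▸ Nat.mul_dvd_mul_right h4 2
    have h7 : q ^ 2 - 1 = (∑ i ∈ Finset.range m, (r ^ 2) ^ i) * (r ^ 2 - 1) := by
      rw [geom_sum_mul_of_one_le (Nat.one_le_pow _ _ (by omega)), ← hK, ← pow_mul, ← pow_mul,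
        mul_comm]
    have h8 : Odd (∑ i ∈ Finset.range m, (r ^ 2) ^ i) := by
      rw [Finset.odd_sum_iff_odd_card_odd, Finset.filter_true_of_mem (fun i _ => hro.pow.pow)]
      simpa using h3
    have h9 : 0 < r ^ 2 - 1 := by
      have : 1 < r ^ 2 := Nat.one_lt_pow (by norm_num) hr1
      omega
    rw [h7, ← mul_assoc, mul_right_comm] at h6
    have h10 := Nat.dvd_of_mul_dvd_mul_right h9 h6
    have h11 : 2 ∣ q * ∑ i ∈ Finset.range m, (r ^ 2) ^ i := (Dvd.intro_left r rfl).trans h10
    exact (Nat.not_even_iff_odd.2 (hodd.mul h8)) (even_iff_two_dvd.2 h11)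
  · rintro ⟨l, hl⟩
    have hsq : ∀ x : K, x ≠ 0 → IsSquare (f x) := by
      intro x hx
      have h3 : ringChar F ≠ 2 := by
        rw [Ne, FiniteField.even_card_iff_char_two, hF]
        have := Nat.odd_iff.1 hodd
        omega
      rw [FiniteField.isSquare_iff h3 ((map_ne_zero f).2 hx), ← map_pow]
      obtain ⟨c, hc⟩ : r - 1 ∣ r ^ l - 1 := Nat.sub_one_dvd_pow_sub_one r l
      obtain ⟨d, hd⟩ : Odd (r ^ l) := hro.pow
      have h4 : Fintype.card F / 2 = (r - 1) * (c * (d + 1)) := by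
        rw [hF, ← hK, hl, pow_add, ← mul_assoc, ← hc, hd]
        have : (2 * d + 1) * (2 * d + 1) = 2 * ((2 * d + 1 - 1) * (d + 1)) + 1 := by
          rw [Nat.add_sub_cancel]; ring
        omega
      rw [h4, pow_mul, FiniteField.pow_card_sub_one_eq_one x hx, one_pow, map_one]
    let ψ := Matrix.ProjGenLinGroup.map (n := Fin 2) f
    let τ := Matrix.ProjectiveSpecialLinearGroup.toPGL (n := Fin 2) (R := F)
    have h3 : ψ.range ≤ τ.range := by
      rintro _ ⟨x, rfl⟩
      induction x using Matrix.ProjGenLinGroup.induction_on with | mk g =>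
      rw [Matrix.ProjGenLinGroup.map_mk, CfH3.mk_mem_range_toPGL_two]
      have := hsq _ g.det_ne_zero
      rwa [RingHom.map_det] at this
    refine ⟨ψ.range.comap τ, ⟨?_⟩⟩
    exact ((ψ.range.comap τ).equivMapOfInjective τ
      Matrix.ProjectiveSpecialLinearGroup.toPGL_injective).trans
      ((MulEquiv.subgroupCongr (Subgroup.map_comap_eq_self h3)).trans
        (MonoidHom.ofInjective (CfH3.pgl_map_injective f)).symm)

end Cfsg.Agent.S0805
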