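import Cfsg.Statements.S0806
import Cfsg.Agent.H3.DicksonPSL
import Cfsg.Agent.OD.Helper3x0d29c0b427

set_option autoImplicit false
open Cfsg

namespace Cfsg.Agent.S0806

theorem aux_q {F : Type*} [Field F] [Fintype F] {q : ℕ} (hF : Fintype.card F = q)
    (hq : q ∉ ({2, 3, 5, 7, 9, 11} : Finset ℕ)) : q = 4 ∨ q = 8 ∨ 13 ≤ q := by
  have h1 : IsPrimePow q := hF ▸ FiniteField.isPrimePow_card F
  by_contra h
  have h2 : q < 13 := by omega
  interval_cases q <;> first | (exfalso; revert h1; decide) | simp at hq h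

theorem aux_d {q : ℕ} (h : q ≠ 0) : (Even q ∧ Nat.gcd 2 (q - 1) = 1) ∨ (Odd q ∧ Nat.gcd 2 (q - 1) = 2) := by
  rcases Nat.even_or_odd q with h1 | h1
  · exact Or.inl ⟨h1, CfH3.gcd_two_of_even h1 h⟩
  · exact Or.inr ⟨h1, CfH3.gcd_two_of_odd h1⟩

/-- Minimal index (Galois): if q ∉ {2, 3, 5, 7, 9, 11} then every proper subgroup of PSL_2(q) has index ≥ q + 1, and some subgroup has index exactly q + 1. -/
theorem result {F : Type*} [Field F] [Fintype F] {q : ℕ} (hF : Fintype.card F = q) (hq : q ∉ ({2, 3, 5, 7, 9, 11} : Finset ℕ)) : (∀ H : Subgroup (Matrix.ProjectiveSpecialLinearGroup (Fin 2) F), H ≠ ⊤ → q + 1 ≤ H.index) ∧ ∃ H : Subgroup (Matrix.ProjectiveSpecialLinearGroup (Fin 2) F), H.index = q + 1 := by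
  classical
  obtain ⟨p, hp⟩ := CharP.exists F
  obtain ⟨n, hp', hn⟩ := FiniteField.card F p
  have : Fact p.Prime := ⟨hp'⟩
  have hq' := aux_q hF hq
  refine ⟨fun H hH => ?_, ⟨_, CfH3.index_stabilizer_psl2 hF
    (OnePoint.equivProjectivization F OnePoint.infty)⟩⟩
  have hG := CfH3.card_PSL2 hF
  have hi := H.card_mul_index
  have hi1 : H.index ≠ 1 := by rwa [Ne, Subgroup.index_eq_one]
  have hi0 : H.index ≠ 0 := Subgroup.index_ne_zero_of_finite
  set d := Nat.gcd 2 (q - 1) with hd
  have hd' := aux_d (q := q) (by omega)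
  rw [← hd] at hd'
  obtain ⟨k, rfl⟩ : ∃ k, q = k + 1 := ⟨q - 1, by omega⟩
  have hsq : (k + 1) ^ 2 - 1 = k * (k + 2) := by
    apply Nat.sub_eq_of_eq_add; ring
  rw [hsq, ← hi] at hG
  have key : Nat.card H * d ≤ (k + 1) * k → k + 1 + 1 ≤ H.index := by
    intro h
    by_contra h1
    have h2 : H.index ≤ k + 1 := by omega
    have h3 : Nat.card H * d * H.index ≤ (k + 1) * k * (k + 1) := Nat.mul_le_mul h h2
    have h4 : 0 < (k + 1) * k := Nat.mul_pos (by omega) (by omega)
    nlinarith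
  have small : Nat.card H = 12 ∨ Nat.card H = 24 ∨ Nat.card H = 60 → k + 1 + 1 ≤ H.index := by
    intro h
    rcases hq' with h1 | h1 | h1
    · obtain rfl : k = 3 := by omega
      have : d = 1 := by rcases hd' with h2 | h2 <;> [exact h2.2; exact absurd h2.1 (by decide)]
      rw [this] at hG
      rcases h with h | h | h <;> rw [h] at hG <;> omega
    · obtain rfl : k = 7 := by omega
      have : d = 1 := by rcases hd' with h2 | h2 <;> [exact h2.2; exact absurd h2.1 (by decide)]
      rw [this] at hG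
      rcases h with h | h | h <;> rw [h] at hG <;> omega
    · apply key
      have h2 : 13 * 12 ≤ (k + 1) * k := Nat.mul_le_mul h1 (by omega)
      have h3 : d ≤ 2 := by omega
      have h4 : Nat.card H * d ≤ 60 * 2 := Nat.mul_le_mul (by omega) h3
      omega
  rcases CfH3.dickson_psl hF p H with ⟨l, hl, h⟩ | ⟨-, x, hx⟩ | ⟨⟨e⟩⟩ | ⟨⟨e⟩⟩ | ⟨⟨e⟩⟩ | ⟨E, h⟩
  · apply key
    have h1 : l * d ≤ k + 2 := by
      rcases hl with hl | hl
      · have := Nat.le_of_dvd (by rcases hd' with h | h <;> rw [← hd, h.2] <;> omega) hl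
        exact (Nat.mul_le_mul_right d this).trans (Nat.div_mul_le_self _ _)
      · have := Nat.le_of_dvd (by rcases hd' with h | h <;> rw [← hd, h.2] <;> omega) hl
        exact (Nat.mul_le_mul_right d this).trans ((Nat.div_mul_le_self _ _).trans (by omega))
    have h2 : Nat.card H ≤ 2 * l := by
      rcases h with h | ⟨⟨e⟩⟩
      · omega
      · rw [Nat.card_congr e.toEquiv, DihedralGroup.nat_card]
    have h3 : 4 * k ≤ (k + 1) * k := Nat.mul_le_mul_right k (by omega)
    have h4 : Nat.card H * d ≤ 2 * l * d := Nat.mul_le_mul_right d h2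
    rw [mul_assoc] at h4
    omega
  · have h1 := Subgroup.index_dvd_of_le (CfH3.le_stabilizer_of_fix H x hx)
    rw [CfH3.index_stabilizer_psl2 hF] at h1
    exact Nat.le_of_dvd (by omega) h1
  · apply small; left
    rw [Nat.card_congr e.toEquiv, nat_card_alternatingGroup]; simp [Nat.factorial]
  · apply small; right; left
    rw [Nat.card_congr e.toEquiv, Nat.card_perm]; simp [Nat.factorial]
  · apply small; right; right
    rw [Nat.card_congr e.toEquiv, nat_card_alternatingGroup]; simp [Nat.factorial]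
  · have := Fintype.ofFinite E
    obtain ⟨m, hm0, hm⟩ := CfH3.card_eq_pow_of_subfield E
    rw [Nat.card_eq_fintype_card, Nat.card_eq_fintype_card, hF] at hm
    have hr : 1 < Fintype.card E := Fintype.one_lt_card
    have h1 := CfH3.card_PSL2 (F := E) rfl
    have h2 := CfH3.card_PGL2 (F := E) rfl
    set r := Fintype.card E with hrdef
    rcases Nat.lt_or_ge m 2 with h3 | h3
    · exfalso
      obtain rfl : m = 1 := by omega
      rw [pow_one] at hm
      rw [hm, hsq] at h1 h2
      rw [← hd] at h1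
      have h4 : 0 < (k + 1) * (k * (k + 2)) := Nat.mul_pos (by omega) (Nat.mul_pos (by omega) (by omega))
      have h5 : Nat.card H * 2 * d ≤ Nat.card H * H.index * d :=
        Nat.mul_le_mul_right _ (Nat.mul_le_mul_left _ (by omega))
      rcases h with ⟨⟨e⟩⟩ | ⟨⟨e⟩⟩
      · rw [← Nat.card_congr e.toEquiv] at h1; nlinarith
      · rw [← Nat.card_congr e.toEquiv] at h2
        have : 1 ≤ d := by omega
        nlinarith
    · apply key
      have h4 : r ^ 2 ≤ k + 1 := hm ▸ Nat.pow_le_pow_right (by omega) h3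
      have h5 : Nat.card H ≤ r * (r ^ 2 - 1) := by
        rcases h with ⟨⟨e⟩⟩ | ⟨⟨e⟩⟩
        · rw [Nat.card_congr e.toEquiv, ← h1]
          exact Nat.le_mul_of_pos_right _ (Nat.gcd_pos_of_pos_left _ two_pos)
        · rw [Nat.card_congr e.toEquiv, h2]
      have h6 : r * 2 ≤ k + 1 := by nlinarith
      have h7 : d ≤ 2 := by omega
      calc Nat.card H * d ≤ r * (r ^ 2 - 1) * 2 := Nat.mul_le_mul h5 h7
        _ = r * 2 * (r ^ 2 - 1) := by ring
        _ ≤ (k + 1) * k := Nat.mul_le_mul h6 (by omega)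

end Cfsg.Agent.S0806
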