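import Cfsg.Statements.S0807
import Cfsg.Agent.H3.Quat
import Cfsg.Agent.OD.Helper3xb578b5654a
-- import your own Cfsg.Agent.* helpers here

set_option autoImplicit false
open Cfsg

namespace Cfsg.Agent.S0807

/-- For q odd, twelve times the number of Klein four-subgroups of PSL_2(q) equals the order of PSL_2(q). -/
theorem result {F : Type*} [Field F] [Fintype F] {q : ℕ} (hF : Fintype.card F = q) (hodd : Odd q) : 12 * Nat.card {V : Subgroup (Matrix.ProjectiveSpecialLinearGroup (Fin 2) F) // IsKleinFour V} = Nat.card (Matrix.ProjectiveSpecialLinearGroup (Fin 2) F) := by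
  classical
  have h2 : (2 : F) ≠ 0 := CfH3.two_ne_zero_iff_odd.2 (hF ▸ hodd)
  let a := CfH3.compSL (0 : F)
  have ha := CfH3.compSL_trace (0 : F)
  have ha1 := (CfH3.anti_iff h2 (a := a) (g := a) ha)
  let G := Matrix.ProjectiveSpecialLinearGroup (Fin 2) F
  have := Fintype.ofFinite G
  let k := Nat.card {y : G // CfH3.KPair (a : G) y}
  have hx : ∀ x : G, x * x = 1 ∧ x ≠ 1 ↔ IsConj (a : G) x := by
    intro x
    constructor
    · rintro ⟨h3, h4⟩
      induction x using QuotientGroup.induction_on with | H b =>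
      exact (QuotientGroup.mk' _).map_isConj (CfH3.isConj_of_trace_zero h2 ha
        (CfH3.trace_of_pow_two (by rw [pow_two]; exact h3) h4))
    · intro h
      obtain ⟨s, rfl⟩ := isConj_iff.1 h
      refine ⟨?_, ?_⟩
      · rw [conj_mul, ← QuotientGroup.mk_mul, CfH3.mul_self_of_trace_zero ha,
          CfH3.psl2_mk_eq_one_iff.2 (Or.inr rfl)]
        simp
      · rw [Ne, conj_eq_one_iff]
        exact CfH3.psl2_mk_ne_one_of_trace (ha ▸ CfH3.four_ne_zero_of_two h2)
  have ha2 := (hx a).2 (IsConj.refl _)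
  have h3 : 2 * k = Nat.card {g // g * a = a * g} := by
    rw [← CfH3.card_anti h2 ha, ← CfH3.card_preimage_mk h2]
    refine Nat.card_congr (Equiv.subtypeEquivRight fun g => ?_)
    rw [CfH3.anti_iff h2 ha]
    exact ⟨fun h => h.2.2, fun h => ⟨ha2.1, ha2.2, h⟩⟩
  have h4 : Nat.card (Subgroup.centralizer {(a : G)}) = 2 * k := by
    apply Nat.eq_of_mul_eq_mul_left two_pos
    rw [h3, ← CfH3.card_comm_or_anti h2 ha]
    refine (CfH3.card_preimage_mk h2 (fun x => x ∈ Subgroup.centralizer {(a : G)})).symm.trans ?_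
    refine Nat.card_congr (Equiv.subtypeEquivRight fun g => ?_)
    rw [Subgroup.mem_centralizer_singleton_iff, ← CfH3.psl2_mk_eq_iff]
    rfl
  have h5 : Nat.card {p : G × G // CfH3.KPair p.1 p.2} =
      Nat.card (MulAction.orbit (ConjAct G) (a : G)) * k := by
    have e : {p : G × G // CfH3.KPair p.1 p.2} ≃
        Σ x : MulAction.orbit (ConjAct G) (a : G), {y : G // CfH3.KPair x.1 y} :=
      { toFun := fun p => ⟨⟨p.1.1, ConjAct.mem_orbit_conjAct.2 ((hx _).1 ⟨p.2.1, p.2.2.1⟩).symm⟩,
          p.1.2, p.2⟩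
        invFun := fun p => ⟨(p.1.1, p.2.1), p.2.2⟩
        left_inv := fun p => rfl
        right_inv := fun p => rfl }
    rw [Nat.card_congr e, Nat.card_sigma, Finset.sum_congr rfl (g := fun _ => k), Finset.sum_const,
      Finset.card_univ, Nat.card_eq_fintype_card, smul_eq_mul]
    rintro ⟨x, hx⟩ -
    obtain ⟨s, rfl⟩ := isConj_iff.1 (ConjAct.mem_orbit_conjAct.1 hx).symm
    refine (Nat.card_congr (Equiv.subtypeEquiv (MulAut.conj s).toEquiv fun y => ?_)).symm
    change _ ↔ CfH3.KPair (MulAut.conj s a) (MulAut.conj s y)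
    simp only [CfH3.KPair, ← map_mul, Ne, (MulAut.conj s).injective.eq_iff,
      map_eq_one_iff _ (MulAut.conj s).injective]
  have h6 := MulAction.card_orbit_mul_card_stabilizer_eq_card_group (ConjAct G) (a : G)
  rw [← Nat.card_eq_fintype_card, ← Nat.card_eq_fintype_card, ← Nat.card_eq_fintype_card,
    ← Subgroup.nat_card_centralizer_nat_card_stabilizer, h4] at h6
  have h7 := CfH3.card_kPair (G := G)
  change _ = Nat.card G at h6
  change 12 * Nat.card {V : Subgroup G // IsKleinFour V} = Nat.card G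
  rw [← h6, mul_left_comm, ← h5, h7]
  ring

end Cfsg.Agent.S0807
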