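import Cfsg.Statements.S0808
import Cfsg.Agent.H3.Quat
import Cfsg.Agent.H3.DicksonPSL
import Cfsg.Agent.S0807
import Cfsg.Agent.OD.Helper3x0d29c0b427
-- import your own Cfsg.Agent.* helpers here

set_option autoImplicit false
open Cfsg

namespace Cfsg.Agent.S0808

/-- Conjugacy classes of four-groups in PSL_2(q), q odd: if q ≡ 3 or 5 (mod 8) all Klein four-subgroups are conjugate; if q ≡ 1 or 7 (mod 8) there are two Klein four-subgroups which are not conjugate, and every Klein four-subgroup is conjugate to one of them. -/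
theorem result {F : Type*} [Field F] [Fintype F] {q : ℕ} (hF : Fintype.card F = q) (hodd : Odd q) : ((q % 8 = 3 ∨ q % 8 = 5) → ∀ V W : Subgroup (Matrix.ProjectiveSpecialLinearGroup (Fin 2) F), IsKleinFour V → IsKleinFour W → ∃ g : Matrix.ProjectiveSpecialLinearGroup (Fin 2) F, W = V.map (MulAut.conj g).toMonoidHom) ∧ ((q % 8 = 1 ∨ q % 8 = 7) → ∃ V₁ V₂ : Subgroup (Matrix.ProjectiveSpecialLinearGroup (Fin 2) F), IsKleinFour V₁ ∧ IsKleinFour V₂ ∧ (¬ ∃ g : Matrix.ProjectiveSpecialLinearGroup (Fin 2) F, V₂ = V₁.map (MulAut.conj g).toMonoidHom) ∧ ∀ W : Subgroup (Matrix.ProjectiveSpecialLinearGroup (Fin 2) F), IsKleinFour W → (∃ g : Matrix.ProjectiveSpecialLinearGroup (Fin 2) F, W = V₁.map (MulAut.conj g).toMonoidHom) ∨ (∃ g : Matrix.ProjectiveSpecialLinearGroup (Fin 2) F, W = V₂.map (MulAut.conj g).toMonoidHom)) := by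
  classical
  have h2 : (2 : F) ≠ 0 := CfH3.two_ne_zero_iff_odd.2 (hF ▸ hodd)
  let G := Matrix.ProjectiveSpecialLinearGroup (Fin 2) F
  have hmul : ∀ (V : Subgroup G) (g h : GL (Fin 2) F),
      V.map (CfH3.conjPSL (g * h)).toMonoidHom =
        (V.map (CfH3.conjPSL h).toMonoidHom).map (CfH3.conjPSL g).toMonoidHom := by
    intro V g h
    rw [Subgroup.map_map, map_mul]; rfl
  have hsq : ∀ (V : Subgroup G) (g : GL (Fin 2) F), IsSquare (g : Matrix (Fin 2) (Fin 2) F).det →
      ∃ u : G, V.map (CfH3.conjPSL g).toMonoidHom = V.map (MulAut.conj u).toMonoidHom := by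
    intro V g hg
    obtain ⟨u, hu⟩ := CfH3.exists_conjPSL_eq_of_isSquare hg
    exact ⟨u, by rw [hu]⟩
  constructor
  · intro hq V W hV hW
    obtain ⟨g, rfl⟩ := CfH3.exists_conjPSL_klein h2 hV hW
    by_cases hg : IsSquare (g : Matrix (Fin 2) (Fin 2) F).det
    · exact hsq V g hg
    obtain ⟨x, y, h, rfl⟩ := CfH3.exists_kPair hV
    obtain ⟨a, b, rfl, rfl, hab⟩ := CfH3.exists_lift_kPair h2 h
    have ha := CfH3.trace_zero_of_anti h2 (a := b) (g := a) (by rw [hab, neg_neg])
    have ha2 : a.1 * a.1 = -1 := congrArg Subtype.val (CfH3.mul_self_of_trace_zero ha)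
    have hab' : b.1 * a.1 = -(a.1 * b.1) := congrArg Subtype.val hab
    have hd : (1 + a.1).det = 2 := by
      have h3 := a.2
      rw [Matrix.det_fin_two] at h3 ⊢
      rw [Matrix.trace_fin_two] at ha
      simp
      linear_combination h3 + ha
    let t : GL (Fin 2) F := Matrix.GeneralLinearGroup.mkOfDetNeZero (1 + a.1) (hd ▸ h2)
    have h3 : CfH3.conjSL t a = a := by
      rw [CfH3.conjSL_eq_iff]
      change (1 + a.1) * a.1 = a.1 * (1 + a.1)
      simp [mul_add, add_mul]
    have h4 : CfH3.conjSL t b = a * b := by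
      rw [CfH3.conjSL_eq_iff]
      change (1 + a.1) * b.1 = a.1 * b.1 * (1 + a.1)
      rw [mul_add, mul_one, mul_assoc, hab', mul_neg, ← mul_assoc, ha2]
      simp [add_mul, add_comm]
    have h5 : (Subgroup.closure {(a : G), (b : G)}).map (CfH3.conjPSL t).toMonoidHom =
        Subgroup.closure {(a : G), (b : G)} := by
      rw [MonoidHom.map_closure, Set.image_pair]
      change Subgroup.closure {((CfH3.conjSL t a :) : G), ((CfH3.conjSL t b :) : G)} = _
      rw [h3, h4, QuotientGroup.mk_mul]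
      refine (CfH3.kPair_of_mem hV (h.mem_closure.2 (by simp)) (h.mem_closure.2 (by simp)) h.2.1
        (fun h6 => h.2.2.2.2.2 ?_) (fun h6 => h.2.2.2.2.1 (by simpa using h6))).2
      rw [← mul_left_cancel_iff (a := (a : G)), h6, h.1]
    obtain ⟨u, hu⟩ := hsq (Subgroup.closure {(a : G), (b : G)}) (g * t) (by
      rw [Units.val_mul, Matrix.det_mul]
      refine CfH3.isSquare_mul_of_not hg ?_
      change ¬ IsSquare (1 + a.1).det
      rw [hd, FiniteField.isSquare_two_iff, hF]
      omega)
    exact ⟨u, by rw [← hu, hmul, h5]⟩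
  · intro hq
    obtain ⟨t, ht⟩ : IsSquare (2 : F) := by
      rw [FiniteField.isSquare_two_iff, hF]; omega
    obtain ⟨f, hf⟩ := CfH3.exists_S4_of_sq h2 ht.symm
    let α : Equiv.Perm (Fin 4) := Equiv.swap 0 1 * Equiv.swap 2 3
    let β : Equiv.Perm (Fin 4) := Equiv.swap 0 2 * Equiv.swap 1 3
    have h0 : CfH3.KPair α β := by unfold CfH3.KPair; decide
    have h3 : CfH3.KPair (f α) (f β) := by
      simpa only [CfH3.KPair, ← map_mul, Ne, hf.eq_iff, map_eq_one_iff _ hf] using h0
    let V : Subgroup G := Subgroup.closure {f α, f β}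
    have hV : IsKleinFour V := h3.isKleinFour
    have h4 : ∀ σ, V.map (MulAut.conj (f σ)).toMonoidHom = V := by
      intro σ
      rw [MonoidHom.map_closure, Set.image_pair]
      change Subgroup.closure {f σ * f α * (f σ)⁻¹, f σ * f β * (f σ)⁻¹} = _
      have h5 : ∀ z : Equiv.Perm (Fin 4), (z = 1 ∨ z = α ∨ z = β ∨ z = α * β) → f z ∈ V := by
        intro z hz
        rw [h3.mem_closure]
        simpa only [← map_mul, hf.eq_iff, map_eq_one_iff _ hf] using hz
      simp only [← map_inv, ← map_mul]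
      refine (CfH3.kPair_of_mem hV (h5 _ ?_) (h5 _ ?_) ?_ ?_ ?_).2
      · revert σ; decide
      · revert σ; decide
      all_goals simp only [Ne, hf.eq_iff, map_eq_one_iff _ hf]; revert σ; decide
    obtain ⟨V₂, hV₂, h5⟩ : ∃ V₂ : Subgroup G, IsKleinFour V₂ ∧
        ¬ ∃ g : G, V₂ = V.map (MulAut.conj g).toMonoidHom := by
      by_contra! h5
      have h6 : ∀ g : G, IsKleinFour (V.map (MulAut.conj g).toMonoidHom) := fun g => by
        rw [MonoidHom.map_closure, Set.image_pair]
        refine CfH3.KPair.isKleinFour ?_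
        change CfH3.KPair (MulAut.conj g (f α)) (MulAut.conj g (f β))
        simpa only [CfH3.KPair, ← map_mul, Ne, (MulAut.conj g).injective.eq_iff,
          map_eq_one_iff _ (MulAut.conj g).injective] using h3
      let φ : G ⧸ f.range → {V : Subgroup G // IsKleinFour V} :=
        Quotient.lift (fun g => ⟨_, h6 g⟩) (by
          intro g g' hg
          obtain ⟨σ, hσ⟩ := QuotientGroup.leftRel_apply.1 hg
          apply Subtype.ext
          change V.map (MulAut.conj g).toMonoidHom = V.map (MulAut.conj g').toMonoidHom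
          have h7 : g' = g * f σ := by rw [hσ, mul_inv_cancel_left]
          conv_lhs => rw [← h4 σ]
          rw [h7, map_mul, Subgroup.map_map]; rfl)
      have h7 : Function.Surjective φ := by
        rintro ⟨W, hW⟩
        obtain ⟨g, rfl⟩ := h5 W hW
        exact ⟨(g : G ⧸ f.range), rfl⟩
      have h8 := Nat.card_le_card_of_surjective φ h7
      have h9 := Subgroup.card_eq_card_quotient_mul_card_subgroup f.range
      rw [← Nat.card_congr (MonoidHom.ofInjective hf).toEquiv, Nat.card_perm] at h9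
      have h10 := Cfsg.Agent.S0807.result hF hodd
      have h11 : 0 < Nat.card G := Nat.card_pos
      simp only [Nat.card_eq_fintype_card (α := Fin 4), Fintype.card_fin, Nat.factorial] at h9
      change 12 * Nat.card {V : Subgroup G // IsKleinFour V} = Nat.card G at h10
      change Nat.card G = Nat.card (G ⧸ f.range) * _ at h9
      omega
    refine ⟨V, V₂, hV, hV₂, h5, fun W hW => ?_⟩
    obtain ⟨g, rfl⟩ := CfH3.exists_conjPSL_klein h2 hV hW
    obtain ⟨k, rfl⟩ := CfH3.exists_conjPSL_klein h2 hV hV₂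
    by_cases hg : IsSquare (g : Matrix (Fin 2) (Fin 2) F).det
    · exact Or.inl (hsq V g hg)
    right
    have hk : ¬ IsSquare ((k⁻¹ : GL (Fin 2) F) : Matrix (Fin 2) (Fin 2) F).det := by
      intro hk
      refine h5 (hsq V k ?_)
      rw [Matrix.coe_units_inv, Matrix.det_nonsing_inv, Ring.inverse_eq_inv'] at hk
      simpa using hk.inv
    obtain ⟨u, hu⟩ := hsq (V.map (CfH3.conjPSL k).toMonoidHom) (g * k⁻¹) (by
      rw [Units.val_mul, Matrix.det_mul]
      exact CfH3.isSquare_mul_of_not hg hk)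
    exact ⟨u, by rw [← hu, ← hmul, inv_mul_cancel_right]⟩

end Cfsg.Agent.S0808
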