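import Cfsg.Statements.S0809
import Cfsg.Agent.H3.Quat
-- import your own Cfsg.Agent.* helpers here

set_option autoImplicit false
open Cfsg

namespace Cfsg.Agent.S0809

/-- In SL_2(q), q odd: any two subgroups of order 4 are conjugate, and the normaliser of a subgroup of order 4 has order 2(q − 1) if q ≡ 1 (mod 4) and 2(q + 1) if q ≡ 3 (mod 4); consequently all involutions of PSL_2(q) are conjugate. -/
theorem result {F : Type*} [Field F] [Fintype F] {q : ℕ} (hF : Fintype.card F = q) (hodd : Odd q) (A : Subgroup (Matrix.SpecialLinearGroup (Fin 2) F)) (hA : Nat.card A = 4) : (∀ B : Subgroup (Matrix.SpecialLinearGroup (Fin 2) F), Nat.card B = 4 → ∃ g : Matrix.SpecialLinearGroup (Fin 2) F, B = A.map (MulAut.conj g).toMonoidHom) ∧ (q % 4 = 1 → Nat.card ↥(Subgroup.normalizer (A : Set (Matrix.SpecialLinearGroup (Fin 2) F))) = 2 * (q - 1)) ∧ (q % 4 = 3 → Nat.card ↥(Subgroup.normalizer (A : Set (Matrix.SpecialLinearGroup (Fin 2) F))) = 2 * (q + 1)) ∧ (∀ x y : Matrix.ProjectiveSpecialLinearGroup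 (Fin 2) F, orderOf x = 2 → orderOf y = 2 → IsConj x y) := by
  have h2 : (2 : F) ≠ 0 := CfH3.two_ne_zero_iff_odd.2 (hF ▸ hodd)
  have key : ∀ B : Subgroup (Matrix.SpecialLinearGroup (Fin 2) F), Nat.card B = 4 →
      ∃ b : Matrix.SpecialLinearGroup (Fin 2) F,
        (b : Matrix (Fin 2) (Fin 2) F).trace = 0 ∧ B = Subgroup.zpowers b := by
    intro B hB
    obtain ⟨b, hb, h3⟩ : ∃ b ∈ B, b ≠ 1 ∧ b ≠ -1 := by
      by_contra! h
      have h4 : (B : Set (Matrix.SpecialLinearGroup (Fin 2) F)) ⊆ {1, -1} := fun b hb => by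
        by_cases h5 : b = 1
        · exact Or.inl h5
        · exact Or.inr (h b hb h5)
      have h5 := (Set.ncard_le_ncard h4).trans (Set.ncard_insert_le _ _)
      rw [Set.ncard_singleton, ← Nat.card_coe_set_eq, SetLike.coe_sort_coe, hB] at h5
      omega
    have h4 : b ^ 4 = 1 := by
      rw [← hB]; exact congrArg Subtype.val (pow_card_eq_one' (x := (⟨b, hb⟩ : B)))
    have h5 : b * b ≠ 1 := fun h => by
      obtain ⟨c, hc⟩ := CfH3.sl2_scalar_of_sq_eq_one h2 b h
      exact (CfH3.scalar_sl2_cases hc).elim h3.1 h3.2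
    obtain ⟨c, hc⟩ := CfH3.sl2_scalar_of_sq_eq_one h2 (b * b) (by rw [← h4]; simp [pow_succ, mul_assoc])
    refine ⟨b, CfH3.trace_zero_of_mul_self h2 ((CfH3.scalar_sl2_cases hc).resolve_left h5), ?_⟩
    refine (Subgroup.eq_of_le_of_card_ge ((Subgroup.zpowers_le).2 hb) ?_).symm
    rw [hB, Nat.card_zpowers, orderOf_eq_prime_pow (p := 2) (n := 1) (by simpa [pow_two] using h5) h4]
    rfl
  obtain ⟨a, ha, rfl⟩ := key A hA
  have hN : Nat.card ↥(Subgroup.normalizer ((Subgroup.zpowers a : Subgroup _) :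
      Set (Matrix.SpecialLinearGroup (Fin 2) F))) =
        2 * if q % 4 = 3 then q + 1 else q - 1 := by
    rw [← hF, ← CfH3.card_comm h2 ha, ← CfH3.card_comm_or_anti h2 ha]
    refine Nat.card_congr (Equiv.subtypeEquiv (Equiv.inv _) fun g => ?_)
    simp only [Equiv.inv_apply]
    constructor
    · intro h
      obtain ⟨k, hk⟩ := (Subgroup.mem_normalizer_iff.1 h a).1 (Subgroup.mem_zpowers a)
      have h3 := CfH3.eq_or_of_comm h2 (g := g * a * g⁻¹) ha (by
        rw [Matrix.SpecialLinearGroup.coe_mul, Matrix.trace_mul_comm,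
          ← Matrix.SpecialLinearGroup.coe_mul, inv_mul_cancel_left, ha])
        (by rw [← hk]; exact (Commute.zpow_self a k).eq)
      rcases h3 with h3 | h3
      · left; conv_lhs => rw [← h3]
        group
      · right
        rw [← neg_eq_iff_eq_neg] at h3
        conv_lhs => rw [← h3]
        simp [mul_assoc]
    · intro h
      have h3 : g * a * g⁻¹ ∈ Subgroup.zpowers a := by
        rcases h with h | h
        · rw [mul_assoc, ← h, mul_inv_cancel_left]; exact Subgroup.mem_zpowers a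
        · rw [mul_assoc, ← neg_eq_iff_eq_neg.2 h, mul_neg, mul_inv_cancel_left]
          refine ⟨3, ?_⟩
          change a ^ (3 : ℤ) = -a
          rw [show a ^ (3 : ℤ) = a * a * a by simp [zpow_ofNat, pow_succ], CfH3.mul_self_of_trace_zero ha, neg_one_mul]
      refine Subgroup.mem_normalizer_fintype ?_
      rintro _ ⟨k, rfl⟩
      rw [← conj_zpow]
      exact zpow_mem h3 k
  refine ⟨fun B hB => ?_, fun h => by rw [hN, if_neg (by omega)], fun h => by rw [hN, if_pos h], ?_⟩
  · obtain ⟨b, hb, rfl⟩ := key B hB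
    obtain ⟨g, rfl⟩ := isConj_iff.1 (CfH3.isConj_of_trace_zero h2 ha hb)
    exact ⟨g, by rw [MonoidHom.map_zpowers]; rfl⟩
  · intro x y hx hy
    induction x using QuotientGroup.induction_on with | H x =>
    induction y using QuotientGroup.induction_on with | H y =>
    rw [orderOf_eq_prime_iff] at hx hy
    exact (QuotientGroup.mk' _).map_isConj (CfH3.isConj_of_trace_zero h2
      (CfH3.trace_of_pow_two hx.1 hx.2) (CfH3.trace_of_pow_two hy.1 hy.2))

end Cfsg.Agent.S0809
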