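import Cfsg.Statements.S0810
import Cfsg.Agent.H3.PSL2Max
import Cfsg.Agent.H5.Burnside
-- import your own Cfsg.Agent.* helpers here

set_option autoImplicit false
open Cfsg

namespace Cfsg.Agent.S0810

theorem solv_of_dvd {G : Type*} [Group G] [Finite G] (h : Nat.card G ∣ 24) : Group.IsSolvable G := by
  refine CfH5.burnside_of_prime_dvd (p := 2) (q := 3) fun r hr hr' => ?_
  have h1 := hr'.trans h
  have h2 := Nat.le_of_dvd (by norm_num) h1
  interval_cases r <;> first | omega | exact absurd hr (by norm_num)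

theorem not_solv_A5 : ¬ Group.IsSolvable (alternatingGroup (Fin 5)) := by
  rw [← IsSimpleGroup.comm_iff_isSolvable]
  decide +kernel

theorem not_solv {E : Type*} [Field E] (h : 4 ≤ Nat.card E) :
    ¬ Group.IsSolvable (Matrix.ProjectiveSpecialLinearGroup (Fin 2) E) := by
  have := Matrix.ProjectiveSpecialLinearGroup.rank_two_simple h
  rw [← IsSimpleGroup.comm_iff_isSolvable]
  intro h1
  let u : Matrix.SpecialLinearGroup (Fin 2) E := ⟨!![1, 0; 1, 1], by simp [Matrix.det_fin_two_of]⟩
  let v : Matrix.SpecialLinearGroup (Fin 2) E := ⟨!![1, 1; 0, 1], by simp [Matrix.det_fin_two_of]⟩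
  rcases (CfH3.psl2_mk_eq_iff (g := u * v) (h := v * u)).1 (h1 u v) with h2 | h2
  · have h3 : (!![1, 0; 1, 1] * !![1, 1; 0, 1] : Matrix (Fin 2) (Fin 2) E) =
      !![1, 1; 0, 1] * !![1, 0; 1, 1] := congrArg Subtype.val h2
    simpa using congrFun (congrFun h3 0) 0
  · have h5 : (!![1, 0; 1, 1] * !![1, 1; 0, 1] : Matrix (Fin 2) (Fin 2) E) =
      -(!![1, 1; 0, 1] * !![1, 0; 1, 1]) := congrArg Subtype.val h2
    have h3 := congrFun (congrFun h5 0) 0
    have h4 := congrFun (congrFun h5 0) 1
    simp at h3 h4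
    exact one_ne_zero (by linear_combination h3 - h4 : (1 : E) = 0)

theorem dvd_five_iff {q : ℕ} (h : 1 < q) :
    5 ∣ q * (q ^ 2 - 1) ↔ q % 5 = 0 ∨ q % 5 = 1 ∨ q % 5 = 4 := by
  rw [show q ^ 2 - 1 = (q + 1) * (q - 1) by simpa using Nat.sq_sub_sq q 1,
    Nat.prime_five.dvd_mul, Nat.prime_five.dvd_mul]
  omega

/-- PSL_2(q) is minimal simple iff q is 2^r (r prime), 3^r (r an odd prime), a prime greater than 5 congruent to 2 or 3 mod 5, or 5. -/
theorem result {F : Type*} [Field F] [Fintype F] {q : ℕ} (hF : Fintype.card F = q) : Cfsg.IsMinimalSimple (Matrix.ProjectiveSpecialLinearGroup (Fin 2) F) ↔ ((∃ r : ℕ, r.Prime ∧ q = 2 ^ r) ∨ (∃ r : ℕ, r.Prime ∧ r ≠ 2 ∧ q = 3 ^ r) ∨ (q.Prime ∧ 5 < q ∧ (q % 5 = 2 ∨ q % 5 = 3)) ∨ q = 5) := by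
  classical
  obtain ⟨p, hp⟩ := CharP.exists F
  obtain ⟨f, hp', hf⟩ := FiniteField.card F p
  have : Fact p.Prime := ⟨hp'⟩
  have hq1 : 1 < q := hF ▸ Fintype.one_lt_card
  have hG := CfH3.card_PSL2 hF
  have hq : q = p ^ (f : ℕ) := hF ▸ hf
  have hf0 : (f : ℕ) ≠ 0 := f.ne_zero
  have hd : Nat.gcd 2 (q - 1) ≤ 2 := Nat.gcd_le_left _ two_pos
  constructor
  · rintro ⟨h1, h2, h3⟩
    have h4 : 4 ≤ q := by
      by_contra! h4
      refine h2 ⟨⟨IsSimpleGroup.comm_iff_isSolvable.2 (solv_of_dvd ?_)⟩⟩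
      interval_cases q
      · exact (Dvd.intro _ hG).trans (by norm_num)
      · exact (Dvd.intro _ hG).trans (by norm_num)
    have h5 : ∀ {Γ : Type} [Group Γ] [Finite Γ]
        (φ : Γ →* Matrix.ProjectiveSpecialLinearGroup (Fin 2) F), Function.Injective φ →
        ¬ Group.IsSolvable Γ → q * (q ^ 2 - 1) = Nat.card Γ * Nat.gcd 2 (q - 1) := by
      intro Γ _ _ φ hφ hΓ
      by_contra h6
      have := h3 φ.range (fun h => h6 (by
        rw [← hG, Nat.card_congr (MonoidHom.ofInjective hφ).toEquiv, h, Subgroup.card_top]))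
      exact hΓ (Group.isSolvable_of_isSolvable_injective (f := φ.rangeRestrict)
        (MonoidHom.rangeRestrict_injective_iff.2 hφ))
    have h6 : 5 ∣ q * (q ^ 2 - 1) → q ≤ 5 := by
      intro h
      obtain ⟨φ, hφ⟩ := CfH3.exists_A5_of_dvd hF h
      have h7 := h5 φ hφ not_solv_A5
      rw [nat_card_alternatingGroup] at h7
      simp only [Nat.card_eq_fintype_card, Fintype.card_fin, Nat.factorial] at h7
      norm_num at h7
      by_contra! h8
      have h9 : 6 * (6 ^ 2 - 1) ≤ q * (q ^ 2 - 1) :=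
        Nat.mul_le_mul h8 (Nat.sub_le_sub_right (Nat.pow_le_pow_left h8 2) 1)
      omega
    have h7 : ∀ e : ℕ, e ∣ f → e = f ∨ p ^ e ≤ 3 := by
      intro e he
      have he0 : e ≠ 0 := by rintro rfl; exact hf0 (zero_dvd_iff.1 he)
      by_contra! h8
      have := Fintype.ofFinite (GaloisField p e)
      let _ := ZMod.algebra F p
      have h9 : Module.finrank (ZMod p) F = f := by
        apply Nat.pow_right_injective hp'.two_le
        simp only []
        rw [FiniteField.pow_finrank_eq_card, hf]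
      obtain ⟨φ⟩ := FiniteField.nonempty_algHom_of_finrank_dvd (F := ZMod p)
        (K := GaloisField p e) (L := F) (by rw [h9, GaloisField.finrank p he0]; exact he)
      have h10 : Nat.card (GaloisField p e) = p ^ e := GaloisField.card p e he0
      have h11 := h5 _ (CfH3.pslMap_injective φ.toRingHom) (not_solv (by omega))
      have h12 := CfH3.card_PSL2 (F := GaloisField p e) (Nat.card_eq_fintype_card.symm.trans h10)
      have h13 : p ^ e < q := hq ▸ Nat.pow_lt_pow_right hp'.one_lt
        (lt_of_le_of_ne (Nat.le_of_dvd f.pos he) h8.1)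
      have h14 : Nat.gcd 2 (p ^ e - 1) = Nat.gcd 2 (q - 1) := by
        rcases hp'.eq_two_or_odd' with rfl | h
        · rw [CfH3.gcd_two_of_even (Nat.even_pow.2 ⟨even_two, he0⟩) (by omega),
            CfH3.gcd_two_of_even (hq ▸ Nat.even_pow.2 ⟨even_two, hf0⟩) (by omega)]
        · rw [CfH3.gcd_two_of_odd h.pow, CfH3.gcd_two_of_odd (hq ▸ h.pow)]
      rw [h14, ← h11] at h12
      have h15 : p ^ e * ((p ^ e) ^ 2 - 1) < q * (q ^ 2 - 1) :=
        Nat.mul_lt_mul_of_lt_of_le h13 (Nat.sub_le_sub_right (Nat.pow_le_pow_left h13.le 2) 1)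
          (by have := Nat.pow_le_pow_left h4 2; omega)
      omega
    by_cases h8 : (f : ℕ) = 1
    · rw [h8, pow_one] at hq
      subst hq
      right; right
      by_cases h9 : q = 5
      · exact Or.inr h9
      have h10 : q ≠ 4 := by rintro rfl; exact absurd hp' (by norm_num)
      refine Or.inl ⟨hp', by omega, ?_⟩
      by_contra! h11
      have := h6 ((dvd_five_iff hq1).2 (by omega))
      omega
    · have h9 := (h7 1 (one_dvd _)).resolve_left (Ne.symm h8)
      have h10 : (f : ℕ).Prime := by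
        rw [Nat.prime_def]
        refine ⟨by omega, fun e he => ?_⟩
        refine (h7 e he).symm.imp_left fun h => ?_
        have he0 : e ≠ 0 := by rintro rfl; exact hf0 (zero_dvd_iff.1 he)
        by_contra h11
        have h12 : 2 ^ 2 ≤ p ^ e :=
          (Nat.pow_le_pow_left hp'.two_le 2).trans (Nat.pow_le_pow_right hp'.pos (by omega))
        omega
      have h11 := hp'.two_le
      rw [pow_one] at h9
      interval_cases p
      · exact Or.inl ⟨f, h10, hq⟩
      · refine Or.inr (Or.inl ⟨f, h10, fun h => ?_, hq⟩)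
        rw [h] at hq
        subst hq
        exact absurd (h6 (by norm_num)) (by norm_num)
  · intro h
    have h4 : 4 ≤ q := by
      rcases h with ⟨r, hr, rfl⟩ | ⟨r, hr, -, rfl⟩ | h | h
      · exact Nat.pow_le_pow_right (n := 2) two_pos hr.two_le
      · exact le_trans (by norm_num) (Nat.pow_le_pow_right (n := 3) (by norm_num) hr.two_le)
      · omega
      · omega
    have h1 := Matrix.ProjectiveSpecialLinearGroup.rank_two_simple (F := F)
      (by rwa [Nat.card_eq_fintype_card, hF])
    refine ⟨h1, fun h2 => not_solv (E := F) (by rwa [Nat.card_eq_fintype_card, hF])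
      (Group.isSolvable_of_comm h2.is_comm.comm), fun H hH => ?_⟩
    have htop : ¬ Nat.card (Matrix.ProjectiveSpecialLinearGroup (Fin 2) F) ≤ Nat.card H :=
      fun h => hH (Subgroup.eq_of_le_of_card_ge le_top (by rwa [Subgroup.card_top]))
    rcases CfH3.dickson_psl hF p H with
      ⟨k, hk, ⟨h3, -⟩ | ⟨⟨e⟩⟩⟩ | ⟨-, x, hx⟩ | ⟨⟨e⟩⟩ | ⟨⟨e⟩⟩ | ⟨⟨e⟩⟩ | ⟨E, hE⟩
    · exact Group.isSolvable_of_comm h3.isMulCommutative.is_comm.comm
    · have := CfH3.isSolvable_dihedral k
      exact Group.isSolvable_of_isSolvable_injective (f := e.toMonoidHom) e.injective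
    · exact CfH3.isSolvable_of_fix H x hx
    · apply solv_of_dvd
      rw [Nat.card_congr e.toEquiv, nat_card_alternatingGroup]; simp [Nat.factorial]
    · apply solv_of_dvd
      rw [Nat.card_congr e.toEquiv, Nat.card_perm]; simp [Nat.factorial]
    · exfalso
      have h3 : Nat.card H = 60 := by
        rw [Nat.card_congr e.toEquiv, nat_card_alternatingGroup]; simp [Nat.factorial]
      have h5 : 5 ∣ q * (q ^ 2 - 1) := by
        rw [← hG]
        exact ((by rw [h3]; norm_num : 5 ∣ Nat.card H).trans H.card_subgroup_dvd_card).mul_right _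
      rw [dvd_five_iff hq1] at h5
      rw [h3] at htop
      rcases h with ⟨r, hr, rfl⟩ | ⟨r, hr, h6, rfl⟩ | h | rfl
      · rcases hr.eq_two_or_odd' with rfl | ⟨k, rfl⟩
        · rw [show Nat.gcd 2 (2 ^ 2 - 1) = 1 by norm_num] at hG
          omega
        · have h7 : 2 ^ (2 * k + 1) % 5 = 2 ∨ 2 ^ (2 * k + 1) % 5 = 3 := by
            clear * -
            induction k with
            | zero => simp
            | succ k ih => rw [show 2 * (k + 1) + 1 = 2 * k + 1 + 2 by ring, pow_add]; omega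
          clear * - h5 h7
          generalize 2 ^ (2 * k + 1) = r at h5 h7
          omega
      · obtain ⟨k, rfl⟩ := hr.odd_of_ne_two h6
        have h7 : 3 ^ (2 * k + 1) % 5 = 2 ∨ 3 ^ (2 * k + 1) % 5 = 3 := by
          clear * -
          induction k with
          | zero => simp
          | succ k ih => rw [show 2 * (k + 1) + 1 = 2 * k + 1 + 2 by ring, pow_add]; omega
        clear * - h5 h7
        generalize 3 ^ (2 * k + 1) = r at h5 h7
        omega
      · omega
      · rw [show Nat.gcd 2 (5 - 1) = 2 by norm_num] at hG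
        omega
    · obtain ⟨m, hm0, hm⟩ := CfH3.card_eq_pow_of_subfield E
      obtain ⟨h3, h5⟩ := CfH3.card_le_of_subfield hE
      have hm1 : m ≠ 1 := by
        rintro rfl
        rw [pow_one] at hm
        exact htop (by rwa [← CfH3.card_PSL2_eq_of_card_eq hm])
      rw [Nat.card_eq_fintype_card (α := F), hF] at hm
      have h6 : ∀ l r : ℕ, l.Prime → r.Prime → q = l ^ r → Nat.card E = l := by
        intro l r hl hr h7
        obtain ⟨e, -, he⟩ := (Nat.dvd_prime_pow hl).1 (h7 ▸ hm ▸ dvd_pow_self (Nat.card E) hm0)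
        rw [he, h7, ← pow_mul] at hm
        have h8 := Nat.pow_right_injective hl.two_le hm
        rcases (Nat.prime_mul_iff.1 (h8 ▸ hr)) with ⟨-, h9⟩ | ⟨-, rfl⟩
        · exact absurd h9 hm1
        · simpa using he
      have h7 : ¬ q.Prime := by
        intro h8
        rw [← hm] at h8
        exact hm1 h8.eq_one_of_pow
      apply solv_of_dvd
      rcases h with ⟨r, hr, h⟩ | ⟨r, hr, -, h⟩ | h | rfl
      · rw [h6 2 r Nat.prime_two hr h] at h5
        exact h5.trans (by norm_num)
      · rw [h6 3 r Nat.prime_three hr h] at h5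
        exact h5.trans (by norm_num)
      · exact absurd h.1 h7
      · exact absurd Nat.prime_five h7

end Cfsg.Agent.S0810
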