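import Cfsg.Statements.S0814
import Cfsg.Agent.OD.Pre
import Cfsg.Agent.H2.Graph4

set_option autoImplicit false
open Cfsg

namespace Cfsg.Agent.S0814

/-- |Aut(PSp_2m(q))| = gcd(2, q−1) · f · |PSp_2m(q)| for q = p^f, m ≥ 2, (m, q) ≠ (2, 2), with an extra factor 2 exactly when m = 2 and p = 2. -/
theorem result {F : Type*} [Field F] [Fintype F] (p f : ℕ) [Fact p.Prime] (hf : 1 ≤ f) (hF : Fintype.card F = p ^ f) (m : ℕ) (hm : 2 ≤ m) (h22 : m = 2 → 3 ≤ p ^ f) : Nat.card (MulAut (Cfsg.PSp m F)) = (if m = 2 ∧ p = 2 then 2 else 1) * Nat.gcd 2 (p ^ f - 1) * f * Nat.card (Cfsg.PSp m F) := by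
  have : CharP F p := charP_of_card_eq_prime_pow hF
  have h := CfH2.isWF_symp m F
  have hρ := CfH2.rep_sp m F
  have hd : Module.finrank F (Fin m ⊕ Fin m → F) = 2 * m := by simp; ring
  have h1 := hρ.card_Ind_sp p h f hF (by omega) fun s l hl => ⟨_, CfH2.isSim_sympB m s hl⟩
  have h2 : ((hρ.setup_sp h (by omega)).Ind).index = if m = 2 ∧ p = 2 then 2 else 1 := by
    split_ifs with hc
    · obtain ⟨rfl, rfl⟩ := hc
      exact CfH2.exists_graph (CharP.cast_eq_zero F 2) hρ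
    · obtain ⟨x, hx⟩ := (hρ.setup_sp h (by omega)).nontriv
      rw [Subgroup.index_eq_one, eq_top_iff]
      intro α _
      refine (hρ.sp_dichotomy p h (by omega) hx α).resolve_right ?_
      rintro ⟨h3, h4, -⟩
      exact hc ⟨by omega, h3⟩
  rw [← ((hρ.setup_sp h (by omega)).Ind).card_mul_index, h1, h2]
  ring

end Cfsg.Agent.S0814
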