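import Cfsg.Statements.S0816
import Cfsg.Agent.OD.Pre
import Cfsg.Agent.H2.AutO2

set_option autoImplicit false
open Cfsg

namespace Cfsg.Agent.S0816

/-- |Aut(PΩ_(2m+1)(q))| = 2 f · |PΩ_(2m+1)(q)| for q = p^f odd and m ≥ 3 (for the form quadFormOdd). -/
theorem result {F : Type*} [Field F] [Fintype F] (p f : ℕ) [Fact p.Prime] (hf : 1 ≤ f) (hF : Fintype.card F = p ^ f) (hodd : Odd p) (m : ℕ) (hm : 3 ≤ m) : Nat.card (MulAut (Cfsg.POmega F (Cfsg.quadFormOdd m F))) = 2 * f * Nat.card (Cfsg.POmega F (Cfsg.quadFormOdd m F)) := by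
  have : CharP F p := charP_of_card_eq_prime_pow hF
  have hp2 : p ≠ 2 := by rintro rfl; exact absurd hodd (by decide)
  have h2 : (2 : F) ≠ 0 := CfH2.two_ne_zero_of_odd_card (hF ▸ hodd.pow)
  have h := CfH2.qwf_qOdd h2 m
  have hρ := CfH2.rep_O (CfH2.qOdd m F)
  have hd : Module.finrank F (Unit ⊕ (Fin m ⊕ Fin m) → F) = 2 * m + 1 := by simp; ring
  have hod : Odd (Module.finrank F (Unit ⊕ (Fin m ⊕ Fin m) → F)) := hd ▸ odd_two_mul_add_one m
  obtain ⟨x, -, hx0, hx⟩ := CfH2.exists_singular (CfH2.qOdd m F) ⊤ (by rw [finrank_top]; omega)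
  have htop : (hρ.setup_omega h (by omega)).Ind = ⊤ := by
    rw [eq_top_iff]
    intro α _
    refine (hρ.omega_dichotomy p h (by omega) hx hx0 α).resolve_right ?_
    rintro ⟨W, -, h8, -⟩
    omega
  have h1 := hρ.card_Ind_omega p h f hF (by omega) fun s => ⟨_, _, CfH2.isSim_qOdd m s⟩
  rw [htop, Subgroup.card_top, hρ.card_scalar_omega h (by omega),
    if_neg hp2, if_neg (fun hc => CfH2.Rep.neg_one_not_mem _ h2 hod hc.2),
    Nat.card_congr (Equiv.subtypeEquivRight (CfH2.mult_iff_odd h hod)), ← hF,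
    ← CfH2.two_mul_card_sq h2] at h1
  have h3 : 0 < Nat.card {l : F // l ≠ 0 ∧ IsSquare l} := by
    have : Nonempty {l : F // l ≠ 0 ∧ IsSquare l} := ⟨⟨1, one_ne_zero, IsSquare.one⟩⟩
    exact Nat.card_pos
  rw [← CfH2.coe_qOdd]
  apply Nat.eq_of_mul_eq_mul_right (Nat.mul_pos two_pos h3)
  rw [h1]; ring

end Cfsg.Agent.S0816
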