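import Cfsg.Statements.S0817
import Cfsg.Agent.OD.Pre
import Cfsg.Agent.H2.Triality
import Cfsg.Agent.H2.AutO2
import Cfsg.Agent.H2.Parity
import Cfsg.Agent.S0790

set_option autoImplicit false
open Cfsg

namespace Cfsg.Agent.S0817

/-- |Aut(PΩ⁺_2m(q))| for q = p^f, m ≥ 4: |PΩ⁺_2m(q)| times f, times 3 when m = 4, times 2 if p = 2, and times 8 or 4 if p is odd according as m(q−1)/2 is even or odd. -/
theorem result {F : Type*} [Field F] [Fintype F] (p f : ℕ) [Fact p.Prime] (hf : 1 ≤ f) (hF : Fintype.card F = p ^ f) (m : ℕ) (hm : 4 ≤ m) : Nat.card (MulAut (Cfsg.POmega F (Cfsg.quadFormPlus m F))) = (if m = 4 then 3 else 1) * (if p = 2 then 2 else (if Even (m * (p ^ f - 1) / 2) then 8 else 4)) * f * Nat.card (Cfsg.POmega F (Cfsg.quadFormPlus m F)) := by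
  have : CharP F p := charP_of_card_eq_prime_pow hF
  have h := CfH2.qwf_of_nondeg (CfH2.nondeg_qPlus (F := F) m)
  have hρ := CfH2.rep_O (CfH2.qPlus m F)
  have hd : Module.finrank F (Fin m ⊕ Fin m → F) = 2 * m := by simp; omega
  obtain ⟨x, -, hx0, hx⟩ := CfH2.exists_singular (CfH2.qPlus m F) ⊤
    (by rw [finrank_top]; omega)
  have hind : (hρ.setup_omega h (by omega)).Ind.index = if m = 4 then 3 else 1 := by
    split_ifs with h4
    · subst h4
      exact CfH2.index_Ind_four hρ p
    · rw [Subgroup.index_eq_one, eq_top_iff]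
      intro α _
      refine (hρ.omega_dichotomy p h (by omega) hx hx0 α).resolve_right ?_
      rintro ⟨W, -, h8, -⟩
      omega
  have h1 := hρ.card_Ind_omega p h f hF (by omega)
    fun s => ⟨_, _, CfH2.isSim_qPlus m s one_ne_zero⟩
  rw [CfH2.card_ne_zero_mult (F := F) (fun l => ⟨fun ⟨g, hg⟩ => hg.ne,
      fun hl => ⟨_, CfH2.isSim_qPlus m _ hl⟩⟩), hF] at h1
  have h3 : 0 < p ^ f - 1 := by
    have := Fintype.one_lt_card (α := F)
    omega
  have key : (if p = 2 then 2 else 4) * Nat.card {c : F // ∃ g, ∀ v,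
      CfH2.omRep (CfH2.oRep (CfH2.qPlus m F)) g v = c • v} =
      (if p = 2 then 2 else (if Even (m * (p ^ f - 1) / 2) then 8 else 4)) := by
    rw [hρ.card_scalar_omega h (by omega)]
    by_cases hp : p = 2
    · subst hp
      have : (2 : F) = 0 := CharP.cast_eq_zero F 2
      simp [this]
    · have hodd : Odd (p ^ f) := ((Fact.out : p.Prime).odd_of_ne_two hp).pow
      have h2 : (2 : F) ≠ 0 := CfH2.two_ne_zero_of_odd_card (hF ▸ hodd)
      have h4 := Cfsg.Agent.S0790.result hF hodd m (by omega)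
      rw [← CfH2.coe_qPlus] at h4
      have h5 : (∃ g ∈ commutator _, ∀ v, CfH2.oRep (CfH2.qPlus m F) g v = -v) ↔
          Even (m * (p ^ f - 1) / 2) := by
        rw [CfH2.even_half_iff hodd, ← h4]
        refine exists_congr fun g => and_congr_right fun _ => ⟨fun hg => ?_, fun hg v => ?_⟩
        · exact CfH2.matrix_ext_mulVec fun v => by
            rw [← CfH2.oRep_apply, hg]; simp [Matrix.neg_mulVec]
        · rw [CfH2.oRep_apply, hg]; simp [Matrix.neg_mulVec]
      simp only [if_neg hp, h5, ne_eq, h2, not_false_eq_true, true_and]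
      split_ifs <;> rfl
  rw [← CfH2.coe_qPlus, ← key, ← ((hρ.setup_omega h (by omega)).Ind).card_mul_index, hind]
  apply Nat.eq_of_mul_eq_mul_right h3
  rw [mul_right_comm, h1]; ring

end Cfsg.Agent.S0817
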