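import Cfsg.Statements.S0818
import Cfsg.Agent.OD.Pre
import Cfsg.Agent.H2.AutO2
import Cfsg.Agent.H2.Parity
import Cfsg.Agent.S0791

set_option autoImplicit false
open Cfsg

namespace Cfsg.Agent.S0818

/-- |Aut(PΩ⁻_2m(q))| for q = p^f, m ≥ 4 (form quadFormMinus (m−1) with anisotropic binary part): |PΩ⁻_2m(q)| times f, times 2 if p = 2, and times 4 or 8 if p is odd according as m(q−1)/2 is even or odd. -/
theorem result {F : Type*} [Field F] [Fintype F] (p f : ℕ) [Fact p.Prime] (hf : 1 ≤ f) (hF : Fintype.card F = p ^ f) (m : ℕ) (hm : 4 ≤ m) (a b : F) (hab : ∀ z₁ z₂ : F, z₁ ^ 2 + a * z₁ * z₂ + b * z₂ ^ 2 = 0 → z₁ = 0 ∧ z₂ = 0) : Nat.card (MulAut (Cfsg.POmega F (Cfsg.quadFormMinus (m - 1) F a b))) = (if p = 2 then 2 else (if Even (m * (p ^ f - 1) / 2) then 4 else 8)) * f * Nat.card (Cfsg.POmega F (Cfsg.quadFormMinus (m - 1) F a b)) := by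
  have : CharP F p := charP_of_card_eq_prime_pow hF
  have h := CfH2.qwf_of_nondeg (CfH2.nondeg_qMinus hab (m - 1))
  have hρ := CfH2.rep_O (CfH2.qMinus (m - 1) F a b)
  have hd : Module.finrank F ((Fin (m - 1) ⊕ Fin (m - 1)) ⊕ Fin 2 → F) = 2 * m := by simp; omega
  obtain ⟨x, -, hx0, hx⟩ := CfH2.exists_singular (CfH2.qMinus (m - 1) F a b) ⊤
    (by rw [finrank_top]; omega)
  have htop : (hρ.setup_omega h (by omega)).Ind = ⊤ := by
    rw [eq_top_iff]
    intro α _
    refine (hρ.omega_dichotomy p h (by omega) hx hx0 α).resolve_right ?_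
    rintro ⟨W, h4, h8, hW, -⟩
    have := CfH2.finrank_le_qMinus hab _ hW
    omega
  have h1 := hρ.card_Ind_omega p h f hF (by omega)
    fun s => ⟨_, CfH2.exists_sim_qMinus hab _ s one_ne_zero⟩
  rw [htop, Subgroup.card_top,
    CfH2.card_ne_zero_mult (fun l => ⟨fun ⟨g, hg⟩ => hg.ne,
      fun hl => CfH2.exists_sim_qMinus hab _ _ hl⟩), hF] at h1
  have h3 : 0 < p ^ f - 1 := by
    have := Fintype.one_lt_card (α := F)
    omega
  have key : (if p = 2 then 2 else 4) * Nat.card {c : F // ∃ g, ∀ v,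
      CfH2.omRep (CfH2.oRep (CfH2.qMinus (m - 1) F a b)) g v = c • v} =
      (if p = 2 then 2 else (if Even (m * (p ^ f - 1) / 2) then 4 else 8)) := by
    rw [hρ.card_scalar_omega h (by omega)]
    by_cases hp : p = 2
    · subst hp
      have : (2 : F) = 0 := CharP.cast_eq_zero F 2
      simp [this]
    · have hodd : Odd (p ^ f) := ((Fact.out : p.Prime).odd_of_ne_two hp).pow
      have h2 : (2 : F) ≠ 0 := CfH2.two_ne_zero_of_odd_card (hF ▸ hodd)
      have h4 := Cfsg.Agent.S0791.result hF hodd m (by omega) a b hab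
      rw [← CfH2.coe_qMinus] at h4
      have h5 : (∃ g ∈ commutator _, ∀ v, CfH2.oRep (CfH2.qMinus (m - 1) F a b) g v = -v) ↔
          ¬ Even (m * (p ^ f - 1) / 2) := by
        rw [CfH2.even_half_iff hodd, ← (by
          have := Nat.odd_iff.1 (hodd.pow (n := m))
          omega : (p ^ f) ^ m % 4 = 3 ↔ ¬ (p ^ f) ^ m % 4 = 1), ← h4]
        refine exists_congr fun g => and_congr_right fun _ => ⟨fun hg => ?_, fun hg v => ?_⟩
        · exact CfH2.matrix_ext_mulVec fun v => by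
            rw [← CfH2.oRep_apply, hg]; simp [Matrix.neg_mulVec]
        · rw [CfH2.oRep_apply, hg]; simp [Matrix.neg_mulVec]
      simp only [if_neg hp, h5, ne_eq, h2, not_false_eq_true, true_and]
      split_ifs <;> rfl
  rw [← CfH2.coe_qMinus, ← key]
  apply Nat.eq_of_mul_eq_mul_right h3
  rw [h1]; ring

end Cfsg.Agent.S0818
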