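import Cfsg.Statements.S0819
import Cfsg.Agent.H3.F4
-- import your own Cfsg.Agent.* helpers here

set_option autoImplicit false
open Cfsg

namespace Cfsg.Agent.S0819

/-- Multiplication by `X` modulo `X³ - a X² + b X - 1`. -/
def step {R : Type*} [CommRing R] (a b : R) (c : R × R × R) : R × R × R :=
  (c.2.2, c.1 - b * c.2.2, c.2.1 + a * c.2.2)

theorem pow_eq {R : Type*} [CommRing R] (g : Matrix (Fin 3) (Fin 3) R) (hg : g.det = 1) (k : ℕ) :
    g ^ k = ((step g.trace g.adjugate.trace)^[k] (1, 0, 0)).1 • 1 +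
      ((step g.trace g.adjugate.trace)^[k] (1, 0, 0)).2.1 • g +
      ((step g.trace g.adjugate.trace)^[k] (1, 0, 0)).2.2 • (g * g) := by
  have h : g * g * g = g.trace • (g * g) - g.adjugate.trace • g + g.det • 1 := by
    ext i j
    fin_cases i <;> fin_cases j <;>
      simp [Matrix.mul_apply, Fin.sum_univ_three, Matrix.trace_fin_three, Matrix.det_fin_three,
        Matrix.adjugate_fin_three] <;> ring
  induction k with
  | zero => simp
  | succ k ih =>
    rw [pow_succ, ih, Function.iterate_succ_apply', add_mul, add_mul, smul_mul_assoc,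
      smul_mul_assoc, smul_mul_assoc, h, hg, one_mul]
    simp only [step]
    module

theorem key : ∀ a b : CfH3.F4, ∃ k ∈ [3, 4, 5, 7], ((step a b)^[k] (1, 0, 0)).2 = (0, 0) := by
  decide +kernel

/-- No element of PSL_3(4) has order 15. -/
theorem result {F : Type*} [Field F] [Fintype F] (hF : Fintype.card F = 4) (g : Matrix.ProjectiveSpecialLinearGroup (Fin 3) F) : orderOf g ≠ 15 := by
  obtain ⟨e⟩ := CfH3.nonempty_equiv_F4 hF
  obtain ⟨φ⟩ := CfH3.psl_equiv_of_ringEquiv (n := Fin 3) e
  rw [← φ.orderOf_eq]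
  generalize φ g = x
  induction x using QuotientGroup.induction_on with | H g =>
  obtain ⟨k, hk, h⟩ := key g.1.trace g.1.adjugate.trace
  have h1 := pow_eq g.1 g.2 k
  rw [congrArg Prod.fst h, congrArg Prod.snd h, zero_smul, zero_smul, add_zero, add_zero] at h1
  have h2 : (g : Matrix.ProjectiveSpecialLinearGroup (Fin 3) CfH3.F4) ^ k = 1 := by
    rw [← QuotientGroup.mk_pow]
    exact CfH3.psl_mk_eq_one_of_smul h1
  intro h3
  rw [← orderOf_dvd_iff_pow_eq_one, h3] at h2
  clear h h1
  revert k
  decide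

end Cfsg.Agent.S0819
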