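import Cfsg.Statements.S0820
import Cfsg.Agent.H3.SL2Basic
import Cfsg.Agent.H2.Form2
-- import your own Cfsg.Agent.* helpers here

set_option autoImplicit false
open Cfsg

namespace Cfsg.Agent.S0820

/-- The elementary transvection. -/
def E (F : Type*) [Field F] : Matrix.SpecialLinearGroup (Fin 3) F :=
  ⟨!![1, 0, 1; 0, 1, 0; 0, 0, 1], by simp [Matrix.det_fin_three]⟩

theorem isConj_E {F : Type*} [Field F] (t : Matrix.SpecialLinearGroup (Fin 3) F)
    (h : (t.1 - 1) * (t.1 - 1) = 0) (h1 : t ≠ 1) : IsConj (E F) t := by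
  let f := Matrix.toLin' (t.1 - 1)
  have hf : ∀ x, f (f x) = 0 := fun x => by
    simp only [f, Matrix.toLin'_apply, Matrix.mulVec_mulVec, h, Matrix.zero_mulVec]
  obtain ⟨x, hx⟩ : ∃ x, f x ≠ 0 := by
    by_contra! h2
    apply h1
    have h3 : f = 0 := LinearMap.ext h2
    exact Subtype.ext (sub_eq_zero.1 (Matrix.toLin'.map_eq_zero_iff.1 h3))
  have h2 : LinearMap.range f ≤ LinearMap.ker f := by rintro _ ⟨y, rfl⟩; exact hf y
  have h3 := f.finrank_range_add_finrank_ker
  have h4 := Submodule.finrank_mono h2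
  obtain ⟨y, hy, hy'⟩ := CfH2.exists_mem_notMem_of_finrank_lt (X := Submodule.span F {f x})
    (W := LinearMap.ker f) (by
      rw [finrank_span_singleton hx]
      simp only [Module.finrank_fin_fun] at h3
      omega)
  have h5 : LinearIndependent F ![f x, y, x] := by
    rw [Fintype.linearIndependent_iff]
    intro c hc
    simp only [Fin.sum_univ_three, Matrix.cons_val_zero, Matrix.cons_val_one, Matrix.cons_val] at hc
    have h6 := congrArg f hc
    rw [map_add, map_add, map_smul, map_smul, map_smul, hf, show f y = 0 from hy, map_zero] at h6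
    have h7 : c 2 = 0 := by simpa [hx] using h6
    have h8 : c 1 = 0 := by
      by_contra h9
      apply hy'
      rw [h7, zero_smul, add_zero] at hc
      refine Submodule.mem_span_singleton.2 ⟨-(c 1)⁻¹ * c 0, ?_⟩
      rw [mul_smul, eq_neg_of_add_eq_zero_left hc]
      simp [smul_smul, h9]
    have h9 : c 0 = 0 := by simpa [h7, h8, hx] using hc
    intro i
    fin_cases i <;> assumption
  let P : Matrix (Fin 3) (Fin 3) F := (Matrix.of ![f x, y, x]).transpose
  have hP : P.det ≠ 0 := by
    rw [Matrix.det_transpose]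
    exact ((Matrix.isUnit_iff_isUnit_det _).1
      (Matrix.linearIndependent_rows_iff_isUnit.1 h5)).ne_zero
  have h6 : t.1 * P = P * (E F).1 := by
    have h7 : ∀ z, t.1.mulVec z = f z + z := fun z => by
      simp [f, Matrix.sub_mulVec]
    ext i j
    have h8 : (t.1 * P) i j = t.1.mulVec (![f x, y, x] j) i := rfl
    rw [h8, h7]
    fin_cases j <;> simp [P, E, Matrix.mul_apply, Fin.sum_univ_three, hf, show f y = 0 from hy]
  refine isConj_iff.2 ⟨⟨P * Matrix.diagonal ![1, P.det⁻¹, 1], ?_⟩, ?_⟩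
  · simp [Matrix.det_diagonal, Fin.prod_univ_three, hP]
  · refine mul_inv_eq_iff_eq_mul.2 (Subtype.ext ?_)
    change P * Matrix.diagonal ![1, P.det⁻¹, 1] * (E F).1 = t.1 * (P * Matrix.diagonal ![1, P.det⁻¹, 1])
    rw [← Matrix.mul_assoc, h6, Matrix.mul_assoc, Matrix.mul_assoc]
    congr 1
    ext i j
    fin_cases i <;> fin_cases j <;> simp [E, Matrix.mul_apply, Fin.sum_univ_three]

/-- Any two elements of order 2 of PSL_3(4) are conjugate. -/
theorem result {F : Type*} [Field F] [Fintype F] (hF : Fintype.card F = 4) (x y : Matrix.ProjectiveSpecialLinearGroup (Fin 3) F) (hx : orderOf x = 2) (hy : orderOf y = 2) : IsConj x y := by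
  have h2 : (2 : F) = 0 := by
    have h := FiniteField.cast_card_eq_zero F
    rw [hF] at h
    exact (pow_eq_zero_iff (n := 2) (by norm_num)).1 (by rw [← h]; norm_num)
  have key : ∀ x : Matrix.ProjectiveSpecialLinearGroup (Fin 3) F, orderOf x = 2 →
      IsConj ((E F : Matrix.SpecialLinearGroup (Fin 3) F) :
        Matrix.ProjectiveSpecialLinearGroup (Fin 3) F) x := by
    intro x hx
    rw [orderOf_eq_prime_iff] at hx
    obtain ⟨g, hg⟩ := QuotientGroup.mk_surjective x
    obtain ⟨c, hc⟩ := CfH3.psl_mk_eq_one_iff.1 (show ((g ^ 2 : Matrix.SpecialLinearGroup (Fin 3) F) :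
      Matrix.ProjectiveSpecialLinearGroup (Fin 3) F) = 1 by rw [QuotientGroup.mk_pow, hg, hx.1])
    have h3 : c ^ 3 = 1 := by
      have := (g ^ 2).2
      rw [hc] at this
      simpa using this
    have h4 : ((g ^ 3 : Matrix.SpecialLinearGroup (Fin 3) F) :
        Matrix.ProjectiveSpecialLinearGroup (Fin 3) F) = x := by
      rw [QuotientGroup.mk_pow, hg, pow_succ, hx.1, one_mul]
    have h5 : (g ^ 3).1 * (g ^ 3).1 = 1 := by
      rw [← Matrix.SpecialLinearGroup.coe_mul, ← pow_add, show 3 + 3 = 2 * 3 from rfl, pow_mul,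
        Matrix.SpecialLinearGroup.coe_pow, hc, smul_pow, h3]
      simp
    rw [← h4]
    refine (QuotientGroup.mk' _).map_isConj (isConj_E (g ^ 3) ?_ fun h => hx.2 ?_)
    · have h6 : ((g ^ 3).1 - 1) * ((g ^ 3).1 - 1) = (2 : F) • (1 - (g ^ 3).1) := by
        rw [sub_mul, mul_sub, mul_sub, h5]
        simp only [mul_one, one_mul]
        module
      rw [h6, h2, zero_smul]
    · rw [← h4, h]; rfl
  exact (key x hx).symm.trans (key y hy)

end Cfsg.Agent.S0820
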