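import Cfsg.Statements.S0821
import Cfsg.Agent.OD.Pre
import Cfsg.Agent.H2.AutSp

set_option autoImplicit false
open Cfsg

namespace Cfsg.Agent.S0821

/-- PSp_2m(q) ≇ PΩ_(2m+1)(q) for q odd and m ≥ 3 (they have the same order). -/
theorem result {F : Type*} [Field F] [Fintype F] (hodd : Odd (Fintype.card F)) (m : ℕ) (hm : 3 ≤ m) : IsEmpty (Cfsg.PSp m F ≃* Cfsg.POmega F (Cfsg.quadFormOdd m F)) := by
  refine ⟨fun β => ?_⟩
  rw [← CfH2.coe_qOdd] at β
  obtain ⟨p, hp⟩ := CharP.exists F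
  have : Fact p.Prime := ⟨CharP.char_is_prime F p⟩
  have h2 : (2 : F) ≠ 0 := CfH2.two_ne_zero_of_odd_card hodd
  have h := CfH2.qwf_qOdd h2 m
  have hd : Module.finrank F (Unit ⊕ (Fin m ⊕ Fin m) → F) = 2 * m + 1 := by simp; ring
  have hd' : Module.finrank F (Fin m ⊕ Fin m → F) = 2 * m := by simp; ring
  have S := (CfH2.rep_O (CfH2.qOdd m F)).setup_omega h (by omega)
  have h' := CfH2.isWF_symp m F
  have S' := (CfH2.rep_sp m F).setup_sp h' (by omega)
  obtain ⟨x, -, hx0, hx⟩ := CfH2.exists_singular (CfH2.qOdd m F) ⊤ (by rw [finrank_top]; omega)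
  obtain ⟨x1, hx1⟩ := S'.nontriv
  have hab := CfH2.Qx_comm h hx hx0
  obtain ⟨W, hW0, hW, hWW, hle⟩ := S.exists_RG_le p S' β.symm hx hx0
    (S.irr_of_caseI p (CfH2.caseI_quad (by omega)) hx hx0) (x1 := x1) rfl hx1
  rcases S.finrank_eq_one_or p S' β.symm hab hW0 hW hWW hle with h1 | h1
  · obtain ⟨z, hz, hz0⟩ := Submodule.exists_mem_ne_zero_of_ne_bot hW0
    have : (F ∙ z) = W := Submodule.eq_of_le_of_finrank_eq
      ((Submodule.span_singleton_le_iff_mem _ _).2 hz) (by rw [finrank_span_singleton hz0, h1])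
    subst this
    obtain ⟨a, ha, b, hb, hne⟩ := h'.exists_Qx_noncomm
      ⟨1, fun h => h2 (by simp only [map_one] at h; linear_combination h)⟩ S'.dim (x := z) rfl hz0
    obtain ⟨a, rfl⟩ := S'.unip z rfl a ha
    obtain ⟨b, rfl⟩ := S'.unip z rfl b hb
    obtain ⟨a1, ha1, e1⟩ := hle (β (QuotientGroup.mk' _ a)) (by simpa using ⟨a, ha, rfl⟩)
    obtain ⟨b1, hb1, e2⟩ := hle (β (QuotientGroup.mk' _ b)) (by simpa using ⟨b, hb, rfl⟩)
    have e3 : a1 * b1 = b1 * a1 := S.inj (by rw [map_mul, map_mul]; exact hab _ ha1 _ hb1)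
    apply hne
    rw [← map_mul, ← map_mul]
    congr 1
    refine S'.eq_of_pi p (S'.pe_of_RW p (W := F ∙ z) (by rw [map_mul]; exact mul_mem ha hb))
      (S'.pe_of_RW p (W := F ∙ z) (by rw [map_mul]; exact mul_mem hb ha)) (β.injective ?_)
    rw [map_mul, map_mul, map_mul, map_mul, ← e1, ← e2, ← map_mul, e3, map_mul]
  · have h3 := S.card_max_le p S' β.symm hx hx0 hW hWW h1 hle
    have h4 := h'.finrank_perp W
    rw [le_antisymm h1 hWW, hd'] at h4
    rw [hd, CfH2.card_ker_id, mul_one, show Module.finrank F W = m by omega] at h3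
    have := CfH2.le_two_of_card h3
    omega

end Cfsg.Agent.S0821
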