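import Cfsg.Statements.S0822
import Cfsg.Agent.H3.Match2
import Cfsg.Agent.H2.Symp
-- import your own Cfsg.Agent.* helpers here

set_option autoImplicit false
open Cfsg

namespace Cfsg.Agent.S0822

open CfH3 Matrix

/-- A primitive cube root of unity. -/
def w : F4 := ⟨0, 1⟩

/-- Its square. -/
def v : F4 := ⟨1, 1⟩

/-- The non-isotropic points of the unitary space. -/
def U (i : Fin 40) (k : Fin 4) : F4 :=
  ⟨(950715413700001383603784368294200351467839488710207093896718607273999361875685183354939363299392 / 4 ^ (4 * i.1 + k.1) : ℕ),
   (950715413700001383603784368294200351467839488710207093896718607273999361875685183354939363299392 / 4 ^ (4 * i.1 + k.1) / 2 : ℕ)⟩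

/-- The points of the symplectic space. -/
def W (i : Fin 40) (k : Fin 2 ⊕ Fin 2) : ZMod 3 :=
  (1413512708290641075708407444772247325226745237186987241922657217640797678296831065883759403339840 / 4 ^ (4 * i.1 + k.elim (·.1) (·.1 + 2)) % 4 : ℕ)

/-- The action of the transvections. -/
def T (i k : Fin 40) : Fin 40 :=
  Fin.ofNat 40 (477786287296605037536261173664344693445835475370757275375320331158379206598333563273254030700800568978762679828109951236660028838104749694766329795128405985484230424112964820451189811535215524773739808049391464624803997912022295956032893811608079383342975072028020954033915753464408466167427396959989690366587343289624400638713201543774157868564569399648964853631837409384323327734235950481810049208118986910875701488637522041501420002576087549793017789541080445914114012030517705494795045454570443156895010474437973384107351058453114987192528831743185394227999452687805308175894429318105124926223172280367217960936274646307537178873897569760172628439050260472393709791035480664434017264713726189928195523668923821932466272379984509224954338756340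0069997670574214430905894348146764308596934965561534208600616457878044909473624175987996280329794750115010524910256609637656949932775260122066460166708741075603999132342766598079294186197666816651638013215426971109005413570188931910847125597949045238672334192025335316370103910778484498492453764398363414317219050259344519660485574124696203586143912746818738861035405811888706744948871607931306539666611937978265212910920681059388161036994075471582657036649448116853197797641740486313427278208009445286808394824811928000547680840476932573627258875746221295226293400604108983033980943442490219151154059486605379323097391627217313626285133713320772730998023577175865956192170189111231171660091013429137703830801590890851308639034302018614414553004327264436498511785185435893781962228178566900483551003867881423281916343206577838794935006386153029271824464066055870408091635631754061133031030630620333033562682375176639818367386932176640146772709996399999131120956756486690956804623531671664733912500388064502881851727498095898705463555976921371098235944496227769598355117592096097351730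257727219343492182704479970369368970951131699769952635840951896344497085887358500323829185313102039248788457455420380238194448324751843720023724268923338107362773702575734338556223542173416410497814336001663847157623024155188523274846239234575721309492687047436192791225740298001431958311650728540247923145840238634817394911418569599743368776867469059372615235280826671591490684420593308504615434363798966088883741642665425362849945595326855076587484659425331421253412954171529086441923415271631584095331355080462168507137258848862822536270903037125291321396791484113590205460977524897903552120921828564185397216809992366198546097465921068614381942633171665413320464187386111531631664850398971874954577916083443864907445159864631267199597919319615233993696362781626591813960037177552993524477635209805561619782788016961531995591549884480050902998515183535216258085171100212495375083696325696804630756679308589584678939044344124793338493230212332594117976711352920243410669425823346774229719141266377617817558079033625691053918927283019126500767342745541681216 / 64 ^ (40 * i.1 + k.1) %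 64)

theorem U_inj : ∀ i j, ∀ c : F4, (∀ k, U i k = c * U j k) → i = j := by decide +kernel

theorem W_inj : ∀ i j, ∀ c : ZMod 3, (∀ k, W i k = c * W j k) → i = j := by decide +kernel

theorem W_all : ∀ x : Fin 2 ⊕ Fin 2 → ZMod 3, ∃ i, ∃ c : ZMod 3, ∀ k, x k = c * W i k := by
  decide +kernel

theorem U_norm : ∀ i, ∑ k, U i k * U i k ^ 2 = 1 := by decide +kernel

theorem U_match : ∀ i j, ∃ c : F4, c ≠ 0 ∧ ∀ k,
    v * U j k + U i k * ∑ l, w * U i l ^ 2 * U j l = c * U (T i j) k := by
  decide +kernel

theorem W_match : ∀ i j, ∃ c : ZMod 3, c ≠ 0 ∧ ∀ k,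
    W j k + (∑ l, (W j (.inr l) * W i (.inl l) - W j (.inl l) * W i (.inr l))) * W i k =
      c * W (T i j) k := by
  decide +kernel

/-- The unitary reflections, scaled to determinant one. -/
def R (i : Fin 40) : Matrix (Fin 4) (Fin 4) F4 := v • 1 + vecMulVec (U i) fun l => w * U i l ^ 2

theorem R_det (i : Fin 40) : (R i).det = 1 := by
  have h : R i = v • (1 + replicateCol Unit (U i) * replicateRow Unit fun l => v * U i l ^ 2) := by
    rw [← vecMulVec_eq, R, smul_add]
    congr 1
    ext a b : 1
    simp only [vecMulVec_apply, Matrix.smul_apply, smul_eq_mul]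
    rw [show w = v * v by decide]; ring
  rw [h, det_smul, det_one_add_replicateCol_mul_replicateRow]
  have h1 : (fun l => v * U i l ^ 2) ⬝ᵥ U i = v := by
    simp only [dotProduct, mul_assoc, ← Finset.mul_sum, mul_comm (U i _ ^ 2), U_norm, mul_one]
  rw [h1]
  decide +kernel

theorem R_cols : ∀ a i j, ∑ k, R a k i * R a k j ^ 2 = if i = j then 1 else 0 := by
  decide +kernel

/-- The reflections as elements of `SU₄(2)`. -/
def RSU (a : Fin 40) : Cfsg.SU 4 F4 2 :=
  ⟨⟨R a, R_det a⟩, mem_SU_of_cols (q := 2) card_F4 _ (R_cols a)⟩

theorem nonempty_equiv : Nonempty (Cfsg.PSp 2 (ZMod 3) ≃* Cfsg.PSU 4 F4 2) := by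
  let m : Cfsg.SU 4 F4 2 →* Matrix (Fin 4) (Fin 4) F4 :=
    (Cfsg.slToMat 4 F4).comp (Cfsg.SU 4 F4 2).subtype
  have h1 := moves_mulVec m U fun i j c h => U_inj i j c (congrFun h)
  have h1' := moves_mulVec (Cfsg.spToMat 2 (ZMod 3)) W fun i j c h => W_inj i j c (congrFun h)
  let t : Fin 40 → symplecticGroup (Fin 2) (ZMod 3) := fun i =>
    ⟨_, CfH2.sympTransvection_mem 2 (W i) 1⟩
  have h2 : matched h1 h1' = ⊤ := by
    have h3 : ∀ i, t i ∈ matched h1 h1' := fun i => ⟨RSU i, fun j => ⟨T i j, by
      obtain ⟨c, hc, h⟩ := U_match i j
      refine ⟨c, hc, funext fun k => Eq.trans ?_ (h k)⟩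
      change (R i *ᵥ U j) k = _
      rw [R, add_mulVec, smul_mulVec, one_mulVec, vecMulVec_mulVec]
      rfl, by
      obtain ⟨c, hc, h⟩ := W_match i j
      refine ⟨c, hc, funext fun k => Eq.trans ?_ (h k)⟩
      change (Cfsg.sympTransvection 2 (W i) 1 *ᵥ W j) k = _
      rw [CfH2.sympTransvection_mulVec, one_mul, CfH2.sympB_apply, CfH2.sympForm_eq_sum]
      rfl⟩⟩
    rw [eq_top_iff, ← CfH2.sp_closure_transvections, Subgroup.closure_le]
    rintro A ⟨x, c, hA⟩
    obtain ⟨i, d, hd⟩ := W_all x
    have h4 : A = t i ^ (c * d * d).val := by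
      have h5 : ∀ n : ℕ, (t i ^ n).1 = Cfsg.sympTransvection 2 (W i) n := by
        intro n
        induction n with
        | zero => simp [Cfsg.sympTransvection]
        | succ n ih =>
          rw [pow_succ, Submonoid.coe_mul, ih]
          apply CfH2.matrix_ext_mulVec
          intro y
          rw [← mulVec_mulVec]
          simp only [t, CfH2.sympTransvection_mulVec, map_add, map_smul, LinearMap.add_apply,
            LinearMap.smul_apply, CfH2.sympB_self, Nat.cast_succ]
          module
      apply Subtype.ext
      rw [h5, hA, ZMod.natCast_zmod_val, show x = d • W i from funext hd]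
      apply CfH2.matrix_ext_mulVec
      intro y
      simp only [CfH2.sympTransvection_mulVec, map_smul]
      module
    rw [h4]
    exact pow_mem (h3 i) _
  have h3 : ∀ a : Cfsg.SU 4 F4 2, (∀ i, ∃ c : F4, c ≠ 0 ∧ m a *ᵥ U i = c • U i) →
      a ∈ Subgroup.center _ := by
    intro a ha
    obtain ⟨c, hc⟩ := scalar_of_frame (m a) !![0, 0, 0, 1; 0, 0, 1, w; 0, 1, 0, 0; 1, 0, 0, 1]
      !![1, 0, 0, 1; 0, 0, 1, 0; w, 1, 0, 0; 1, 0, 0, 0] (by decide +kernel) (fun j => by
        obtain ⟨c, -, hc⟩ := ha (![0, 1, 2, 5] j)
        have hd : ∀ j k, @Eq F4 (!![0, 0, 0, 1; 0, 0, 1, w; 0, 1, 0, 0; 1, 0, 0, 1] k j)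
          (U (![0, 1, 2, 5] j) k) := by decide +kernel
        exact ⟨c, by rw [← funext (hd j)] at hc; exact hc⟩) (by
        obtain ⟨c, -, hc⟩ := ha 15
        have hd : !![0, 0, 0, 1; 0, 0, 1, w; 0, 1, 0, 0; 1, 0, 0, 1] *ᵥ 1 = U 15 := by
          decide +kernel
        exact ⟨c, by rw [hd, hc]⟩)
    rw [Subgroup.mem_center_iff]
    intro g
    refine Subtype.ext (Subtype.ext ?_)
    change m g * m a = m a * m g
    rw [hc]; simp
  have hne : ∀ {G ι F : Type} [Group G] [Fintype ι] [DecidableEq ι] [Field F]
      (m : G →* Matrix ι ι F) (a : G) (x : ι → F) (c : F), x ≠ 0 → m a *ᵥ x = c • x → c ≠ 0 := by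
    rintro G ι F _ _ _ _ m a x c hx h rfl
    apply hx
    have h4 := congrArg (m a⁻¹ *ᵥ ·) h
    simpa [mulVec_mulVec, ← map_mul] using h4
  obtain ⟨ψ, hψ⟩ := exists_hom_of_matched h1 h1' h2 (Subgroup.center _) (fun a => by
    refine ⟨fun ha i => ?_, h3 a⟩
    have h4 : ∀ i, U i ≠ 0 ∧ (fun l => w * U i l ^ 2) ≠ 0 := by decide +kernel
    obtain ⟨c, hc⟩ := fix_of_commute (g := m a) (r := R i) rfl (h4 i).2
      (congrArg (fun g => g.1.1) (Subgroup.mem_center_iff.1 ha (RSU i))).symm
    exact ⟨c, hne m a _ c (h4 i).1 hc, hc⟩)
  have h4 : ∀ b : symplecticGroup (Fin 2) (ZMod 3), ψ b = 1 → ∃ c : ZMod 3, b.1 = c • 1 := by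
    intro b hb
    rw [hψ] at hb
    refine scalar_of_frame b.1 1 1 (by simp) (fun j => ?_) ?_
    · obtain ⟨c, -, hc⟩ := hb (j.elim ![13, 4] ![1, 0])
      have hd : ∀ j k, @Eq (ZMod 3) ((1 : Matrix (Fin 2 ⊕ Fin 2) (Fin 2 ⊕ Fin 2) (ZMod 3)) k j)
        (W (j.elim ![13, 4] ![1, 0]) k) := by decide +kernel
      exact ⟨c, by rw [← funext (hd j)] at hc; exact hc⟩
    · obtain ⟨c, -, hc⟩ := hb 26
      have hd : (1 : Matrix (Fin 2 ⊕ Fin 2) (Fin 2 ⊕ Fin 2) (ZMod 3)) *ᵥ 1 = W 26 := by
        decide +kernel
      exact ⟨c, by rw [hd]; exact hc⟩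
  have h5 : Subgroup.center (symplecticGroup (Fin 2) (ZMod 3)) = ψ.ker := by
    ext b
    constructor
    · intro hb
      rw [MonoidHom.mem_ker, hψ]
      intro i
      have h6 : ∀ i, W i ≠ 0 ∧ J (Fin 2) (ZMod 3) *ᵥ W i ≠ 0 := by decide +kernel
      obtain ⟨c, hc⟩ := fix_of_commute (g := b.1) (r := (t i).1) (a := 1) (v := W i)
        (by simp [t, Cfsg.sympTransvection]) (h6 i).2
        (congrArg Subtype.val (Subgroup.mem_center_iff.1 hb (t i))).symm
      exact ⟨c, hne (Cfsg.spToMat 2 (ZMod 3)) b _ c (h6 i).1 hc, hc⟩
    · intro hb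
      obtain ⟨c, hc⟩ := h4 b hb
      rw [Subgroup.mem_center_iff]
      intro g
      apply Subtype.ext
      rw [Submonoid.coe_mul, Submonoid.coe_mul, hc]; simp
  let χ : Cfsg.PSp 2 (ZMod 3) →* Cfsg.PSU 4 F4 2 := QuotientGroup.lift _ ψ h5.le
  have h6 : Function.Injective χ := (QuotientGroup.injective_lift_iff _ _ _).2 h5
  have h7 := card_SU (q := 2) card_F4 (n := 4) (by norm_num)
  have h8 := card_Sp (ZMod.card 3) 2
  have h9 := Subgroup.card_eq_card_quotient_mul_card_subgroup (Subgroup.center (Cfsg.SU 4 F4 2))
  have h10 := Subgroup.card_eq_card_quotient_mul_card_subgroup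
    (Subgroup.center (symplecticGroup (Fin 2) (ZMod 3)))
  have h11 : Nat.card (Subgroup.center (symplecticGroup (Fin 2) (ZMod 3))) ≤ 2 := by
    choose c hc using fun b : Subgroup.center (symplecticGroup (Fin 2) (ZMod 3)) =>
      h4 b.1 (h5.le b.2)
    have h12 : ∀ b, c b ≠ 0 := fun b h => by
      have h13 := SymplecticGroup.symplectic_det b.1.2
      rw [hc, h] at h13
      simp at h13
    have h13 := Nat.card_le_card_of_injective (fun b => Units.mk0 (c b) (h12 b)) fun b b' h =>
      Subtype.ext (Subtype.ext (by rw [hc, hc, show c b = c b' from congrArg Units.val h]))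
    simpa [Nat.totient_prime Nat.prime_three] using h13
  refine ⟨MulEquiv.ofBijective χ ((Nat.bijective_iff_injective_and_card χ).2 ⟨h6, le_antisymm
    (Nat.card_le_card_of_injective χ h6) ?_⟩)⟩
  have h12 : 0 < Nat.card (Subgroup.center (Cfsg.SU 4 F4 2)) := Nat.card_pos
  simp only [Finset.prod_range_succ, Finset.prod_range_zero, Nat.even_iff] at h7 h8
  norm_num at h7 h8
  nlinarith

/-- PSU_4(2) ≅ PSp_4(3): with |F| = 4 and |K| = 3, the projective special unitary group of the standard Hermitian form on F^4 is isomorphic to PSp_4(K). -/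
theorem result {F K : Type*} [Field F] [Fintype F] [Field K] [Fintype K] (hF : Fintype.card F = 4) (hK : Fintype.card K = 3) : Nonempty (Cfsg.PSU 4 F 2 ≃* Cfsg.PSp 2 K) := by
  obtain ⟨e⟩ := CfH3.nonempty_equiv_F4 hF
  obtain ⟨e₁⟩ := CfH3.su_equiv e 4 2
  obtain ⟨e'⟩ := CfH3.nonempty_equiv_zmod (p := 3) hK
  obtain ⟨e₂⟩ := nonempty_equiv
  exact ⟨(CfH3.centerQuotEquiv e₁).trans (e₂.symm.trans (CfH3.centerQuotEquiv (CfH3.spEquiv e' 2)).symm)⟩

end Cfsg.Agent.S0822
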