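import Cfsg.Statements.S0823
import Cfsg.Agent.H3.PermMod
import Cfsg.Agent.OD.Helper3x3d9fff2671
-- import your own Cfsg.Agent.* helpers here

set_option autoImplicit false
open Cfsg

namespace Cfsg.Agent.S0823

/-- Coordinates on the vectors of sum zero. -/
def C : Matrix (Unit ⊕ Fin 1 ⊕ Fin 1) (Fin 4) (ZMod 3) := Matrix.of (Sum.elim
  (fun _ => ![0, 0, 2, 1]) (Sum.elim ![![2, 0, 2, 2]] ![![0, 1, 1, 1]]))

/-- A basis. -/
def S : Matrix (Fin 4) (Unit ⊕ Fin 1 ⊕ Fin 1) (ZMod 3) := (Matrix.of (Sum.elim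
  (fun _ => ![0, 0, 1, 2]) (Sum.elim ![![0, 1, 1, 1]] ![![2, 0, 2, 2]]))).transpose

/-- The form. -/
abbrev Q : (Unit ⊕ Fin 1 ⊕ Fin 1 → ZMod 3) → ZMod 3 := Cfsg.quadFormOdd 1 (ZMod 3)

theorem hCS : CfH3.PermSub C S :=
  .of_matrix 0 (fun i => (S * C) i 0 - (if i = 0 then 1 else 0)) (by decide +kernel)
    (by decide +kernel) (by decide +kernel) (Or.inr rfl)

theorem swap_mem : ∀ i j : Fin 4, i ≠ j →
    (-(1 - Matrix.vecMulVec (C.transpose i - C.transpose j) (S i - S j))).det = 1 ∧ ∀ u,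
    Q ((-(1 - Matrix.vecMulVec (C.transpose i - C.transpose j) (S i - S j))).mulVec u) = Q u := by
  decide +kernel

/-- The singular vectors. -/
def s (i : Fin 4) : Unit ⊕ Fin 1 ⊕ Fin 1 → ZMod 3 := C.mulVec (Pi.single i 1 - 1)

theorem s_sing : ∀ i, Q (s i) = 0 := by decide +kernel

theorem s_add : ∀ i j, i ≠ j → Q (s i + s j) = 2 := by decide +kernel

theorem s_inj : ∀ i j, ∀ a : ZMod 3, a • s i = s j → i = j := by decide +kernel

theorem s_pair : ∀ i j, ∀ a b : ZMod 3, Q (a • s i + b • s j) = 2 → i ≠ j ∧ a = b := by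
  decide +kernel

theorem exists_s : ∀ v, Q v = 0 → ∃ i, ∃ a : ZMod 3, v = a • s i := by decide +kernel

theorem span : ∀ w, w = ∑ i, S.mulVec w i • s i := by decide +kernel

/-- SO_3(3) ≅ S_4: the determinant-one isometries of the form x_0² + x_1y_1 over the field with 3 elements form a group isomorphic to the symmetric group on 4 letters. -/
theorem result {F : Type*} [Field F] [Fintype F] (hF : Fintype.card F = 3) : Nonempty (↥(Cfsg.specialIsometryGroup F (Cfsg.quadFormOdd 1 F)) ≃* Equiv.Perm (Fin 4)) := by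
  obtain ⟨e⟩ := CfH3.nonempty_equiv_zmod (p := 3) hF
  obtain ⟨ψ, hψ⟩ := CfH3.isometryGroup_equiv e (Cfsg.quadFormOdd 1 F) Q
    (fun u => by simp [Cfsg.quadFormOdd])
  obtain ⟨ψ', -⟩ := CfH3.subgroup_equiv_of_iff ψ
    (H := Cfsg.specialIsometryGroup F (Cfsg.quadFormOdd 1 F))
    (H' := Cfsg.specialIsometryGroup (ZMod 3) Q) (fun g => by
      have h1 : (ψ g).1.1.det = e g.1.1.det := by
        rw [hψ]; exact (RingHom.map_det e.toRingHom _).symm
      change Matrix.GeneralLinearGroup.det g.1 = 1 ↔ Matrix.GeneralLinearGroup.det (ψ g).1 = 1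
      rw [Units.ext_iff, Units.ext_iff]
      change g.1.1.det = 1 ↔ (ψ g).1.1.det = 1
      rw [h1, map_eq_one_iff _ e.injective])
  let f₀ : Equiv.Perm (Fin 4) →* Matrix (Unit ⊕ Fin 1 ⊕ Fin 1) (Unit ⊕ Fin 1 ⊕ Fin 1) (ZMod 3) :=
    { toFun := fun σ => ((Equiv.Perm.sign σ : ℤ) : ZMod 3) • hCS.hom σ
      map_one' := by simp
      map_mul' := fun σ τ => by simp [smul_smul, mul_comm] }
  have hs : ∀ i j, i ≠ j → f₀ (Equiv.swap i j) =
      -(1 - Matrix.vecMulVec (C.transpose i - C.transpose j) (S i - S j)) := by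
    intro i j h
    change ((Equiv.Perm.sign (Equiv.swap i j) : ℤ) : ZMod 3) • hCS.hom _ = _
    rw [hCS.hom_swap, Equiv.Perm.sign_swap h]
    simp
  let f := f₀.toHomUnits
  have h1 : ∀ σ, f σ ∈ Cfsg.isometryGroup (ZMod 3) Q :=
    CfH3.forall_mem_of_swap f _ fun i j h u _ => by
      change Q ((f₀ (Equiv.swap i j)).mulVec u) = _
      rw [hs i j h]
      exact (swap_mem i j h).2 u
  have h1' : ∀ σ, f.codRestrict _ h1 σ ∈ Cfsg.specialIsometryGroup (ZMod 3) Q :=
    CfH3.forall_mem_of_swap _ _ fun i j h => Units.ext (by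
      change (f₀ (Equiv.swap i j)).det = 1
      rw [hs i j h]
      exact (swap_mem i j h).1)
  let φ := (f.codRestrict _ h1).codRestrict _ h1'
  have h0 : ∀ σ i, (hCS.hom σ).mulVec (s i) = s (σ i) := by
    intro σ i
    rw [s, hCS.hom_mulVec _ _ (by revert i; decide +kernel), s]
    congr 1
    ext k
    simp [Pi.single_apply, Equiv.symm_apply_eq]
  have h2 : Function.Injective φ := by
    rw [injective_iff_map_eq_one]
    intro σ h
    have h3 : ((Equiv.Perm.sign σ : ℤ) : ZMod 3) • hCS.hom σ = 1 := congrArg (fun g => g.1.1.1) h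
    ext1 i
    refine s_inj _ _ ((Equiv.Perm.sign σ : ℤ) : ZMod 3) ?_
    rw [← h0, ← Matrix.smul_mulVec, h3, Matrix.one_mulVec]; rfl
  have h3 : Function.Surjective φ := by
    intro g
    choose σ a hσ using fun i => exists_s (g.1.1.1.mulVec (s i)) ((g.1.2 _ 0).trans (s_sing i))
    have h4 : ∀ i j, i ≠ j → σ i ≠ σ j ∧ a i = a j := by
      intro i j h
      refine s_pair _ _ _ _ ?_
      rw [← hσ, ← hσ, ← Matrix.mulVec_add]
      exact (g.1.2 _ 0).trans (s_add i j h)
    have h5 : Function.Injective σ := fun i j h => by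
      by_contra h6
      exact (h4 i j h6).1 h
    have h6 : ∀ i, a i = a 0 := fun i => by
      by_cases h : i = 0
      · rw [h]
      · exact (h4 i 0 h).2
    let τ := Equiv.ofBijective σ (Finite.injective_iff_bijective.1 h5)
    have h7 : g.1.1.1 = a 0 • hCS.hom τ := by
      refine Matrix.toLin'.injective (LinearMap.ext fun w => ?_)
      change g.1.1.1.mulVec w = (a 0 • hCS.hom τ).mulVec w
      rw [span w]
      simp only [Matrix.mulVec_sum, Matrix.mulVec_smul, Matrix.smul_mulVec, h0, hσ, h6, τ,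
        Equiv.ofBijective_apply]
    refine ⟨τ, Subtype.ext (Subtype.ext (Units.ext ?_))⟩
    have hd : ∀ g : Cfsg.specialIsometryGroup (ZMod 3) Q, g.1.1.1.det = 1 := fun g =>
      congrArg Units.val g.2
    have h8 := hd g
    have h9 := hd (φ τ)
    change (((Equiv.Perm.sign τ : ℤ) : ZMod 3) • hCS.hom τ).det = 1 at h9
    rw [h7] at h8 ⊢
    change ((Equiv.Perm.sign τ : ℤ) : ZMod 3) • hCS.hom τ = _
    rw [Matrix.det_smul] at h8 h9
    have h10 : ∀ x y z : ZMod 3, x ^ 3 * z = 1 → y ^ 3 * z = 1 → x = y := by decide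
    rw [h10 _ _ _ h9 h8]
  exact ⟨ψ'.trans (MulEquiv.ofBijective φ ⟨h2, h3⟩).symm⟩

end Cfsg.Agent.S0823
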