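import Cfsg.Statements.S0825
import Cfsg.Agent.H3.PermMod
import Cfsg.Agent.H2.StdQuad
-- import your own Cfsg.Agent.* helpers here

set_option autoImplicit false
open Cfsg

namespace Cfsg.Agent.S0825

/-- Coordinates on the even weight vectors modulo the all-one vector. -/
def C : Matrix (Fin 3 ⊕ Fin 3) (Fin 8) (ZMod 2) := Matrix.of (Sum.elim
  ![![0, 0, 1, 0, 1, 1, 1, 0], ![0, 1, 1, 1, 0, 1, 0, 0], ![1, 1, 0, 0, 0, 1, 1, 0]]
  ![![0, 0, 0, 1, 1, 1, 1, 0], ![0, 1, 1, 1, 0, 0, 1, 0], ![1, 0, 1, 1, 1, 0, 0, 0]])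

/-- A hyperbolic basis. -/
def S : Matrix (Fin 8) (Fin 3 ⊕ Fin 3) (ZMod 2) := (C.submatrix Sum.swap id).transpose

theorem hCS : CfH3.PermSub C S :=
  .of_matrix (Pi.single 7 1) (fun i => (S * C) i 0 + (if i = 0 then 1 else 0)) (by decide +kernel)
    (by decide +kernel) (by decide +kernel) (Or.inl (by decide +kernel))

theorem swap_mem : ∀ i j : Fin 8, i ≠ j →
    Cfsg.quadFormPlus 3 (ZMod 2) (C.transpose i - C.transpose j) = 1 ∧
    ∀ k, Cfsg.polarVec (Cfsg.quadFormPlus 3 (ZMod 2)) (C.transpose i - C.transpose j) k =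
      (S i - S j) k := by
  decide +kernel

theorem exists_swap : ∀ v : Fin 3 ⊕ Fin 3 → ZMod 2, Cfsg.quadFormPlus 3 (ZMod 2) v = 1 →
    ∃ i j : Fin 8, i ≠ j ∧ ∀ k, v k = (C.transpose i - C.transpose j) k := by
  decide +kernel

theorem hom_swap {i j : Fin 8} (h : i ≠ j) : hCS.hom (Equiv.swap i j) =
    Cfsg.reflectionMatrix (Cfsg.quadFormPlus 3 (ZMod 2)) (C.transpose i - C.transpose j) := by
  rw [hCS.hom_swap, Cfsg.reflectionMatrix, (swap_mem i j h).1, funext (swap_mem i j h).2, inv_one,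
    one_smul]

/-- O⁺_6(2) ≅ S_8: the isometry group of the hyperbolic form x_1y_1 + x_2y_2 + x_3y_3 over the field with 2 elements is isomorphic to the symmetric group on 8 letters. -/
theorem result {F : Type*} [Field F] [Fintype F] (hF : Fintype.card F = 2) : Nonempty (↥(Cfsg.isometryGroup F (Cfsg.quadFormPlus 3 F)) ≃* Equiv.Perm (Fin 8)) := by
  obtain ⟨e⟩ := CfH3.nonempty_equiv_zmod (p := 2) hF
  obtain ⟨ψ, -⟩ := CfH3.isometryGroup_equiv e (Cfsg.quadFormPlus 3 F) (Cfsg.quadFormPlus 3 (ZMod 2))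
    (fun u => by simp [Cfsg.quadFormPlus])
  let f := hCS.hom.toHomUnits
  have h1 : ∀ σ, f σ ∈ Cfsg.isometryGroup (ZMod 2) (Cfsg.quadFormPlus 3 (ZMod 2)) :=
    CfH3.forall_mem_of_swap f _ fun i j h u _ => by
      change Cfsg.quadFormPlus 3 (ZMod 2) ((hCS.hom (Equiv.swap i j)).mulVec u) = _
      rw [hom_swap h, ← CfH2.coe_qPlus, CfH2.reflectionMatrix_mulVec]
      exact CfH2.Q_orth (CfH2.rf_mem _ _) u
  let φ := f.codRestrict _ h1
  have h2 : Function.Injective φ := CfH3.injective_of_threeCycle (by simp) φ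
    (σ := Equiv.swap 0 1 * Equiv.swap 1 2) (by decide) (fun h => by
      have h3 : hCS.hom (Equiv.swap 0 1 * Equiv.swap 1 2) = 1 :=
        congrArg (fun g => g.1.1) h
      rw [map_mul, hCS.hom_swap, hCS.hom_swap] at h3
      revert h3
      decide +kernel)
  have h3 : Function.Surjective φ := by
    rw [← MonoidHom.range_eq_top, eq_top_iff]
    have h4 := (CfH2.rep_O (CfH2.qPlus 3 (ZMod 2))).closure_eq_top (T := CfH2.rfSet _)
      (S := {g | ∃ v, CfH2.qPlus 3 (ZMod 2) v ≠ 0 ∧ g.1.1 =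
        Cfsg.reflectionMatrix (CfH2.qPlus 3 (ZMod 2)) v}) (by
        rintro _ ⟨v, hv, rfl⟩
        obtain ⟨g, hg⟩ := (CfH2.rep_O _).surj _ (CfH2.rf_mem (CfH2.qPlus 3 (ZMod 2)) v)
        exact ⟨g, ⟨v, hv, (CfH2.oRep_eq_rf_iff _ g v).1 hg⟩, hg⟩)
      (CfH2.orth_le_closure_rf (CfH2.qwf_of_nondeg (CfH2.nondeg_qPlus 3)) (Or.inr (by simp)))
    rw [CfH2.coe_qPlus] at h4
    rw [← h4, Subgroup.closure_le]
    rintro g ⟨v, hv, hg⟩
    have hv1 : Cfsg.quadFormPlus 3 (ZMod 2) v = 1 := by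
      revert hv; generalize Cfsg.quadFormPlus 3 (ZMod 2) v = c; revert c; decide
    obtain ⟨i, j, hij, h5⟩ := exists_swap v hv1
    refine ⟨Equiv.swap i j, Subtype.ext (Units.ext ?_)⟩
    rw [hg, funext h5]
    exact hom_swap hij
  exact ⟨ψ.trans (MulEquiv.ofBijective φ ⟨h2, h3⟩).symm⟩

end Cfsg.Agent.S0825
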