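import Cfsg.Statements.S0826
import Cfsg.Agent.H3.PermMod
import Cfsg.Agent.H2.Bridge
import Cfsg.Agent.H2.Disc
-- import your own Cfsg.Agent.* helpers here

set_option autoImplicit false
open Cfsg

namespace Cfsg.Agent.S0826

/-- S_2n ≤ Sp_(2n−2)(2) for n ≥ 3: there is an injective homomorphism from the symmetric group on 2n letters into the symplectic group of degree 2n − 2 over the field with two elements. -/
theorem result (n : ℕ) (hn : 3 ≤ n) : ∃ f : Equiv.Perm (Fin (2 * n)) →* Matrix.symplecticGroup (Fin (n - 1)) (ZMod 2), Function.Injective f := by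
  obtain ⟨k, rfl⟩ : ∃ k, n = k + 3 := ⟨n - 3, by omega⟩
  let α := Fin (2 * (k + 3))
  let z : α := ⟨0, by omega⟩
  let z' : α := ⟨1, by omega⟩
  have hzz : z' ≠ z := by simp [z, z', α]
  have h2 : (2 : ZMod 2) = 0 := rfl
  have hcard : (Fintype.card α : ZMod 2) = 0 := by simp [α, h2]
  let φ : (α → ZMod 2) →ₗ[ZMod 2] ZMod 2 × ZMod 2 :=
    LinearMap.prod (∑ i, LinearMap.proj i) (LinearMap.proj z)
  have hφ : ∀ x, φ x = (∑ i, x i, x z) := fun x => by simp [φ]
  let U := LinearMap.ker φ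
  have hU : ∀ x, x ∈ U ↔ ∑ i, x i = 0 ∧ x z = 0 := fun x => by
    rw [LinearMap.mem_ker, hφ, Prod.mk_eq_zero]
  have hdim : Module.finrank (ZMod 2) U = 2 * (k + 2) := by
    have h1 := φ.finrank_range_add_finrank_ker
    have h3 : LinearMap.range φ = ⊤ := by
      rw [eq_top_iff]
      rintro ⟨a, b⟩ -
      refine ⟨Pi.single z b + Pi.single z' (a - b), ?_⟩
      simp [hφ, Finset.sum_add_distrib, hzz, hzz.symm]
    rw [h3] at h1
    simp only [finrank_top, Module.finrank_prod, Module.finrank_self, Module.finrank_fintype_fun_eq_card,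
      Fintype.card_fin, α] at h1
    change 1 + 1 + Module.finrank (ZMod 2) U = _ at h1
    omega
  let B : LinearMap.BilinForm (ZMod 2) U := (Matrix.toBilin' 1).compl₁₂ U.subtype U.subtype
  have hB : ∀ x y : U, B x y = x.1 ⬝ᵥ y.1 := fun x y => by simp [B, Matrix.toBilin'_apply']
  have hsq : ∀ x : α → ZMod 2, x ⬝ᵥ x = ∑ i, x i := fun x =>
    Finset.sum_congr rfl fun i _ => by generalize x i = c; revert c; decide
  have hnd : ∀ y : U, (∀ x, B x y = 0) → y = 0 := by
    intro y hy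
    have h3 : ∀ i, i ≠ z → y.1 i = y.1 z' := by
      intro i hi
      have h4 := hy ⟨Pi.single i 1 - Pi.single z' 1, (hU _).2 ⟨by simp, by simp [hi.symm, hzz.symm]⟩⟩
      rw [hB] at h4
      simpa [sub_eq_zero] using h4
    obtain ⟨h4, h5⟩ := (hU _).1 y.2
    have h6 : ∑ i, y.1 i = ∑ i : α, (y.1 z' - (Pi.single z (y.1 z') : α → ZMod 2) i) :=
      Finset.sum_congr rfl fun i _ => by
        by_cases h : i = z
        · simp [h, h5]
        · simp [h, h3 i h]
    have h7 : y.1 z' = 0 := by simpa [h4, hcard] using h6.symm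
    ext i
    by_cases h : i = z
    · rw [h, h5]; rfl
    · rw [h3 i h, h7]; rfl
  obtain ⟨m, b, hb1, hb2, hb3⟩ := CfH2.exists_symp_basis' B
    (fun x => by rw [hB, hsq, ((hU _).1 x.2).1]) hnd
  obtain rfl : m = k + 2 := by
    rw [Module.finrank_eq_card_basis b] at hdim
    simp at hdim
    omega
  have hsymm : ∀ x y, B x y = B y x := fun x y => by rw [hB, hB, dotProduct_comm]
  obtain ⟨e, -, he⟩ := CfH2.exists_equiv_of_gram (B := B) (B' := CfH2.sympB (k + 2) (ZMod 2)) b
    (Pi.basisFun _ _) (by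
      have hn : (-1 : ZMod 2) = 1 := rfl
      rintro (i | i) (j | j)
      · simp [hb2, CfH2.sympB_apply, CfH2.sympForm_eq_sum]
      · simp [hb1, CfH2.sympB_apply, CfH2.sympForm_eq_sum, Pi.single_apply, eq_comm, apply_ite, hn]
      · rw [hsymm]
        simp [hb1, CfH2.sympB_apply, CfH2.sympForm_eq_sum, Pi.single_apply, eq_comm]
      · simp [hb3, CfH2.sympB_apply, CfH2.sympForm_eq_sum])
  let π : (α → ZMod 2) →ₗ[ZMod 2] U := LinearMap.codRestrict U
    (LinearMap.id + (LinearMap.proj z).smulRight (1 : α → ZMod 2) +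
      (∑ i, LinearMap.proj i : (α → ZMod 2) →ₗ[ZMod 2] ZMod 2).smulRight (Pi.single z' 1)) (by
      intro x
      rw [hU]
      simp [Finset.sum_add_distrib, hcard, ← Finset.mul_sum, hzz.symm, CharTwo.add_self_eq_zero])
  have hπ : ∀ x, ∑ i, x i = 0 → (π x).1 = x + x z • 1 := fun x hx => by
    simp [π, hx]
  let C := LinearMap.toMatrix' (e.toLinearMap ∘ₗ π)
  let S := LinearMap.toMatrix' (U.subtype ∘ₗ e.symm.toLinearMap)
  have hC : ∀ x, C.mulVec x = e (π x) := fun x => by simp [C, ← Matrix.toLin'_apply]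
  have hS : ∀ w, S.mulVec w = (e.symm w).1 := fun x => by simp [S, ← Matrix.toLin'_apply]
  have hπU : ∀ x : U, π x.1 = x := fun x => Subtype.ext (by
    rw [hπ _ ((hU _).1 x.2).1, ((hU _).1 x.2).2]; simp)
  have hCS : CfH3.PermSub C S := ⟨by
    refine Matrix.toLin'.injective (LinearMap.ext fun w => ?_)
    simp [← Matrix.mulVec_mulVec, hC, hS, hπU], fun w => by rw [hS]; exact ((hU _).1 (e.symm w).2).1,
    fun x hx => ⟨x z, by rw [hS, hC, e.symm_apply_apply, hπ x hx], by
      have : π 1 = 0 := Subtype.ext (by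
        rw [hπ 1 (by simpa using hcard)]; ext i; simp [CharTwo.add_self_eq_zero])
      rw [hC, this]; simp⟩⟩
  have hdot : ∀ x y : α → ZMod 2, ∑ i, x i = 0 → ∑ i, y i = 0 →
      CfH2.sympB (k + 2) (ZMod 2) (C.mulVec x) (C.mulVec y) = x ⬝ᵥ y := by
    intro x y hx hy
    rw [hC, hC, he, hB, hπ x hx, hπ y hy]
    simp [hx, hy, hcard, one_dotProduct, dotProduct_one, Finset.sum_add_distrib]
  have hmem : ∀ σ, hCS.hom σ ∈ Matrix.symplecticGroup (Fin (k + 2)) (ZMod 2) := by
    intro σ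
    rw [CfH2.mem_symplecticGroup_iff]
    intro u v
    have h3 : ∀ w, ∑ i, (S.mulVec w ∘ σ.symm) i = 0 := fun w =>
      (Equiv.sum_comp σ.symm _).trans (hCS.sum w)
    rw [hCS.hom_mulVec', hCS.hom_mulVec', hdot _ _ (h3 u) (h3 v), comp_equiv_dotProduct_comp_equiv,
      ← hdot _ _ (hCS.sum u) (hCS.sum v), Matrix.mulVec_mulVec, Matrix.mulVec_mulVec, hCS.one,
      Matrix.one_mulVec, Matrix.one_mulVec]
  let f : Equiv.Perm α →* Matrix.symplecticGroup (Fin (k + 2)) (ZMod 2) :=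
    hCS.hom.codRestrict _ hmem
  refine ⟨f, ?_⟩
  let a : α := ⟨2, by omega⟩
  let b : α := ⟨3, by omega⟩
  let c : α := ⟨4, by omega⟩
  refine CfH3.injective_of_threeCycle (by simp [α]; omega) f (σ := Equiv.swap z' a * Equiv.swap z' b)
    (by simp [Equiv.Perm.sign_swap', z', a, b, α]) fun h => ?_
  have h3 : hCS.hom (Equiv.swap z' a * Equiv.swap z' b) = 1 := congrArg Subtype.val h
  have h4 : ∑ i, (Pi.single a 1 - Pi.single c 1 : α → ZMod 2) i = 0 := by simp
  have h5 : ∑ i, (Pi.single a 1 - Pi.single z 1 : α → ZMod 2) i = 0 := by simp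
  have h6 := hCS.hom_mulVec (Equiv.swap z' a * Equiv.swap z' b) _ h4
  rw [h3, Matrix.one_mulVec] at h6
  have h7 := hdot _ _ h4 h5
  rw [h6, hdot (_ ∘ _) _ ((Equiv.sum_comp _ _).trans h4) h5] at h7
  simp [Equiv.Perm.mul_def, Pi.single_apply, Equiv.swap_apply_def, z, z', a, b, c, α] at h7

end Cfsg.Agent.S0826
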