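import Cfsg.Statements.S0827
import Cfsg.Agent.H3.Match2
-- import your own Cfsg.Agent.* helpers here

set_option autoImplicit false
open Cfsg

namespace Cfsg.Agent.S0827

open CfH3 Matrix

/-- The translation group. -/
abbrev N : Type := Multiplicative (ZMod 3 × ZMod 3)

/-- The matrix `i`. -/
def mi (p : ZMod 3 × ZMod 3) : ZMod 3 × ZMod 3 := (-p.2, p.1)

/-- The action of the quaternion group. -/
def act : QuaternionGroup 2 → N → N
  | .a k, p => mi^[k.val] p
  | .xa k, p => ((mi^[k.val] p).1 + (mi^[k.val] p).2, (mi^[k.val] p).1 - (mi^[k.val] p).2)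

theorem act_mul : ∀ g h p, act (g * h) p = act g (act h p) := by decide +kernel

theorem act_one : ∀ p, act 1 p = p := by decide +kernel

theorem act_add : ∀ g p r, act g (p * r) = act g p * act g r := by decide +kernel

/-- The action as a homomorphism. -/
def φ : QuaternionGroup 2 →* MulAut N where
  toFun g :=
    { toFun := act g
      invFun := act g⁻¹
      left_inv := fun p => by rw [← act_mul, inv_mul_cancel, act_one]
      right_inv := fun p => by rw [← act_mul, mul_inv_cancel, act_one]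
      map_mul' := act_add g }
  map_one' := MulEquiv.ext act_one
  map_mul' g h := MulEquiv.ext (act_mul g h)

/-- The group `3² : Q₈`. -/
abbrev Γ : Type := N ⋊[φ] QuaternionGroup 2

theorem moves_Γ : Moves fun (g : Γ) (i j : N) => g.left * act g.right i = j := by
  refine ⟨?_, ?_, by simp [act_one]⟩
  · rintro a a' i _ _ rfl rfl
    change a'.left * act a'.right a.left * act (a'.right * a.right) i = _
    rw [act_mul, act_add, mul_assoc]
  · rintro a i _ rfl
    change act a.right⁻¹ a.left⁻¹ * act a.right⁻¹ _ = i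
    rw [← act_add, inv_mul_cancel_left, ← act_mul, inv_mul_cancel, act_one]

/-- A primitive cube root of unity. -/
def w : F4 := ⟨0, 1⟩

/-- Its square. -/
def v : F4 := ⟨1, 1⟩

/-- The isotropic points. -/
def u (p : N) : Fin 3 → F4 :=
  ![![![0, 1, 1], ![1, 0, 1], ![1, 1, 0]], ![![0, 1, w], ![1, 0, v], ![1, w, 0]],
    ![![0, 1, v], ![1, 0, w], ![1, v, 0]]] p.toAdd.1 p.toAdd.2

theorem u_inj : ∀ i j, ∀ c : F4, u i = c • u j → i = j := by decide +kernel

/-- Generators. -/
def gen : Fin 5 → Matrix (Fin 3) (Fin 3) F4 :=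
  ![!![1, 0, 0; 0, w, 0; 0, 0, v], !![0, 0, 1; 1, 0, 0; 0, 1, 0],
    !![1, 1, 1; 1, v, w; 1, w, v], !![1, w, w; v, v, w; v, w, v], !![w, 0, 0; 0, w, 0; 0, 0, w]]

theorem gen_det : ∀ a, (gen a).det = 1 := by
  simp only [det_fin_three]; decide +kernel

theorem gen_cols : ∀ a i j, ∑ k, gen a k i * gen a k j ^ 2 = if i = j then 1 else 0 := by
  decide +kernel

/-- Generators as elements of `SU₃(2)`. -/
def genSU (a : Fin 5) : Cfsg.SU 3 F4 2 :=
  ⟨⟨gen a, gen_det a⟩, mem_SU_of_cols (q := 2) card_F4 _ (gen_cols a)⟩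

/-- The matching generators of `Γ`. -/
def genΓ : Fin 4 → Γ := ![⟨.ofAdd (1, 0), 1⟩, ⟨.ofAdd (0, 1), 1⟩, ⟨1, .a 1⟩, ⟨1, .xa 0⟩]

theorem gen_match : ∀ (a : Fin 4) (i : N), ∃ c : F4, c ≠ 0 ∧
    gen a.castSucc *ᵥ u i = c • u ((genΓ a).left * act (genΓ a).right i) := by
  decide +kernel

theorem gen_all : ∀ g : N × QuaternionGroup 2, ∃ a b : Fin 3, ∃ c : Fin 4, ∃ d : Fin 2,
    (⟨g.1, g.2⟩ : Γ) = genΓ 0 ^ a.1 * genΓ 1 ^ b.1 * genΓ 2 ^ c.1 * genΓ 3 ^ d.1 := by
  decide +kernel

theorem nonempty_equiv : Nonempty (Γ ≃* Cfsg.PSU 3 F4 2) := by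
  let m : Cfsg.SU 3 F4 2 →* Matrix (Fin 3) (Fin 3) F4 :=
    (Cfsg.slToMat 3 F4).comp (Cfsg.SU 3 F4 2).subtype
  have h1 := moves_mulVec m u u_inj
  have h2 : matched h1 moves_Γ = ⊤ := by
    have h3 : ∀ a, genΓ a ∈ matched h1 moves_Γ := fun a =>
      ⟨genSU a.castSucc, fun i => ⟨_, gen_match a i, rfl⟩⟩
    rw [eq_top_iff]
    intro g _
    obtain ⟨a, b, c, d, h⟩ := gen_all (g.left, g.right)
    change (⟨g.left, g.right⟩ : Γ) ∈ _
    rw [h]
    exact mul_mem (mul_mem (mul_mem (pow_mem (h3 _) _) (pow_mem (h3 _) _)) (pow_mem (h3 _) _))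
      (pow_mem (h3 _) _)
  have h3 : ∀ (a : Cfsg.SU 3 F4 2) (c : F4), m a = c • 1 → a ∈ Subgroup.center _ := by
    intro a c h
    rw [Subgroup.mem_center_iff]
    intro g
    refine Subtype.ext (Subtype.ext ?_)
    change m g * m a = m a * m g
    rw [h]; simp
  obtain ⟨ψ, hψ⟩ := exists_hom_of_matched h1 moves_Γ h2 (Subgroup.center _) (fun a => by
    constructor
    · intro ha i
      have h4 : ∀ k, gen k * a.1.1 = a.1.1 * gen k := fun k =>
        congrArg (fun g => g.1.1) (Subgroup.mem_center_iff.1 ha (genSU k))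
      have h5 : ∀ i j : Fin 3, i ≠ j → ∀ x : F4, ![1, w, v] i * x = x * ![1, w, v] j → x = 0 := by
        decide +kernel
      have h7 : a.1.1 = diagonal fun i => a.1.1 i i := by
        have e0 := h4 0
        rw [show gen 0 = diagonal ![1, w, v] by decide +kernel] at e0
        ext i j : 1
        by_cases hij : i = j
        · rw [hij, diagonal_apply_eq]
        · rw [diagonal_apply_ne _ hij]
          have e1 := congrFun (congrFun e0 i) j
          rw [diagonal_mul, mul_diagonal] at e1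
          exact h5 i j hij _ e1
      have h8 : ∀ d : Fin 3 → F4, gen 1 * diagonal d = diagonal d * gen 1 → diagonal d = d 0 • 1 := by
        decide +kernel
      have h6 : a.1.1 = a.1.1 0 0 • 1 := h7.trans (h8 _ (h7 ▸ h4 1))
      refine ⟨a.1.1 0 0, fun h => ?_, ?_⟩
      · have := a.1.2
        rw [h6, h] at this
        simp at this
      · change a.1.1 *ᵥ u i = _
        conv_lhs => rw [h6]
        simp [smul_mulVec]
    · intro ha
      obtain ⟨c, hc⟩ := scalar_of_frame (m a) !![0, 1, 0; 1, 0, 1; 1, 1, w] !![w, v, w; 1, 0, 0; w, w, w]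
        (by decide +kernel) (fun j => by
          obtain ⟨c, -, hc⟩ := ha (![.ofAdd (0, 0), .ofAdd (0, 1), .ofAdd (1, 0)] j)
          have hd : ∀ j k, @Eq F4 (!![0, 1, 0; 1, 0, 1; 1, 1, w] k j)
            (u (![.ofAdd (0, 0), .ofAdd (0, 1), .ofAdd (1, 0)] j) k) := by decide +kernel
          exact ⟨c, by rw [← funext (hd j)] at hc; exact hc⟩) (by
          obtain ⟨c, -, hc⟩ := ha (.ofAdd (2, 1))
          have hd : !![0, 1, 0; 1, 0, 1; 1, 1, w] *ᵥ 1 = u (.ofAdd (2, 1)) := by decide +kernel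
          exact ⟨c, by rw [hd, hc]⟩)
      exact h3 a c hc)
  have h4 : Function.Injective ψ := by
    rw [injective_iff_map_eq_one]
    intro g hg
    have h5 : ∀ g : N × QuaternionGroup 2, (∀ i, g.1 * act g.2 i = i) → g = 1 := by decide +kernel
    have h6 := h5 (g.left, g.right) ((hψ g).1 hg)
    exact SemidirectProduct.ext (congrArg Prod.fst h6) (congrArg Prod.snd h6)
  have h5 := card_SU (q := 2) card_F4 (n := 3) (by norm_num)
  have h6 := Subgroup.card_eq_card_quotient_mul_card_subgroup (Subgroup.center (Cfsg.SU 3 F4 2))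
  have h7 : 3 ∣ Nat.card (Subgroup.center (Cfsg.SU 3 F4 2)) := by
    have h8 : orderOf (genSU 4) = 3 := by
      refine orderOf_eq_prime (Subtype.ext (Subtype.ext ?_)) fun h => ?_
      · change gen 4 ^ 3 = 1
        decide +kernel
      · have : gen 4 = 1 := congrArg (fun g => g.1.1) h
        revert this
        decide +kernel
    exact h8.symm.dvd.trans <| Subgroup.orderOf_dvd_natCard _ (h3 (genSU 4) w (show gen 4 = w • 1 by decide +kernel))
  have h8 : Nat.card Γ = 72 := by
    rw [SemidirectProduct.card, Nat.card_eq_fintype_card (α := QuaternionGroup 2),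
      QuaternionGroup.card]
    simp [N]
  refine ⟨MulEquiv.ofBijective ψ ((Nat.bijective_iff_injective_and_card ψ).2 ⟨h4, le_antisymm
    (Nat.card_le_card_of_injective ψ h4) ?_⟩)⟩
  have h9 := Nat.le_of_dvd Nat.card_pos h7
  simp [Finset.prod_range_succ, Nat.even_iff] at h5
  rw [h8]
  nlinarith

/-- U_3(2) ≅ 3².Q_8: PSU_3(2) (form over the field with 4 elements) has a normal subgroup N which is elementary abelian of order 9 such that the quotient by N is isomorphic to the quaternion group of order 8. -/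
theorem result {F : Type*} [Field F] [Fintype F] (hF : Fintype.card F = 4) : ∃ (N : Subgroup (Cfsg.PSU 3 F 2)) (_ : N.Normal), Nat.card N = 9 ∧ (∀ x ∈ N, x ^ 3 = 1) ∧ Nonempty (Cfsg.PSU 3 F 2 ⧸ N ≃* QuaternionGroup 2) := by
  obtain ⟨e⟩ := CfH3.nonempty_equiv_F4 hF
  obtain ⟨e₁⟩ := CfH3.su_equiv e 3 2
  obtain ⟨e₂⟩ := nonempty_equiv
  let e₃ := (CfH3.centerQuotEquiv e₁).trans e₂.symm
  let π := SemidirectProduct.rightHom.comp e₃.toMonoidHom
  have h1 : ∀ x, x ∈ π.ker ↔ e₃ x ∈ (SemidirectProduct.inl : N →* Γ).range := fun x => by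
    rw [SemidirectProduct.range_inl_eq_ker_rightHom]; rfl
  refine ⟨π.ker, inferInstance, ?_, fun x hx => ?_, ⟨QuotientGroup.quotientKerEquivOfSurjective π
    (SemidirectProduct.rightHom_surjective.comp e₃.surjective)⟩⟩
  · obtain ⟨ψ, -⟩ := CfH3.subgroup_equiv_of_iff e₃ h1
    rw [Nat.card_congr ψ.toEquiv,
      ← Nat.card_congr (MonoidHom.ofInjective SemidirectProduct.inl_injective).toEquiv]
    simp [N]
  · obtain ⟨v, hv⟩ := (h1 x).1 hx
    apply e₃.injective
    rw [map_pow, ← hv, ← map_pow, map_one, (by decide +kernel : ∀ v : N, v ^ 3 = 1), map_one]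

end Cfsg.Agent.S0827
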