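import Cfsg.Statements.S0828
import Cfsg.Agent.OD.Pre
import Cfsg.Agent.H2.Count

set_option autoImplicit false
open Cfsg

namespace Cfsg.Agent.S0828

/-- The symplectic generalised quadrangle over a field with q elements: the number of 2-dimensional subspaces of F^4 on which the symplectic form vanishes is (q + 1)(q² + 1), and every non-zero vector lies in exactly q + 1 of them. -/
theorem result {F : Type*} [Field F] [Fintype F] {q : ℕ} (hF : Fintype.card F = q) : Nat.card {W : Submodule F (Fin 2 ⊕ Fin 2 → F) // Module.finrank F W = 2 ∧ ∀ u ∈ W, ∀ v ∈ W, Cfsg.sympForm 2 F u v = 0} = (q + 1) * (q ^ 2 + 1) ∧ ∀ v : Fin 2 ⊕ Fin 2 → F, v ≠ 0 → Nat.card {W : Submodule F (Fin 2 ⊕ Fin 2 → F) // Module.finrank F W = 2 ∧ v ∈ W ∧ ∀ u ∈ W, ∀ w ∈ W, Cfsg.sympForm 2 F u w = 0} = q + 1 := by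
  have h := CfH2.isWF_symp 2 F
  have hq : 2 ≤ q := hF ▸ Fintype.one_lt_card
  have hV : Module.finrank F (Fin 2 ⊕ Fin 2 → F) = 4 := by simp
  have e1 : 1 < q ^ 2 := by nlinarith
  have e2 : 1 < q ^ 4 := Nat.one_lt_pow (by omega) hq
  have e3 : q < q ^ 2 := by nlinarith
  have e4 : q < q ^ 3 := by nlinarith
  constructor
  · let W : Submodule F (Fin 2 ⊕ Fin 2 → F) :=
      Submodule.span F (Set.range fun i : Fin 2 => (Pi.single (Sum.inl i) 1 : Fin 2 ⊕ Fin 2 → F))
    have hWk : Module.finrank F W = 2 := by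
      rw [finrank_span_eq_card]
      · simp
      · exact (Pi.linearIndependent_single_one _ F).comp Sum.inl Sum.inl_injective
    have hWW : W ≤ CfH2.perp (CfH2.sympB 2 F) W := by
      rw [Submodule.span_le]
      rintro _ ⟨i, rfl⟩
      rw [SetLike.mem_coe, CfH2.mem_perp_span]
      rintro _ ⟨j, rfl⟩
      simp [CfH2.sympB_apply, CfH2.sympForm_eq_sum]
    have h1 := h.card_isom_eq_ts W (fun _ _ => rfl) hWW hWk
    have h2 := CfH2.card_fix_symp h 2 ⊥ CfH2.nondegOn_bot (by simp)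
    rw [CfH2.fixS_bot, inf_top_eq] at h2
    obtain ⟨H', h4, h5, h6⟩ := h.card_stab_sing 2 0 W (fun _ _ => rfl) hWW hWk hV
    rw [h6, h2, CfH2.card_fix_symp h 0 H' h4 (by omega), AddMonoidHom.ker_zero,
      AddSubgroup.card_top, Nat.card_eq_fintype_card, hF] at h1
    have h3 : Nat.card {W : Submodule F (Fin 2 ⊕ Fin 2 → F) // Module.finrank F W = 2 ∧ ∀ u ∈ W, ∀ v ∈ W, Cfsg.sympForm 2 F u v = 0} = {X : Submodule F (Fin 2 ⊕ Fin 2 → F) | Module.finrank F X = 2 ∧ (∀ w ∈ X, (0 : F) = 0) ∧ X ≤ CfH2.perp (CfH2.sympB 2 F) X}.ncard := by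
      rw [← Nat.card_coe_set_eq]
      exact Nat.card_congr (Equiv.subtypeEquivRight fun X => and_congr_right fun _ =>
        ⟨fun H => ⟨fun w hw => rfl, fun y hy x hx => (CfH2.sympB_apply _ _ _).trans (H x hx y hy)⟩,
          fun H u hu v hv => (CfH2.sympB_apply _ _ _).symm.trans (H.2 hv u hu)⟩)
    rw [h3]
    generalize Set.ncard _ = N at h1
    simp only [Finset.prod_range_succ, Fin.prod_univ_two] at h1
    norm_num at h1
    zify [e1.le, e2.le, e3.le] at h1 e1 e2 e3 hq ⊢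
    apply mul_left_cancel₀ (show ((q : ℤ) ^ 3 * (q ^ 2 - 1) * (q ^ 2 - q)) ≠ 0 from
      mul_ne_zero (mul_ne_zero (by positivity) (by omega)) (by omega))
    linear_combination -h1
  · intro v hv
    have hv1 := finrank_span_singleton (K := F) hv
    have hp := h.finrank_perp_singleton hv
    have hvp : (F ∙ v) ≤ CfH2.perp (CfH2.sympB 2 F) (F ∙ v) :=
      (Submodule.span_singleton_le_iff_mem _ _).2 (CfH2.mem_perp_singleton.2 (CfH2.sympB_self _ _))
    have h1 := CfH2.ncard_diff_submodule hvp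
    rw [hv1, show Module.finrank F (CfH2.perp (CfH2.sympB 2 F) (F ∙ v)) = 3 by omega, hF,
      ← Nat.card_coe_set_eq] at h1
    set S := {W : Submodule F (Fin 2 ⊕ Fin 2 → F) // Module.finrank F W = 2 ∧ v ∈ W ∧ ∀ u ∈ W, ∀ w ∈ W, Cfsg.sympForm 2 F u w = 0} with hS
    have : Fintype S := Fintype.ofFinite S
    have hle : ∀ W : S, (F ∙ v) ≤ W.1 := fun W =>
      (Submodule.span_singleton_le_iff_mem _ _).2 W.2.2.1
    have heq : ∀ (W : S) w, w ∈ W.1 → w ∉ (F ∙ v) → W.1 = (F ∙ v) ⊔ (F ∙ w) := fun W w hw hw' =>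
      (Submodule.eq_of_le_of_finrank_eq
        (sup_le (hle W) ((Submodule.span_singleton_le_iff_mem _ _).2 hw))
        (by rw [Submodule.finrank_sup_span_singleton hw', hv1, W.2.1])).symm
    have h2 : Nat.card (Σ W : S, ((W.1 : Set (Fin 2 ⊕ Fin 2 → F)) \ (F ∙ v : Submodule F _) : Set _)) =
        Nat.card S * (q ^ 2 - q ^ 1) := by
      rw [Nat.card_sigma, Finset.sum_congr rfl (g := fun _ => q ^ 2 - q ^ 1) fun W _ => by
        rw [Nat.card_coe_set_eq, CfH2.ncard_diff_submodule (hle W), W.2.1, hv1, hF]]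
      simp
    rw [Nat.card_congr (Equiv.ofBijective (fun p => (⟨p.2.1, CfH2.mem_perp_singleton.2
      ((CfH2.sympB_apply _ _ _).trans (p.1.2.2.2 _ p.1.2.2.1 _ p.2.2.1)), p.2.2.2⟩ :
      ((CfH2.perp (CfH2.sympB 2 F) (F ∙ v) : Set (Fin 2 ⊕ Fin 2 → F)) \ (F ∙ v : Submodule F _) : Set _))) ⟨?_, ?_⟩), h1] at h2
    · zify [e3.le, e4.le, pow_one] at h2 e3 ⊢
      apply mul_left_cancel₀ (show ((q : ℤ) ^ 2 - q) ≠ 0 by omega)
      linear_combination -h2
    · rintro ⟨W, w, hw, hw'⟩ ⟨W', w', hz, hz'⟩ he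
      obtain rfl : w = w' := congrArg Subtype.val he
      obtain rfl : W = W' := Subtype.ext ((heq W w hw hw').trans (heq W' w hz hz').symm)
      rfl
    · rintro ⟨w, hw, hw'⟩
      have hvw : CfH2.sympB 2 F v w = 0 := CfH2.mem_perp_singleton.1 hw
      refine ⟨⟨⟨(F ∙ v) ⊔ (F ∙ w), by rw [Submodule.finrank_sup_span_singleton hw', hv1],
        Submodule.mem_sup_left (Submodule.mem_span_singleton_self v), ?_⟩, w,
        Submodule.mem_sup_right (Submodule.mem_span_singleton_self w), hw'⟩, rfl⟩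
      intro a ha b hb
      rw [← Submodule.span_insert] at ha hb
      obtain ⟨s, t, rfl⟩ := Submodule.mem_span_pair.1 ha
      obtain ⟨s', t', rfl⟩ := Submodule.mem_span_pair.1 hb
      rw [← CfH2.sympB_apply]
      simp [CfH2.sympB_self, hvw, h.refl hvw]

end Cfsg.Agent.S0828
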