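import Cfsg.Statements.S0829
import Cfsg.Agent.OD.Pre
import Cfsg.Agent.H2.Count

set_option autoImplicit false
open Cfsg

namespace Cfsg.Agent.S0829

/-- The unitary quadrangle of PSU_4(q): with |F| = q², the number of 2-dimensional subspaces of F^4 on which the Hermitian form Σ x_i y_i^q vanishes is (q + 1)(q³ + 1). -/
theorem result {F : Type*} [Field F] [Fintype F] {q : ℕ} (hF : Fintype.card F = q ^ 2) : Nat.card {W : Submodule F (Fin 4 → F) // Module.finrank F W = 2 ∧ ∀ u ∈ W, ∀ v ∈ W, Cfsg.hermForm 4 F q u v = 0} = (q + 1) * (q ^ 3 + 1) := by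
  have h := CfH2.isWF_hermB hF 4
  obtain ⟨W, hWk, hWW⟩ := CfH2.herm_exists_ts hF h (k := 2) (by simp)
  have h1 := h.card_isom_eq_ts W (fun w hw => hWW hw w hw) hWW hWk
  have h2 := CfH2.card_fix_herm hF h 4 ⊥ CfH2.nondegOn_bot (by simp)
  rw [CfH2.fixS_bot, inf_top_eq] at h2
  rw [CfH2.card_stab_herm hF h 2 0 W hWW hWk (by simp), h2] at h1
  have h3 : Nat.card {W : Submodule F (Fin 4 → F) // Module.finrank F W = 2 ∧ ∀ u ∈ W, ∀ v ∈ W, Cfsg.hermForm 4 F q u v = 0} = {X : Submodule F (Fin 4 → F) | Module.finrank F X = 2 ∧ (∀ w ∈ X, CfH2.hermB hF 4 w w = 0) ∧ X ≤ CfH2.perp (CfH2.hermB hF 4) X}.ncard := by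
    rw [← Nat.card_coe_set_eq]
    exact Nat.card_congr (Equiv.subtypeEquivRight fun X => and_congr_right fun _ =>
      ⟨fun H => ⟨fun w hw => H w hw w hw, fun y hy x hx => H y hy x hx⟩,
        fun H u hu v hv => H.2 hu v hv⟩)
  rw [h3]
  generalize Set.ncard _ = N at h1
  have hq := CfH2.two_le_of_card_sq hF
  simp only [Finset.prod_range_succ, Fin.prod_univ_two] at h1
  norm_num at h1
  have e1 : 1 < q ^ 2 := by nlinarith
  have e2 : 1 < q ^ 4 := Nat.one_lt_pow (by omega) hq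
  have e3 : 1 ≤ (q ^ 2) ^ 2 := by nlinarith
  have e4 : q ^ 2 ≤ (q ^ 2) ^ 2 := by nlinarith
  zify [e1.le, e2.le, e3, e4] at h1 e1 e2 hq ⊢
  apply mul_left_cancel₀ (show ((q : ℤ) ^ 6 * (q ^ 2 - 1) * (q ^ 4 - 1)) ≠ 0 from
    mul_ne_zero (mul_ne_zero (by positivity) (by omega)) (by omega))
  linear_combination -h1

end Cfsg.Agent.S0829
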