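import Cfsg.Statements.S0831
import Cfsg.Agent.OD.Pre
import Cfsg.Agent.H2.MaxSing

set_option autoImplicit false
open Cfsg

namespace Cfsg.Agent.S0831

/-- The two families of maximal totally singular subspaces of the hyperbolic quadric: for the form Σ x_i y_i on F^(2m), m ≥ 1, and m-dimensional subspaces U, W, X on which it vanishes, the parities of m − dim(U ∩ W), m − dim(W ∩ X) and m − dim(U ∩ X) sum to an even number (so 'even codimension of the intersection' is an equivalence relation), and there exist two such subspaces meeting in codimension 1 (so there are exactly two classes). -/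
theorem result {F : Type*} [Field F] (m : ℕ) (hm : 1 ≤ m) : (∀ U W X : Submodule F (Fin m ⊕ Fin m → F), (Module.finrank F U = m ∧ ∀ w ∈ U, Cfsg.quadFormPlus m F w = 0) → (Module.finrank F W = m ∧ ∀ w ∈ W, Cfsg.quadFormPlus m F w = 0) → (Module.finrank F X = m ∧ ∀ w ∈ X, Cfsg.quadFormPlus m F w = 0) → Even ((m - Module.finrank F ↥(U ⊓ W)) + (m - Module.finrank F ↥(W ⊓ X)) + (m - Module.finrank F ↥(U ⊓ X)))) ∧ ∃ U W : Submodule F (Fin m ⊕ Fin m → F), (Module.finrank F U = m ∧ ∀ w ∈ U, Cfsg.quadFormPlus m F w = 0) ∧ (Module.finrank F W = m ∧ ∀ w ∈ W, Cfsg.quadFormPlus m F w = 0) ∧ Module.finrank F ↥(U ⊓ W) + 1 = m := by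
  have h := CfH2.qwf_of_nondeg (CfH2.nondeg_qPlus (F := F) m)
  have hV : Module.finrank F (Fin m ⊕ Fin m → F) = 2 * m := by simp [two_mul]
  rw [← CfH2.coe_qPlus]
  refine ⟨fun U W X hU hW hX => CfH2.even_codim h hV hU hW hX, ?_⟩
  obtain ⟨X, hX⟩ := CfH2.exists_max_qPlus (F := F) m
  obtain ⟨Z, hZX, hZ⟩ := CfH2.exists_le_finrank_eq X (n := m - 1) (by omega)
  obtain ⟨U, W, hne, hUW⟩ := CfH2.exists_two_max h hV (Z := Z)
    ⟨by omega, fun u hu => hX.2 u (hZX hu)⟩ hX
  obtain ⟨hU1, hU2, hU3⟩ := (hUW U).2 (Or.inl rfl)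
  obtain ⟨hW1, hW2, hW3⟩ := (hUW W).2 (Or.inr rfl)
  refine ⟨U, W, ⟨hU1, hU2⟩, ⟨hW1, hW2⟩, ?_⟩
  have h1 := Submodule.finrank_mono (le_inf hU3 hW3)
  have h2 : U ⊓ W < U := lt_of_le_of_ne inf_le_left fun hc =>
    hne (Submodule.eq_of_le_of_finrank_eq (hc.ge.trans inf_le_right) (hU1.trans hW1.symm))
  have h3 := Submodule.finrank_lt_finrank_of_lt h2
  omega

end Cfsg.Agent.S0831
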