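import Cfsg.Statements.S0833
import Cfsg.Agent.OD.Pre
import Cfsg.Agent.H2.Disc

set_option autoImplicit false
open Cfsg

namespace Cfsg.Agent.S0833

/-- If B₁, B₂ are non-degenerate alternating forms on U (dim 2k) and W (dim 2l), then B₁ ⊗ B₂ on U ⊗ W is symmetric, non-degenerate, and vanishes identically on some subspace of dimension 2kl (half of dim U ⊗ W). -/
theorem result {F U W : Type*} [Field F] [Fintype F] [AddCommGroup U] [Module F U] [FiniteDimensional F U] [AddCommGroup W] [Module F W] [FiniteDimensional F W] (B₁ : LinearMap.BilinForm F U) (B₂ : LinearMap.BilinForm F W) (h₁ : B₁.Nondegenerate) (h₂ : B₂.Nondegenerate) (hA₁ : B₁.IsAlt) (hA₂ : B₂.IsAlt) (k l : ℕ) (hU : Module.finrank F U = 2 * k) (hW : Module.finrank F W = 2 * l) : (B₁.tmul B₂).IsSymm ∧ (B₁.tmul B₂).Nondegenerate ∧ (∃ X : Submodule F (TensorProduct F U W), Module.finrank F X = 2 * k * l ∧ ∀ x ∈ X, ∀ y ∈ X, (B₁.tmul B₂) x y = 0) := by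
  refine ⟨?_, CfH2.nondegenerate_tmul B₁ B₂ h₁ h₂, ?_⟩
  · rw [LinearMap.isSymm_iff_eq_flip]
    ext a b c d
    simp [← hA₁.neg_eq a c, ← hA₂.neg_eq b d]
  · obtain ⟨m, b, -, h2, -⟩ := CfH2.exists_symp_basis' B₁ hA₁ h₁.2
    have hm : m = k := by
      have := Module.finrank_eq_card_basis b
      simp at this
      omega
    subst hm
    let c := Module.finBasisOfFinrankEq F W hW
    let v : Fin m × Fin (2 * l) → TensorProduct F U W := fun p => (b.tensorProduct c) (Sum.inl p.1, p.2)
    have hv : LinearIndependent F v :=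
      (b.tensorProduct c).linearIndependent.comp (fun p : Fin m × Fin (2 * l) => (Sum.inl p.1, p.2))
        (by rintro ⟨a, b⟩ ⟨c, d⟩ h; simpa using h)
    refine ⟨Submodule.span F (Set.range v), by rw [finrank_span_eq_card hv]; simp; ring, ?_⟩
    have := CfH2.B_span (B := (0 : LinearMap.BilinForm F (TensorProduct F U W))) (B' := B₁.tmul B₂)
      LinearMap.id (s := Set.range v) (by
        rintro _ ⟨p, rfl⟩ _ ⟨q, rfl⟩
        simp [v, h2])
    simpa using this

end Cfsg.Agent.S0833
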