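import Cfsg.Statements.S0835
import Cfsg.Agent.OD.Pre
import Cfsg.Agent.H2.Disc
import Cfsg.Agent.OD.Helper2xc8f4a1cdb6

set_option autoImplicit false
open Cfsg

namespace Cfsg.Agent.S0835

/-- Over a finite field with 2 ≠ 0: if B₁ on U (dim 2k, k ≥ 1) is non-degenerate symmetric of minus type (no totally isotropic k-subspace) and B₂ on W (dim 2l + 1) is non-degenerate symmetric, then B₁ ⊗ B₂ (dimension 2k(2l+1)) admits no totally isotropic subspace of dimension k(2l+1) (minus type). -/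
theorem result {F U W : Type*} [Field F] [Fintype F] [AddCommGroup U] [Module F U] [FiniteDimensional F U] [AddCommGroup W] [Module F W] [FiniteDimensional F W] (h2 : (2 : F) ≠ 0) (B₁ : LinearMap.BilinForm F U) (B₂ : LinearMap.BilinForm F W) (h₁ : B₁.Nondegenerate) (h₂ : B₂.Nondegenerate) (hS₁ : B₁.IsSymm) (hS₂ : B₂.IsSymm) (k l : ℕ) (hk : 1 ≤ k) (hU : Module.finrank F U = 2 * k) (hW : Module.finrank F W = 2 * l + 1) (hm₁ : ¬ (∃ X : Submodule F (U), Module.finrank F X = k ∧ ∀ x ∈ X, ∀ y ∈ X, (B₁) x y = 0)) : ¬ (∃ X : Submodule F (TensorProduct F U W), Module.finrank F X = k * (2 * l + 1) ∧ ∀ x ∈ X, ∀ y ∈ X, (B₁.tmul B₂) x y = 0) := by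
  classical
  rw [CfH2.plus_iff_disc h2 B₁ hS₁.eq h₁ hU] at hm₁
  rw [CfH2.plus_iff_disc h2 (B₁.tmul B₂)
    (fun x y => ((LinearMap.BilinForm.isSymm_iff.1 hS₁).tmul (LinearMap.BilinForm.isSymm_iff.1 hS₂)).eq x y)
    (CfH2.nondegenerate_tmul B₁ B₂ h₁ h₂) (m := k * (2 * l + 1))
    (by rw [Module.finrank_tensorProduct, hU, hW]; ring),
    CfH2.disc_tmul h2 B₁ B₂ hS₁ hS₂, hU, hW, pow_succ, pow_mul, pow_mul, CfH2.disc_sq _ h₁,
    CfH2.disc_sq _ h₂, mul_add, mul_one, pow_add, mul_left_comm, pow_mul, quadraticChar_sq_one (by simp)]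
  simpa using hm₁

end Cfsg.Agent.S0835
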