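import Cfsg.Statements.S0838
import Cfsg.Agent.OD.Pre
import Cfsg.Agent.H2.Disc
import Cfsg.Agent.OD.Helper2xc8f4a1cdb6

set_option autoImplicit false
open Cfsg

namespace Cfsg.Agent.S0838

/-- Over a finite field with 2 ≠ 0 and n odd: two quadratic forms Q₁, Q₂ on F^n with non-degenerate polar forms are similar — there are an invertible linear map g and a scalar c ≠ 0 with Q₂ (g v) = c · Q₁ v for all v. -/
theorem result {F : Type*} [Field F] [Fintype F] (h2 : (2 : F) ≠ 0) {n : ℕ} (hn : Odd n) (Q₁ Q₂ : QuadraticForm F (Fin n → F)) (h₁ : (QuadraticMap.polarBilin Q₁).Nondegenerate) (h₂ : (QuadraticMap.polarBilin Q₂).Nondegenerate) : ∃ (g : (Fin n → F) ≃ₗ[F] (Fin n → F)) (c : F), c ≠ 0 ∧ ∀ v, Q₂ (g v) = c * Q₁ v := by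
  classical
  have hS : ∀ Q : QuadraticForm F (Fin n → F), ∀ x y, Q.polarBilin x y = Q.polarBilin y x :=
    fun Q x y => by simp [QuadraticMap.polar_comm]
  have key : ∀ c : F, c ≠ 0 → CfH2.disc (c • Q₁.polarBilin) = CfH2.disc Q₂.polarBilin →
      ∃ (g : (Fin n → F) ≃ₗ[F] (Fin n → F)) (c : F), c ≠ 0 ∧ ∀ v, Q₂ (g v) = c * Q₁ v := by
    intro c hc hd
    obtain ⟨e, he⟩ := CfH2.exists_equiv_of_disc_eq h2 (c • Q₁.polarBilin) Q₂.polarBilin
      (fun x y => by simp [QuadraticMap.polar_comm])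
      (fun y hy => h₁.2 y fun x => by simpa [hc] using hy x) (hS Q₂) h₂.2 rfl hd
    refine ⟨e, c, hc, fun v => ?_⟩
    have := he v v
    simp only [QuadraticMap.polarBilin_apply_apply, QuadraticMap.polar_self, LinearMap.smul_apply,
      smul_eq_mul, nsmul_eq_mul, Nat.cast_ofNat] at this
    apply mul_left_cancel₀ h2
    linear_combination this
  have hsm : ∀ c : F, CfH2.disc (c • Q₁.polarBilin) =
      quadraticChar F c ^ n * CfH2.disc Q₁.polarBilin := by
    intro c
    rw [CfH2.disc_eq_basis _ (Pi.basisFun F _), CfH2.disc_eq_basis _ (Pi.basisFun F _), map_smul,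
      Matrix.det_smul, map_mul, map_pow, Fintype.card_fin]
  by_cases hd : CfH2.disc Q₁.polarBilin = CfH2.disc Q₂.polarBilin
  · exact key 1 one_ne_zero (by simpa using hd)
  · obtain ⟨α, hα⟩ := FiniteField.exists_nonsquare (CfH2.ringChar_ne_two h2)
    have hα0 : α ≠ 0 := by rintro rfl; exact hα IsSquare.zero
    refine key α hα0 ?_
    rw [hsm, quadraticChar_neg_one_iff_not_isSquare.2 hα, hn.neg_one_pow]
    rcases CfH2.disc_dichotomy _ h₁ with h | h <;> rcases CfH2.disc_dichotomy _ h₂ with h' | h' <;>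
      simp_all

end Cfsg.Agent.S0838
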