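import Cfsg.Statements.S0839
import Cfsg.Agent.OD.Pre
import Cfsg.Agent.H2.Symp

set_option autoImplicit false
open Cfsg

namespace Cfsg.Agent.S0839

open scoped Matrix

/-- Every transvection t ∈ SL_(n+2)(F) (rank(t − 1) = 1, (t − 1)² = 0) is conjugate in SL_(n+2)(F) to 1 + v·e_0ᵀ for some column vector v with v_0 = 0 (the group A of matrices that are the identity except in the first column below the diagonal); the dimension is written n + 2 ≥ 2. -/
theorem result {F : Type*} [Field F] (n : ℕ) (t : Matrix.SpecialLinearGroup (Fin (n + 2)) F) (ht : Cfsg.IsTransvection (t : Matrix (Fin (n + 2)) (Fin (n + 2)) F)) : ∃ (g : Matrix.SpecialLinearGroup (Fin (n + 2)) F) (v : Fin (n + 2) → F), v 0 = 0 ∧ ((g⁻¹ * t * g : Matrix.SpecialLinearGroup (Fin (n + 2)) F) : Matrix (Fin (n + 2)) (Fin (n + 2)) F) = 1 + Matrix.vecMulVec v (Pi.single 0 1) := by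
  obtain ⟨h1, h2⟩ := ht
  set N := (t : Matrix (Fin (n + 2)) (Fin (n + 2)) F) - 1 with hN
  rw [Matrix.rank, finrank_eq_one_iff'] at h1
  obtain ⟨⟨u, hu⟩, hu0, hsp⟩ := h1
  have hu0' : u ≠ 0 := fun h => hu0 (Subtype.ext h)
  choose w hw using fun j => hsp ⟨N *ᵥ Pi.single j 1, ⟨_, rfl⟩⟩
  have hNe : N = Matrix.vecMulVec u w := by
    ext i j
    have := congrFun (congrArg Subtype.val (hw j)) i
    simp only [Submodule.coe_smul, Pi.smul_apply, smul_eq_mul, Matrix.mulVec_single_one,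
      Matrix.col_apply] at this
    rw [Matrix.vecMulVec_apply, ← this, mul_comm]
  have hw0 : w ≠ 0 := by
    rintro rfl
    obtain ⟨x, hx⟩ := hu
    apply hu0'
    rw [← hx, hNe]
    simp
  have hwu : w ⬝ᵥ u = 0 := by
    obtain ⟨j, hj⟩ := Function.ne_iff.1 hw0
    have := congrArg (fun M => M *ᵥ Pi.single j 1) h2
    simp only [← Matrix.mulVec_mulVec, hNe, CfH2.vecMulVec_mulVec', Matrix.zero_mulVec,
      dotProduct_single, mul_one, dotProduct_smul, smul_eq_mul, smul_eq_zero, hu0', or_false,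
      mul_eq_zero] at this
    exact this.resolve_left hj
  have he0 : (Pi.single 0 1 : Fin (n + 2) → F) ≠ 0 := by simp
  obtain ⟨g, hg⟩ := MulAction.exists_smul_eq (Matrix.SpecialLinearGroup (Fin (n + 2)) F)
    (Projectivization.mk F w hw0) (Projectivization.mk F _ he0)
  rw [Projectivization.smul_mk, Projectivization.mk_eq_mk_iff'] at hg
  obtain ⟨c, hc⟩ := hg
  have hc' : (g : Matrix (Fin (n + 2)) (Fin (n + 2)) F) *ᵥ w = c • Pi.single 0 1 := hc.symm
  let G := g.transpose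
  have hG : (G : Matrix (Fin (n + 2)) (Fin (n + 2)) F) = (g : Matrix (Fin (n + 2)) (Fin (n + 2)) F)ᵀ := rfl
  have hdot : ∀ x, w ⬝ᵥ ((G : Matrix (Fin (n + 2)) (Fin (n + 2)) F) *ᵥ x) = c * x 0 := by
    intro x
    rw [Matrix.dotProduct_mulVec, hG, Matrix.vecMul_transpose, hc']
    simp
  have hinv : ∀ x, (G : Matrix (Fin (n + 2)) (Fin (n + 2)) F) *ᵥ
      (((G⁻¹ : Matrix.SpecialLinearGroup (Fin (n + 2)) F) : Matrix (Fin (n + 2)) (Fin (n + 2)) F) *ᵥ x) = x := by
    intro x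
    rw [Matrix.mulVec_mulVec, ← Matrix.SpecialLinearGroup.coe_mul, mul_inv_cancel]
    simp
  have hinv' : ∀ x, ((G⁻¹ : Matrix.SpecialLinearGroup (Fin (n + 2)) F) : Matrix (Fin (n + 2)) (Fin (n + 2)) F) *ᵥ
      ((G : Matrix (Fin (n + 2)) (Fin (n + 2)) F) *ᵥ x) = x := by
    intro x
    rw [Matrix.mulVec_mulVec, ← Matrix.SpecialLinearGroup.coe_mul, inv_mul_cancel]
    simp
  refine ⟨G, c • (((G⁻¹ : Matrix.SpecialLinearGroup (Fin (n + 2)) F) : Matrix (Fin (n + 2)) (Fin (n + 2)) F) *ᵥ u), ?_, ?_⟩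
  · rw [Pi.smul_apply, smul_eq_mul, ← hdot, hinv, hwu]
  · apply CfH2.matrix_ext_mulVec
    intro x
    have ht : (t : Matrix (Fin (n + 2)) (Fin (n + 2)) F) = 1 + Matrix.vecMulVec u w := by
      rw [← hNe, hN]; abel
    rw [Matrix.SpecialLinearGroup.coe_mul, Matrix.SpecialLinearGroup.coe_mul, ← Matrix.mulVec_mulVec,
      ← Matrix.mulVec_mulVec, ht, Matrix.add_mulVec, Matrix.add_mulVec, Matrix.one_mulVec,
      Matrix.one_mulVec, CfH2.vecMulVec_mulVec', CfH2.vecMulVec_mulVec', hdot, Matrix.mulVec_add,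
      hinv', Matrix.mulVec_smul, smul_smul]
    simp [mul_comm]

end Cfsg.Agent.S0839
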