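import Cfsg.Statements.S0842
import Cfsg.Agent.OD.Pre
import Cfsg.Agent.H5.Quaternion

set_option autoImplicit false
open Cfsg

namespace Cfsg.Agent.S0842

open CfH9 CfH7 Subgroup


/-- Suppose a Sylow 2-subgroup S of the finite group G is generalized quaternion of order at least 16, and let D be the commutator subgroup of S, C its centralizer and N its normalizer in G. Then there is a subgroup K of odd order, contained in C and normalized by N, with K ⊔ S = N and K ⊔ (S ⊓ C) = C, and C has index 2 in N. -/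
theorem result {G : Type*} [Group G] [Finite G] (S : Sylow 2 G) (n : ℕ) (e : (S : Subgroup G) ≃* QuaternionGroup (2 ^ (n + 2))) (D : Subgroup G) (hD : D = ⁅(S : Subgroup G), (S : Subgroup G)⁆) : ∃ K : Subgroup G, Odd (Nat.card K) ∧ K ≤ Subgroup.centralizer (D : Set G) ∧ Subgroup.normalizer (D : Set G) ≤ Subgroup.normalizer (K : Set G) ∧ K ⊔ (S : Subgroup G) = Subgroup.normalizer (D : Set G) ∧ K ⊔ ((S : Subgroup G) ⊓ Subgroup.centralizer (D : Set G)) = Subgroup.centralizer (D : Set G) ∧ ((Subgroup.centralizer (D : Set G)).subgroupOf (Subgroup.normalizer (D : Set G))).index = 2 := by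
  obtain ⟨x, y, h⟩ := CfH5.exists_qData e
  have hS := sylIn_top S
  have hm : 2 < 2 ^ (n + 2) := by
    have : 1 ≤ 2 ^ n := Nat.one_le_two_pow
    rw [pow_add]; omega
  rw [h.commutator_eq] at hD
  subst hD
  have hP := CfH5.pNil_two_of_isCyclic (h.sylIn_Cz hS hm) inferInstance
  have hle : (S : Subgroup G) ≤ Nm(zpowers (x ^ 2)) := (h.sylIn_Nm hS).le
  refine ⟨pPrimeCoreOf 2 Cz(zpowers (x ^ 2)), ?_, pPrimeCoreOf_le _,
    (Nm_le_Nm_Cz _).trans (normalizer_le_normalizer_pPrimeCoreOf _), ?_, ?_, ?_⟩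
  · exact Nat.coprime_two_right.1 (coprime_card_pPrimeCoreOf _)
  · refine le_antisymm (sup_le ((pPrimeCoreOf_le _).trans (Cz_le_Nm _)) hle) ?_
    conv_lhs => rw [← (h.sylIn_Nm hS).sup_pResidualOf]
    refine sup_le_sup_right (pResidualOf_le_iff.2 fun g hg ho => ?_) _
    exact hP.mem_pPrimeCoreOf (h.pResidualOf_Nm_le hS (mem_pResidualOf hg ho)) ho
  · rw [h.inf_Cz hm]; exact hP.sup_eq (h.sylIn_Cz hS hm)
  · rw [Subgroup.index_eq_two_iff_exists_notMem_and]
    refine ⟨⟨y⁻¹, inv_mem (hle h.y_mem)⟩, ?_, fun g => ?_⟩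
    · rw [Subgroup.mem_subgroupOf]
      exact fun h1 => h.not_mem_Cz hm h.y_mem h.y_not (by simpa using h1)
    · simpa [Subgroup.mem_subgroupOf, or_comm] using h.mem_Cz_or hS g.2

end Cfsg.Agent.S0842
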