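import Cfsg.Statements.S0845
import Cfsg.Agent.OD.Pre
import Cfsg.Agent.H5.BrauerSuzuki

set_option autoImplicit false
open Cfsg

namespace Cfsg.Agent.S0845

open CfH9 CfH7 Subgroup


/-- Suppose a Sylow 2-subgroup S of the finite group G is generalized quaternion of order at least 16. Then G has a normal subgroup M of even order such that G / M is non-abelian, that is, M does not contain the commutator subgroup of G. -/
theorem result {G : Type*} [Group G] [Finite G] (S : Sylow 2 G) (n : ℕ) (e : (S : Subgroup G) ≃* QuaternionGroup (2 ^ (n + 2))) : ∃ M : Subgroup G, M.Normal ∧ Even (Nat.card M) ∧ ¬ commutator G ≤ M := by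
  obtain ⟨x, y, h⟩ := CfH5.exists_qData e
  obtain ⟨M, h1, h2, h3⟩ := h.exists_normal (sylIn_top S)
  have hz : orderOf (x ^ 2 ^ (n + 2)) = 2 := by
    rw [orderOf_pow' _ (by positivity), h.ox]; simp
  exact ⟨M, h1, even_iff_two_dvd.2 (hz ▸ orderOf_dvd_natCard M (h2 _ hz)), h3⟩

end Cfsg.Agent.S0845
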