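import Cfsg.Statements.S0846
import Cfsg.Agent.OD.Pre
import Cfsg.Agent.H5.BrauerSuzuki

set_option autoImplicit false
open Cfsg

namespace Cfsg.Agent.S0846

open CfH9 CfH7 Subgroup


/-- Suppose a Sylow 2-subgroup S of the finite group G is generalized quaternion of order at least 16. Then every Sylow 2-subgroup of the subgroup generated by the involutions of G is cyclic. -/
theorem result {G : Type*} [Group G] [Finite G] (S : Sylow 2 G) (n : ℕ) (e : (S : Subgroup G) ≃* QuaternionGroup (2 ^ (n + 2))) (Q : Sylow 2 ↥(Subgroup.closure {g : G | orderOf g = 2})) : IsCyclic Q := by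
  obtain ⟨x, y, h⟩ := CfH5.exists_qData e
  have hS := sylIn_top S
  have := CfH5.QData.normal_closure_invol (G := G)
  have h1 := hS.inf_normal' (fun g _ => mem_Nm_of_normal g (closure {g : G | orderOf g = 2})) le_top
  have h2 := isCyclic_of_le (h.inf_closure_le hS)
  obtain ⟨g, -, hg⟩ := h1.conj (sylIn_of_sylow Q)
  have h3 := (cjEquiv g _).isCyclic.1 h2
  rw [hg] at h3
  exact (Q.toSubgroup.equivMapOfInjective _ (subtype_injective _)).isCyclic.2 h3

end Cfsg.Agent.S0846
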