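import Cfsg.Statements.S0849
import Cfsg.Agent.OD.Pre
import Cfsg.Agent.H5.Ind

set_option autoImplicit false
open Cfsg

namespace Cfsg.Agent.S0849

/-- Let H be a subgroup of a finite group G and S a subset of H that is mapped to itself under conjugation by H, is disjoint from its conjugate by any element outside H, and is closed under inverses. Let φ be a class function of H vanishing on H away from S, and let u, v be involutions of G. Then the sum of the induced function of φ over all products a * b with a conjugate to u and b conjugate to v equals the index of H times the sum of φ (a * b) over such pairs with a and b in H. -/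
theorem result {G : Type*} [Group G] [Fintype G] (H : Subgroup G) (S : Set G) (hSH : S ⊆ H) (hHS : ∀ h ∈ H, ∀ s ∈ S, h * s * h⁻¹ ∈ S) (hTI : ∀ g : G, g ∉ H → ∀ s ∈ S, g * s * g⁻¹ ∉ S) (hinv : ∀ s ∈ S, s⁻¹ ∈ S) (φ : H → ℂ) (hφ : Cfsg.IsClassFunction H φ) (hφS : ∀ x : H, (x : G) ∉ S → φ x = 0) (u v : G) (hu : orderOf u = 2) (hv : orderOf v = 2) : ∑ᶠ p ∈ {p : G × G | IsConj u p.1 ∧ IsConj v p.2}, Cfsg.indFun H φ (p.1 * p.2) = (H.index : ℂ) * ∑ᶠ p ∈ {p : H × H | IsConj u (p.1 : G) ∧ IsConj v (p.2 : G)}, φ (p.1 * p.2) := by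
  classical
  rw [finsum_mem_def, finsum_mem_def, finsum_eq_sum_of_fintype, finsum_eq_sum_of_fintype]
  simp only [Set.indicator_apply, Set.mem_ofPred_eq]
  have hc : ∀ (w x a : G), IsConj w (x⁻¹ * a * x) ↔ IsConj w a := fun w x a =>
    ⟨fun h => h.trans (isConj_iff.2 ⟨x, by group⟩), fun h => h.trans (isConj_iff.2 ⟨x⁻¹, by group⟩)⟩
  have h1 : ∀ x : G, ∑ p : G × G, (if IsConj u p.1 ∧ IsConj v p.2 then
      extendByZero H φ (x⁻¹ * (p.1 * p.2) * x) else 0) =
      ∑ p : G × G, (if IsConj u p.1 ∧ IsConj v p.2 then extendByZero H φ (p.1 * p.2) else 0) := by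
    intro x
    refine Fintype.sum_equiv
      (Equiv.prodCongr (MulAut.conj x).symm.toEquiv (MulAut.conj x).symm.toEquiv) _ _ fun p => ?_
    simp only [MulEquiv.toEquiv_eq_coe, Equiv.prodCongr_apply, EquivLike.coe_coe, Prod.map_fst,
      MulAut.conj_symm_apply, Prod.map_snd, hc]
    congr 2; group
  have h2 : ∑ p : G × G, (if IsConj u p.1 ∧ IsConj v p.2 then indFun H φ (p.1 * p.2) else 0) =
      (Nat.card H : ℂ)⁻¹ * ∑ x : G, ∑ p : G × G, (if IsConj u p.1 ∧ IsConj v p.2 then
      extendByZero H φ (x⁻¹ * (p.1 * p.2) * x) else 0) := by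
    rw [Finset.sum_comm, Finset.mul_sum]
    refine Finset.sum_congr rfl fun p _ => ?_
    split_ifs
    · rfl
    · simp
  rw [h2]
  simp only [h1]
  simp only [Finset.sum_const, Finset.card_univ, nsmul_eq_mul, ← mul_assoc,
    Fintype.card_eq_nat_card, CfH5.card_div_card_eq_index]
  refine congrArg (fun t => (H.index : ℂ) * t) (Eq.symm ?_)
  refine Fintype.sum_of_injective (fun p : H × H => ((p.1 : G), (p.2 : G))) ?_ _ _ ?_ ?_
  · intro p q h
    exact Prod.ext (Subtype.ext (congrArg Prod.fst h)) (Subtype.ext (congrArg Prod.snd h))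
  · rintro ⟨a, b⟩ hab
    split_ifs with h
    swap; · rfl
    rw [CfH5.ebz_apply]
    split_ifs with h3
    swap; · rfl
    apply hφS
    intro h4
    apply hab
    have ha : a * a = 1 := by
      obtain ⟨c, hc⟩ := isConj_iff.1 h.1
      dsimp only at hc
      rw [← hc, ← sq, conj_pow, ← hu, pow_orderOf_eq_one]; group
    have hb : b * b = 1 := by
      obtain ⟨c, hc⟩ := isConj_iff.1 h.2
      dsimp only at hc
      rw [← hc, ← sq, conj_pow, ← hv, pow_orderOf_eq_one]; group
    have h5 : a ∈ H := by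
      by_contra h5
      apply hTI a h5 _ h4
      have := hinv _ h4
      dsimp only at this ⊢
      rwa [mul_inv_rev, inv_eq_of_mul_eq_one_right hb, ← one_mul b, ← ha, mul_assoc a a b] at this
    have h6 : b ∈ H := by simpa using H.mul_mem (H.inv_mem h5) h3
    exact ⟨(⟨a, h5⟩, ⟨b, h6⟩), rfl⟩
  · intro p
    rw [← CfH5.ebz_coe H φ]; rfl

end Cfsg.Agent.S0849
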