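import Cfsg.Statements.S0850
import Cfsg.Agent.OD.Pre
import Cfsg.Agent.H5.TIFN

set_option autoImplicit false
open Cfsg

namespace Cfsg.Agent.S0850

/-- Let K be a subgroup of the finite group G that meets each conjugate by an element outside its normalizer N trivially, is properly contained in N, and contains the centralizer of each of its non-identity elements (a T.I. subgroup with Frobenius normalizer). Then no element of N outside K is conjugate in G to an element of K, and for every class function ϑ of N that vanishes on N away from K and at the identity, the function induced from ϑ to G agrees with ϑ on all of N. -/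
theorem result {G : Type*} [Group G] [Fintype G] (K : Subgroup G) (hTI : ∀ g : G, g ∉ Subgroup.normalizer (K : Set G) → ∀ k ∈ K, g * k * g⁻¹ ∈ K → k = 1) (hlt : K < Subgroup.normalizer (K : Set G)) (hC : ∀ k ∈ K, k ≠ 1 → Subgroup.centralizer ({k} : Set G) ≤ K) : (∀ x ∈ Subgroup.normalizer (K : Set G), x ∉ K → ∀ g : G, g * x * g⁻¹ ∉ K) ∧ ∀ (ϑ : Subgroup.normalizer (K : Set G) → ℂ), Cfsg.IsClassFunction (Subgroup.normalizer (K : Set G)) ϑ → (∀ x : Subgroup.normalizer (K : Set G), (x : G) ∉ K → ϑ x = 0) → ϑ 1 = 0 → ∀ x : Subgroup.normalizer (K : Set G), Cfsg.indFun (Subgroup.normalizer (K : Set G)) ϑ x = ϑ x := by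
  have key : ∀ x ∈ Subgroup.normalizer (K : Set G), x ∉ K → ∀ g : G, g * x * g⁻¹ ∉ K := by
    intro x hx hxK g hg
    have h1 := CfH5.frob_coprime _ (CfH5.tifn_hC K hC (Subgroup.normalizer (K : Set G)))
    rw [Nat.card_congr (Subgroup.subgroupOfEquivOfLe hlt.le).toEquiv] at h1
    have h2 : orderOf x ∣ Nat.card K := by
      have := (MulAut.conj g).orderOf_eq x
      exact this ▸ Subgroup.orderOf_dvd_natCard K hg
    have h3 := Subgroup.pow_index_mem (K.subgroupOf (Subgroup.normalizer (K : Set G))) ⟨x, hx⟩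
    rw [Subgroup.mem_subgroupOf] at h3
    obtain ⟨m, hm⟩ := exists_pow_eq_self_of_coprime (x := x)
      (n := (K.subgroupOf (Subgroup.normalizer (K : Set G))).index)
      (Nat.Coprime.coprime_dvd_right h2 h1.symm)
    exact hxK (hm ▸ K.pow_mem h3 m)
  refine ⟨key, fun ϑ hϑ h0 h1 x => CfH5.indFun_eq_of_ti _ hϑ x fun g hg hx => ?_⟩
  by_cases h2 : g * x * g⁻¹ ∈ K
  · have h3 : (x : G) ∈ K := by_contra fun h => key x x.2 h g h2
    have h4 := hTI g hg x h3 h2
    rw [← h1]; congr 1; ext; simp [h4]
  · exact h0 _ h2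

end Cfsg.Agent.S0850
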