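import Cfsg.Statements.S0851
import Cfsg.Agent.OD.Pre
import Cfsg.Agent.H5.TIFN

set_option autoImplicit false
open Cfsg

namespace Cfsg.Agent.S0851

open CfH4

/-- Let K be a subgroup of the finite group G that meets each conjugate by an element outside its normalizer N trivially, is properly contained in N, and contains the centralizer of each of its non-identity elements (a T.I. subgroup with Frobenius normalizer). Suppose K is abelian, let e be the index of K in N, and call an irreducible character of N relevant when it takes at some element of K a value different from its degree. Then either there is exactly one relevant character and K is an elementary abelian p-group of order e + 1 for some prime p, or there are a sign ε and an injective map f from the relevant characters to the irreducible characters of G such that inducing χ - ξ to G gives ε (f χ - f ξ) for all relevant χ and ξ. -/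
theorem result {G : Type*} [Group G] [Fintype G] (K : Subgroup G) (hTI : ∀ g : G, g ∉ Subgroup.normalizer (K : Set G) → ∀ k ∈ K, g * k * g⁻¹ ∈ K → k = 1) (hlt : K < Subgroup.normalizer (K : Set G)) (hC : ∀ k ∈ K, k ≠ 1 → Subgroup.centralizer ({k} : Set G) ≤ K) (hab : ∀ a ∈ K, ∀ b ∈ K, a * b = b * a) : (Nat.card {χ : Cfsg.IrrCharacter (Subgroup.normalizer (K : Set G)) // ∃ k : Subgroup.normalizer (K : Set G), (k : G) ∈ K ∧ (χ : ↥(Subgroup.normalizer (K : Set G)) → ℂ) k ≠ (χ : ↥(Subgroup.normalizer (K : Set G)) → ℂ) 1} = 1 ∧ ∃ p : ℕ, p.Prime ∧ Cfsg.IsElementaryAbelian p K ∧ Nat.card K = (K.subgroupOf (Subgroup.normalizer (K : Set G))).index + 1) ∨ ∃ (ε : ℂ) (f : {χ : Cfsg.IrrCharacter (Subgroup.normalizer (K : Set G)) // ∃ k : Subgroup.normalizer (K : Set G), (k : G) ∈ K ∧ (χ : ↥(Subgroup.normalizer (K : Set G)) → ℂ) k ≠ (χ : ↥(Subgroup.normalizer (K : Set G)) → ℂ) 1} → Cfsg.IrrCharacter G), (ε = 1 ∨ ε = -1) ∧ Function.Injective f ∧ ∀ χ ξ, Cfsg.indFun (Subgroup.normalizer (K : Set G)) ((χ.1 : ↥(Subgroup.normalizer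 (K : Set G)) → ℂ) - (ξ.1 : ↥(Subgroup.normalizer (K : Set G)) → ℂ)) = ε • ((f χ : G → ℂ) - (f ξ : G → ℂ)) := by
  classical
  right
  set N := Subgroup.normalizer (K : Set G) with hN
  have hC' := CfH5.tifn_hC K hC N
  have hab' : ∀ a b : K.subgroupOf N, a * b = b * a := fun a b =>
    Subtype.ext (Subtype.ext (hab _ a.2 _ b.2))
  let ι := {χ : Cfsg.IrrCharacter N // ∃ k : N, (k : G) ∈ K ∧ (χ : N → ℂ) k ≠ (χ : N → ℂ) 1}
  have hdeg : ∀ χ : ι, χ.1.1 1 = (K.subgroupOf N).index := fun χ =>
    CfH5.frob_degree_of_comm _ hC' hab' χ.1.2 χ.2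
  have hvan : ∀ (χ : ι) (x : N), (x : G) ∉ K → χ.1.1 x = 0 := fun χ x hx =>
    CfH5.frob_irr_vanish _ hC' χ.1.2 χ.2 hx
  refine CfH5.exists_exceptional (ι := ι) (fun χ ξ => Cfsg.indFun N (χ.1.1 - ξ.1.1))
    (fun χ ξ => CfH5.isGenChar_indFun N (χ.1.2.isGen.sub ξ.1.2.isGen))
    (fun χ ξ => by simp [CfH5.indFun_one, hdeg])
    (fun i j k => by rw [← CfH5.indFun_sub]; congr 1; ring) fun i j k hi hj => ?_
  rw [CfH5.tifn_classInner K N hTI (j.1.2.classFun.sub k.1.2.classFun)
    (fun x hx => by simp [hvan _ x hx]) (fun x hx => by simp [hvan _ x hx]) (by simp [hdeg])]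
  simp only [classInner_sub_left, classInner_sub_right, classInner_irr, Subtype.val_inj, hi,
    hj.symm, if_true, if_false]
  split_ifs <;> norm_num

end Cfsg.Agent.S0851
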