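import Cfsg.Statements.S0852
import Cfsg.Agent.OD.Pre
import Cfsg.Agent.H5.TIFN2

set_option autoImplicit false
open Cfsg

namespace Cfsg.Agent.S0852

open CfH4
open scoped ComplexConjugate

/-- Let K be a subgroup of the finite group G that meets each conjugate by an element outside its normalizer N trivially, is properly contained in N, and contains the centralizer of each of its non-identity elements (a T.I. subgroup with Frobenius normalizer). Let S be the set of irreducible characters of N taking at some element of K a value different from their degree, suppose S has at least two members, and let star be a linear isometry on the integer span of S into the generalized characters of G that agrees with induction on the members vanishing at the identity (so S is coherent, with star as the extending isometry). Then an irreducible character ψ of G is of the form star χ or -star χ for some χ in S if and only if ψ is not constant on the non-identity elements of K. -/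
theorem result {G : Type*} [Group G] [Fintype G] (K : Subgroup G) (hTI : ∀ g : G, g ∉ Subgroup.normalizer (K : Set G) → ∀ k ∈ K, g * k * g⁻¹ ∈ K → k = 1) (hlt : K < Subgroup.normalizer (K : Set G)) (hC : ∀ k ∈ K, k ≠ 1 → Subgroup.centralizer ({k} : Set G) ≤ K) [Fintype ↥(Subgroup.normalizer (K : Set G))] (S : Set (↥(Subgroup.normalizer (K : Set G)) → ℂ)) (hS : S = {χ : ↥(Subgroup.normalizer (K : Set G)) → ℂ | Cfsg.IsIrrCharacter ↥(Subgroup.normalizer (K : Set G)) χ ∧ ∃ k : ↥(Subgroup.normalizer (K : Set G)), (k : G) ∈ K ∧ χ k ≠ χ 1}) (htwo : ∃ χ ∈ S, ∃ ξ ∈ S, χ ≠ ξ) (star : (↥(Subgroup.normalizer (K : Set G)) → ℂ) → (G → ℂ)) (hstar : Cfsg.IsLinearIsometryOn (Cfsg.zspan S) star) (hext : ∀ α ∈ Cfsg.zspanOn S ({1}ᶜ : Set ↥(Subgroup.normalizer (K : Set G))), star α = Cfsg.indFun (Subgroup.normalizer (K : Set G)) α) (ψ : G → ℂ) (hψ : Cfsg.IsIrrCharacter G ψ) : (∃ χ ∈ S, ψ = star χ ∨ ψ = -star χ) ↔ ∃ a ∈ K, ∃ b ∈ K, a ≠ 1 ∧ b ≠ 1 ∧ ψ a ≠ ψ b := by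
  classical
  let N := Subgroup.normalizer (K : Set G)
  have hC' := CfH5.tifn_hC K hC N
  obtain ⟨χ0, h0, ξ0, h0', hne⟩ := htwo
  have hirr : ∀ χ ∈ S, IsIrrCharacter N χ := fun χ hχ => (hS ▸ hχ).1
  have hnt : ∀ χ ∈ S, ∃ k ∈ K.subgroupOf N, χ k ≠ χ 1 := fun χ hχ => (hS ▸ hχ).2
  have hgen : ∀ χ ∈ S, IsGeneralizedCharacter G (star χ) := fun χ hχ =>
    hstar.2.2.2 _ (CfH5.mem_zspan hχ)
  have hin : ∀ χ ∈ S, ∀ ξ ∈ S, classInner (star χ) (star ξ) = classInner χ ξ := fun χ hχ ξ hξ =>
    hstar.2.2.1 _ (CfH5.mem_zspan hχ) _ (CfH5.mem_zspan hξ)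
  constructor
  · rintro ⟨χ, hχ, h⟩
    by_contra hc
    push Not at hc
    obtain ⟨d, hd⟩ := CfH5.tifn_const K N hS ⟨χ0, h0⟩ hstar hext (hgen χ hχ) (hirr χ hχ).isGen
      (hin χ hχ)
    obtain ⟨k0, hk0, hk0'⟩ := hnt χ hχ
    have hk1 : k0 ≠ 1 := fun h => hk0' (by rw [h])
    have h1 : ∀ k : N, (k : G) ∈ K → k ≠ 1 → χ k = χ k0 := by
      intro k hk hk'
      have h2 := hc k hk k0 hk0 (fun h => hk' (Subtype.ext h)) (fun h => hk1 (Subtype.ext h))
      have h3 := hd k hk hk'
      have h4 := hd k0 hk0 hk1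
      rcases h with rfl | rfl
      · linear_combination h2 - h3 + h4
      · simp only [Pi.neg_apply] at h2
        linear_combination -h2 - h3 + h4
    obtain ⟨ξ, hξ, hξχ⟩ : ∃ ξ ∈ S, ξ ≠ χ := by
      by_cases h : χ0 = χ
      · exact ⟨ξ0, h0', fun h' => hne (h.trans h'.symm)⟩
      · exact ⟨χ0, h0, h⟩
    have h5 := (hirr ξ hξ).classInner_of_ne (hirr χ hχ) hξχ
    rw [classInner_def, mul_eq_zero] at h5
    have h6 := h5.resolve_left (inv_ne_zero natCard_ne_zero')
    have h7 : ∑ g : N, ξ g * conj (χ g) = ∑ g : N, (extendByZero (K.subgroupOf N) (fun k => ξ k) g *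
        conj (χ k0) + if g = 1 then ξ 1 * (conj (χ 1) - conj (χ k0)) else 0) := by
      refine Finset.sum_congr rfl fun g _ => ?_
      by_cases hg : g ∈ K.subgroupOf N
      · rw [CfH5.ebz_of_mem _ _ hg]
        split_ifs with h
        · subst h; simp only; ring
        · rw [h1 g hg h, add_zero]
      · rw [CfH5.ebz_of_not_mem _ _ hg, CfH5.frob_irr_vanish _ hC' (hirr χ hχ) (hnt χ hχ) hg,
          if_neg (fun h : g = 1 => hg (by rw [h]; exact one_mem _))]
        simp
    rw [h7, Finset.sum_add_distrib, ← Finset.sum_mul, CfH5.sum_ebz,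
      CfH5.irr_sum_normal_eq_zero _ (hirr ξ hξ) (hnt ξ hξ)] at h6
    simp only [zero_mul, Finset.sum_ite_eq', Finset.mem_univ, if_true, zero_add, mul_eq_zero,
      (hirr ξ hξ).apply_one_ne_zero, false_or, sub_eq_zero] at h6
    exact hk0' ((starRingEnd ℂ).injective h6).symm
  · rintro ⟨a, ha, b, hb, ha1, hb1, hab⟩
    by_contra hc
    push Not at hc
    obtain ⟨d, hd⟩ := CfH5.tifn_const K N hS ⟨χ0, h0⟩ hstar hext hψ.isGen isGen_zero (by
      intro χ hχ
      rw [classInner_zero_left]
      rcases (hgen χ hχ).irr_or_neg_irr (by rw [hin χ hχ χ hχ, (hirr χ hχ).classInner_self])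
        with h | h
      · exact hψ.classInner_of_ne h (hc χ hχ).1
      · rw [← neg_eq_zero, ← classInner_neg_right]
        exact hψ.classInner_of_ne h (hc χ hχ).2)
    have h1 := hd ⟨a, hlt.le ha⟩ ha (fun h => ha1 (congrArg Subtype.val h))
    have h2 := hd ⟨b, hlt.le hb⟩ hb (fun h => hb1 (congrArg Subtype.val h))
    simp only [Pi.zero_apply, sub_zero] at h1 h2
    exact hab (h1.trans h2.symm)

end Cfsg.Agent.S0852
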