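import Cfsg.Statements.S0853
import Cfsg.Agent.OD.Pre
import Cfsg.Agent.H5.TIFN2

set_option autoImplicit false
open Cfsg

namespace Cfsg.Agent.S0853

open CfH4

/-- Let K be a subgroup of the finite group G that meets each conjugate by an element outside its normalizer N trivially, is properly contained in N, and contains the centralizer of each of its non-identity elements (a T.I. subgroup with Frobenius normalizer). Let S be the set of irreducible characters of N taking at some element of K a value different from their degree, suppose S has at least two members, and let star be a linear isometry on the integer span of S into the generalized characters of G that agrees with induction on the members vanishing at the identity (so S is coherent, with star as the extending isometry). Then there is a single integer m such that star χ k - χ k = m * χ 1 / e for every χ in S and every non-identity element k of K, where e is the index of K in N. -/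
theorem result {G : Type*} [Group G] [Fintype G] (K : Subgroup G) (hTI : ∀ g : G, g ∉ Subgroup.normalizer (K : Set G) → ∀ k ∈ K, g * k * g⁻¹ ∈ K → k = 1) (hlt : K < Subgroup.normalizer (K : Set G)) (hC : ∀ k ∈ K, k ≠ 1 → Subgroup.centralizer ({k} : Set G) ≤ K) [Fintype ↥(Subgroup.normalizer (K : Set G))] (S : Set (↥(Subgroup.normalizer (K : Set G)) → ℂ)) (hS : S = {χ : ↥(Subgroup.normalizer (K : Set G)) → ℂ | Cfsg.IsIrrCharacter ↥(Subgroup.normalizer (K : Set G)) χ ∧ ∃ k : ↥(Subgroup.normalizer (K : Set G)), (k : G) ∈ K ∧ χ k ≠ χ 1}) (htwo : ∃ χ ∈ S, ∃ ξ ∈ S, χ ≠ ξ) (star : (↥(Subgroup.normalizer (K : Set G)) → ℂ) → (G → ℂ)) (hstar : Cfsg.IsLinearIsometryOn (Cfsg.zspan S) star) (hext : ∀ α ∈ Cfsg.zspanOn S ({1}ᶜ : Set ↥(Subgroup.normalizer (K : Set G))), star α = Cfsg.indFun (Subgroup.normalizer (K : Set G)) α) : ∃ m : ℤ, ∀ χ ∈ S, ∀ k : ↥(Subgroup.normalizer (K : Set G)), (k : G) ∈ K → k ≠ 1 → star χ k - χ k = (m : ℂ) * χ 1 / ((K.subgroupOf (Subgroup.normalizer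 (K : Set G))).index : ℂ) := by
  classical
  let N := Subgroup.normalizer (K : Set G)
  have hC' := CfH5.tifn_hC K hC N
  obtain ⟨χ0, h0, -⟩ := htwo
  have hirr : ∀ χ ∈ S, IsIrrCharacter N χ := fun χ hχ => (hS ▸ hχ).1
  have hnt : ∀ χ ∈ S, ∃ k ∈ K.subgroupOf N, χ k ≠ χ 1 := fun χ hχ => (hS ▸ hχ).2
  have hgen : ∀ χ ∈ S, IsGeneralizedCharacter G (star χ) := fun χ hχ =>
    hstar.2.2.2 _ (CfH5.mem_zspan hχ)
  have hin : ∀ χ ∈ S, ∀ ξ ∈ S, classInner (star χ) (star ξ) = classInner χ ξ := fun χ hχ ξ hξ =>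
    hstar.2.2.1 _ (CfH5.mem_zspan hχ) _ (CfH5.mem_zspan hξ)
  have hvan : ∀ χ ∈ S, ∀ x : N, (x : G) ∉ K → χ x = 0 := fun χ hχ x hx =>
    CfH5.frob_irr_vanish _ hC' (hirr χ hχ) (hnt χ hχ) hx
  choose! d hd using fun χ (hχ : χ ∈ S) => CfH5.tifn_const K N hS ⟨χ0, h0⟩ hstar hext (hgen χ hχ)
    (hirr χ hχ).isGen (hin χ hχ)
  obtain ⟨k0, hk0, hk0'⟩ := hnt χ0 h0
  have hk1 : k0 ≠ 1 := fun h => hk0' (by rw [h])
  have h1 : ∀ χ ∈ S, χ0 1 * d χ = χ 1 * d χ0 := by
    intro χ hχ
    have h2 := congrFun (CfH5.star_comb_eq_indFun N (fun χ hχ => (hirr χ hχ).isCharacter) hstar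
      hext hχ h0) k0
    rw [CfH5.tifn_indFun_eq K N hTI (((hirr χ hχ).classFun.smul _).sub
      ((hirr χ0 h0).classFun.smul _)) (fun x hx => by simp [hvan _ hχ x hx, hvan _ h0 x hx])
      (by simp [mul_comm]) k0 hk0] at h2
    simp only [Pi.sub_apply, Pi.smul_apply, smul_eq_mul] at h2
    rw [← hd χ hχ k0 hk0 hk1, ← hd χ0 h0 k0 hk0 hk1]
    linear_combination h2
  have he : ((K.subgroupOf N).index : ℂ) ≠ 0 := by
    exact_mod_cast Subgroup.index_ne_zero_of_finite
  have hχ0 := (hirr χ0 h0).apply_one_ne_zero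
  obtain ⟨c, hc⟩ := CfH5.degree_dvd_card (hirr χ0 h0) (hirr χ0 h0).isCharacter.deg_eq.symm
  have hc' : (Nat.card N : ℂ) = χ0 1 * c := by
    rw [hc, ← (hirr χ0 h0).isCharacter.deg_eq]; push_cast; rfl
  let m : ℤ := d χ0 * c - ∑ χ : IrrCharacter N,
    if ∃ k ∈ K.subgroupOf N, χ.1 k ≠ χ.1 1 then (deg χ.1 : ℤ) * d χ.1 else 0
  have hm : χ0 1 * m = d χ0 * (K.subgroupOf N).index := by
    have h3 := CfH5.sum_sq_degree_nontrivial (K.subgroupOf N)
    have h4 : ((K.subgroupOf N).index : ℂ) = χ0 1 * c - ∑ χ : IrrCharacter N,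
        (if ∃ k ∈ K.subgroupOf N, χ.1 k ≠ χ.1 1 then χ.1 1 ^ 2 else 0) := by
      rw [← hc', h3, sub_sub_cancel]
    rw [h4]
    simp only [m]
    push_cast
    rw [mul_sub, mul_sub, Finset.mul_sum, Finset.mul_sum]
    congr 1
    · ring
    refine Finset.sum_congr rfl fun χ _ => ?_
    split_ifs with h
    · rw [χ.2.isCharacter.deg_eq]
      linear_combination χ.1 1 * h1 χ.1 (hS ▸ ⟨χ.2, h⟩)
    · simp
  refine ⟨m, fun χ hχ k hk hk' => ?_⟩
  rw [hd χ hχ k hk hk', eq_div_iff he]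
  apply mul_left_cancel₀ hχ0
  linear_combination ((K.subgroupOf N).index : ℂ) * h1 χ hχ - χ 1 * hm

end Cfsg.Agent.S0853
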