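import Cfsg.Statements.S0855
import Cfsg.Agent.OD.Pre
import Cfsg.Agent.H4.DegRatio
import Cfsg.Agent.H4.Kernel
import Cfsg.Agent.H5.Integral
import Cfsg.Agent.H7.Cores2

set_option autoImplicit false
open Cfsg

open CfH4

namespace Cfsg.Agent.S0855

theorem not_dvd_commutator_index {G : Type*} [Group G] [Finite G] (p : ℕ) (hp : p.Prime) :
    ¬ p ∣ (commutator (pResidual p G)).index := by
  intro h
  haveI := Fact.mk hp
  rw [← card_hom_units] at h
  obtain ⟨f, hf⟩ := exists_prime_orderOf_dvd_card' p h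
  have hfp : ∀ x, f x ^ p = 1 := fun x => by
    have := pow_orderOf_eq_one f
    rw [hf] at this
    exact (MonoidHom.pow_apply f p x).symm.trans (by rw [this]; rfl)
  have h1 : ∀ (x : G) (hx : x ∈ Subgroup.closure {g : G | Nat.Coprime (orderOf g) p}),
      f ⟨x, hx⟩ = 1 := by
    intro x hx
    induction hx using Subgroup.closure_induction with
    | mem x hx =>
      have h2 : f ⟨x, Subgroup.subset_closure hx⟩ ^ orderOf x = 1 := by
        rw [← map_pow]
        have : (⟨x, Subgroup.subset_closure hx⟩ : pResidual p G) ^ orderOf x = 1 :=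
          Subtype.ext (pow_orderOf_eq_one x)
        rw [this, map_one]
      have h3 := orderOf_dvd_of_pow_eq_one h2
      have h4 := orderOf_dvd_of_pow_eq_one (hfp ⟨x, Subgroup.subset_closure hx⟩)
      exact orderOf_eq_one_iff.mp (Nat.eq_one_of_dvd_coprimes hx h3 h4)
    | one => exact map_one f
    | mul x y hx hy ihx ihy =>
      have := map_mul f ⟨x, hx⟩ ⟨y, hy⟩
      rw [ihx, ihy, mul_one] at this
      exact this
    | inv x hx ih =>
      have := map_inv f ⟨x, hx⟩
      rw [ih, inv_one] at this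
      exact this
  have : f = 1 := MonoidHom.ext fun x => h1 x.1 x.2
  rw [this, orderOf_one] at hf
  exact hp.one_lt.ne hf

theorem not_dvd_card {N : Type*} [Group N] [Finite N] (p : ℕ) (hp : p.Prime)
    (h : ∀ θ : N → ℂ, IsIrrCharacter N θ → ∃ j, deg θ = p ^ j)
    (hc : ¬ p ∣ (commutator N).index) : ¬ p ∣ Nat.card N := by
  classical
  intro hd
  apply hc
  rw [← sum_irr_deg_sq, ← Finset.sum_filter_add_sum_filter_not Finset.univ
    (fun χ : IrrCharacter N => (χ : N → ℂ) 1 = 1)] at hd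
  have h1 : ∑ χ ∈ Finset.univ.filter (fun χ : IrrCharacter N => (χ : N → ℂ) 1 = 1),
      deg (χ : N → ℂ) ^ 2 = (commutator N).index := by
    rw [← card_linear_irr, Nat.card_eq_fintype_card, Fintype.card_subtype, Finset.card_eq_sum_ones]
    refine Finset.sum_congr rfl fun χ hχ => ?_
    rw [deg_eq_of_eq (d := 1) (by simpa using (Finset.mem_filter.mp hχ).2), one_pow]
  have h2 : p ∣ ∑ χ ∈ Finset.univ.filter (fun χ : IrrCharacter N => ¬ (χ : N → ℂ) 1 = 1),
      deg (χ : N → ℂ) ^ 2 := by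
    refine Finset.dvd_sum fun χ hχ => ?_
    obtain ⟨j, hj⟩ := h χ χ.2
    have hj0 : j ≠ 0 := by
      rintro rfl
      apply (Finset.mem_filter.mp hχ).2
      rw [← χ.2.isCharacter.deg_eq, hj]; simp
    rw [hj]
    exact dvd_pow (dvd_pow_self p hj0) two_ne_zero
  rw [h1] at hd
  exact (Nat.dvd_add_left h2).mp hd

/-- For a finite group G and a prime p: every irreducible character of G has degree a power of p if and only if G has an abelian normal subgroup whose order is prime to p and whose index is a power of p. -/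
theorem result {G : Type*} [Group G] [Finite G] (p : ℕ) (hp : p.Prime) : (∀ χ : Cfsg.IrrCharacter G, ∃ k : ℕ, (χ : G → ℂ) 1 = (p : ℂ) ^ k) ↔ ∃ A : Subgroup G, A.Normal ∧ (∀ a ∈ A, ∀ b ∈ A, a * b = b * a) ∧ Nat.Coprime (Nat.card A) p ∧ ∃ k : ℕ, A.index = p ^ k := by
  haveI := Fact.mk hp
  haveI := Fintype.ofFinite G
  constructor
  · intro h
    set N := pResidual p G with hN
    haveI := Fintype.ofFinite N
    have h1 : ∀ θ : N → ℂ, IsIrrCharacter N θ → ∃ j, deg θ = p ^ j := by
      intro θ hθ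
      obtain ⟨χ, hχ, hne⟩ := (NEmb.sub N).exists_irr_over hθ
      have hd := (NEmb.sub N).deg_dvd_deg hχ hθ hne
      obtain ⟨k, hk⟩ := h ⟨χ, hχ⟩
      rw [deg_eq_of_eq (χ := χ) (d := p ^ k) (by rw [Nat.cast_pow]; exact hk)] at hd
      obtain ⟨j, -, hj⟩ := (Nat.dvd_prime_pow hp).mp hd
      exact ⟨j, hj⟩
    have h2 := not_dvd_card p hp h1 (not_dvd_commutator_index p hp)
    refine ⟨N, inferInstance, ?_, ((hp.coprime_iff_not_dvd.mpr h2)).symm, ?_⟩
    · have h3 : ∀ θ : N → ℂ, IsIrrCharacter N θ → θ 1 = 1 := by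
        intro θ hθ
        obtain ⟨j, hj⟩ := h1 θ hθ
        have h4 := CfH5.degree_dvd_card hθ hθ.isCharacter.deg_eq.symm
        rw [hj] at h4
        have hj0 : j = 0 := by
          by_contra hj0
          exact h2 ((dvd_pow_self p hj0).trans h4)
        rw [← hθ.isCharacter.deg_eq, hj, hj0]; simp
      intro a ha b hb
      exact congrArg Subtype.val (comm_of_forall_irr_linear h3 ⟨a, ha⟩ ⟨b, hb⟩)
    · obtain ⟨k, hk⟩ := IsPGroup.iff_card.mp (CfH7.isPGroup_quotient_pResidual p G)
      exact ⟨k, hk⟩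
  · rintro ⟨A, hA, hab, -, k, hk⟩ χ
    have h1 := χ.2.deg_dvd_index_of_comm χ.2.isCharacter.deg_eq.symm A hab
    rw [hk] at h1
    obtain ⟨j, -, hj⟩ := (Nat.dvd_prime_pow hp).mp h1
    exact ⟨j, by rw [← χ.2.isCharacter.deg_eq, hj, Nat.cast_pow]⟩

end Cfsg.Agent.S0855
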