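import Cfsg.Statements.S0858
import Cfsg.Agent.OD.Pre
import Cfsg.Agent.H4.Ramified
import Cfsg.Agent.H4.Chief

set_option autoImplicit false
open Cfsg

open CfH4

namespace Cfsg.Agent.S0858

/-- Let N be a normal subgroup of the finite group G with G / N solvable, and suppose that for every subgroup H containing N and all subgroups L < K between N and H that are normal in H with no subgroup normal in H strictly between them, the index of L in K is not a perfect square. Then every irreducible character χ of G is induced from an irreducible character ψ of some subgroup H containing N such that the restriction of ψ to N is irreducible. -/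
theorem result {G : Type*} [Group G] [Fintype G] (N : Subgroup G) [N.Normal] (hsolv : Group.IsSolvable (G ⧸ N)) (hchief : ∀ (H K L : Subgroup G), N ≤ L → L < K → K ≤ H → (∀ h ∈ H, ∀ k ∈ K, h * k * h⁻¹ ∈ K) → (∀ h ∈ H, ∀ l ∈ L, h * l * h⁻¹ ∈ L) → (∀ M : Subgroup G, L ≤ M → M ≤ K → (∀ h ∈ H, ∀ m ∈ M, h * m * h⁻¹ ∈ M) → M = L ∨ M = K) → ¬ IsSquare (L.relIndex K)) (χ : G → ℂ) (hχ : Cfsg.IsIrrCharacter G χ) : ∃ (H : Subgroup G) (hNH : N ≤ H) (ψ : H → ℂ), Cfsg.IsIrrCharacter H ψ ∧ Cfsg.indFun H ψ = χ ∧ Cfsg.IsIrrCharacter N (fun n : N => ψ ⟨(n : G), hNH n.2⟩) := by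
  classical
  obtain ⟨H, _, ψ, hNH, hψ, hind, hprim⟩ := exists_relPrim N hχ
  refine ⟨H, hNH, ψ, hψ, hind, ?_⟩
  obtain ⟨K, ⟨hK1, hK2, hK3⟩, hmin⟩ := (wellFounded_lt (α := Subgroup H)).has_min
    {K | K.Normal ∧ N.subgroupOf H ≤ K ∧ IsIrrCharacter K (fun x : K => ψ x)}
    ⟨⊤, inferInstance, le_top, hψ.comp_equiv Subgroup.topEquiv⟩
  rcases hK2.eq_or_lt with he | hlt
  · subst he
    exact hK3.comp_equiv (Subgroup.subgroupOfEquivOfLe hNH).symm
  exfalso
  obtain ⟨L, hNL, hch⟩ := exists_isChief_below inferInstance hK1 hlt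
  have hL := hch.normal_left
  have hab := hch.commutator_le (isSolvable_quotient_comap H.subtype hNL hsolv)
  rcases going_down K L hch.lt.le hch.min hab _ hK3 ((NEmb.sub K).inv_res hψ.classFun)
    with h | ⟨φ, e, -, -, h⟩ | ⟨F, hF, hcard, h⟩
  · exact hmin L ⟨hL, hNL, h⟩ hch.lt
  · have hmem : ∀ (M : Subgroup H) (x : G), x ∈ M.map H.subtype ↔ ∃ hx : x ∈ H, ⟨x, hx⟩ ∈ M := by
      intro M x
      constructor
      · rintro ⟨y, hy, rfl⟩; exact ⟨y.2, hy⟩
      · rintro ⟨hx, h⟩; exact ⟨_, h, rfl⟩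
    have hnorm : ∀ M : Subgroup H, M.Normal →
        ∀ h ∈ H, ∀ k ∈ M.map H.subtype, h * k * h⁻¹ ∈ M.map H.subtype := by
      rintro M hM h hh _ ⟨k, hk, rfl⟩
      exact ⟨_, hM.conj_mem k hk ⟨h, hh⟩, rfl⟩
    refine hchief H (K.map H.subtype) (L.map H.subtype) ?_ ?_ (Subgroup.map_subtype_le K)
      (hnorm K hK1) (hnorm L hL) ?_ ?_
    · intro n hn
      exact ⟨⟨n, hNH hn⟩, hNL hn, rfl⟩
    · exact (Subgroup.map_lt_map_iff_of_injective H.subtype_injective).2 hch.lt
    · intro M h1 h2 h3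
      have hMH : M ≤ H := h2.trans (Subgroup.map_subtype_le K)
      rw [← Subgroup.map_subgroupOf_eq_of_le hMH]
      rcases hch.min (M.subgroupOf H) ⟨fun m hm h => h3 h h.2 m hm⟩
        (Subgroup.map_le_iff_le_comap.1 h1) (fun m hm => by
          obtain ⟨_, h⟩ := (hmem K m).1 (h2 hm)
          exact h) with h4 | h4
      · left; rw [h4]
      · right; rw [h4]
    · rw [Subgroup.relIndex_map_map_of_injective _ _ H.subtype_injective, ← h]
      exact ⟨e, sq e⟩
  · have := Fintype.ofFinite L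
    obtain ⟨φ, e, hφ, he⟩ := hprim.homog hψ L hNL
    have h1 : ∀ η ∈ F, η = φ := by
      intro η hη
      have h2 : classInner (∑ φ ∈ F, φ) η = 1 := by
        rw [classInner_sum_left, Finset.sum_congr rfl fun ξ hξ => (hF ξ hξ).classInner_eq (hF η hη),
          Finset.sum_ite_eq', if_pos hη]
      have h3 : (∑ φ ∈ F, φ) = (e : ℂ) • φ := h.symm.trans he
      rw [h3, classInner_smul_left] at h2
      exact (hφ.eq_of_classInner_ne_zero (hF η hη)
        (right_ne_zero_of_mul (h2 ▸ one_ne_zero))).symm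
    have h2 : F.card ≤ 1 := Finset.card_le_one.2 fun a ha b hb => (h1 a ha).trans (h1 b hb).symm
    rw [hcard] at h2
    have h3 : L.relIndex K ≠ 0 := Subgroup.index_ne_zero_of_finite
    exact hch.lt.not_ge (Subgroup.relIndex_eq_one.1 (by omega))

end Cfsg.Agent.S0858
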