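import Cfsg.Statements.S0859
import Cfsg.Agent.OD.Pre
import Cfsg.Agent.H4.Prim

set_option autoImplicit false
open Cfsg

open CfH4

namespace Cfsg.Agent.S0859

/-- Let G be a finite solvable group and N a normal subgroup such that for every prime p every Sylow p-subgroup of N is abelian. Suppose every irreducible character of G is induced from an irreducible character of some subgroup containing N whose restriction to N is irreducible. Then every irreducible character of G is induced from a character of degree 1 of some subgroup. -/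
theorem result {G : Type*} [Group G] [Fintype G] [Group.IsSolvable G] (N : Subgroup G) [N.Normal] (hab : ∀ (p : ℕ) [Fact p.Prime] (P : Sylow p N), ∀ a ∈ P, ∀ b ∈ P, a * b = b * a) (hrel : ∀ χ : G → ℂ, Cfsg.IsIrrCharacter G χ → ∃ (H : Subgroup G) (hNH : N ≤ H) (ψ : H → ℂ), Cfsg.IsIrrCharacter H ψ ∧ Cfsg.indFun H ψ = χ ∧ Cfsg.IsIrrCharacter N (fun n : N => ψ ⟨(n : G), hNH n.2⟩)) (χ : G → ℂ) (hχ : Cfsg.IsIrrCharacter G χ) : ∃ (U : Subgroup G) (lam : U → ℂ), Cfsg.IsCharacter U lam ∧ lam 1 = 1 ∧ Cfsg.indFun U lam = χ := by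
  obtain ⟨H, hNH, ψ, hψ, hind, hψN⟩ := hrel χ hχ
  have := Fintype.ofFinite H
  obtain ⟨U, _, θ, -, hθ, hind', hprim⟩ := exists_relPrim ⊥ hψ
  have h1 : IsIrrCharacter (N.subgroupOf H) (fun n => indFun U θ n) := by
    rw [hind']
    exact hψN.comp_equiv (Subgroup.subgroupOfEquivOfLe hNH)
  obtain ⟨-, h2⟩ := res_irr_of_ind_res_irr hθ.isCharacter h1
  have h3 : θ 1 = 1 := by
    refine linear_of_quasiprim hθ (fun A hA => hprim.homog hθ A (by simp)) _ ?_ h2
    intro p hp Q hQ hpQ a ha b hb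
    have := Fact.mk hp
    let f : (N.subgroupOf H).subgroupOf U →* N :=
      { toFun := fun x => ⟨x.1.1.1, x.2⟩, map_one' := rfl, map_mul' := fun _ _ => rfl }
    obtain ⟨P, hP⟩ := ((hpQ.comap_subtype (K := (N.subgroupOf H).subgroupOf U)).map f).exists_le_sylow
    have := hab p P _ (hP ⟨⟨a, hQ ha⟩, ha, rfl⟩) _ (hP ⟨⟨b, hQ hb⟩, hb, rfl⟩)
    exact Subtype.ext (Subtype.ext (congrArg (fun x : N => (x : G)) this))
  refine ⟨U.map H.subtype, _, ?_, ?_, by rw [← CfH5.indFun_trans_map, hind', hind]⟩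
  · exact hθ.isCharacter.comp (U.equivMapOfInjective H.subtype H.subtype_injective).symm.toMonoidHom
  · simpa using h3

end Cfsg.Agent.S0859
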