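import Cfsg.Statements.S0860
import Cfsg.Agent.OD.Pre
import Cfsg.Agent.H4.Orth2
import Cfsg.Agent.OD.Helper4x82133bf7c0

set_option autoImplicit false
open Cfsg

open CfH4

namespace Cfsg.Agent.S0860

/-- Let a group A act on the set of irreducible characters and on the set of conjugacy classes of a finite group G in such a way that (a • χ) evaluated on the class a • C equals χ evaluated on C, for all a, χ and C. Then every element of A fixes exactly as many irreducible characters as it fixes conjugacy classes. -/
theorem result {G : Type*} [Group G] [Finite G] {A : Type*} [Group A] [MulAction A (Cfsg.IrrCharacter G)] [MulAction A (ConjClasses G)] (hcompat : ∀ (a : A) (χ : Cfsg.IrrCharacter G) (g g' : G), ConjClasses.mk g' = a • ConjClasses.mk g → ((a • χ : Cfsg.IrrCharacter G) : G → ℂ) g' = (χ : G → ℂ) g) (a : A) : Nat.card {χ : Cfsg.IrrCharacter G // a • χ = χ} = Nat.card {C : ConjClasses G // a • C = C} := by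
  classical
  have := Fintype.ofFinite (ConjClasses G)
  let T : (ConjClasses G → ℂ) →ₗ[ℂ] (ConjClasses G → ℂ) := LinearMap.funLeft ℂ ℂ (fun C => a⁻¹ • C)
  have h1 := trace_eq_card_fixed (irrBasis G) T (fun χ => a • χ) (fun χ => by
    ext C
    obtain ⟨g', rfl⟩ := ConjClasses.mk_surjective C
    obtain ⟨g, hg⟩ := ConjClasses.mk_surjective (a⁻¹ • ConjClasses.mk g')
    rw [irrBasis_apply, hcompat a χ g g' (by rw [hg, smul_inv_smul])]
    simp only [T, LinearMap.funLeft_apply]
    rw [← hg, irrBasis_apply])
  have h2 := trace_eq_card_fixed (Pi.basisFun ℂ (ConjClasses G)) T (fun C => a • C) (fun C => by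
    ext D
    simp [T, LinearMap.funLeft_apply, Pi.single_apply, inv_smul_eq_iff])
  exact_mod_cast h1.symm.trans h2

end Cfsg.Agent.S0860
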