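import Cfsg.Statements.S0861
import Cfsg.Agent.OD.Pre
import Cfsg.Agent.H4.Galois
import Cfsg.Agent.H4.DegRatio
import Cfsg.Agent.H4.Kernel

set_option autoImplicit false
open Cfsg

open CfH4

namespace Cfsg.Agent.S0861

/-- Let P be a normal abelian Sylow p-subgroup of the finite group G and suppose some element g of P has centralizer exactly P. Then the number of irreducible characters of G is at most the order of P, and if equality holds then G / P is abelian (the commutator subgroup lies in P). -/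
theorem result {G : Type*} [Group G] [Finite G] (p : ℕ) [Fact p.Prime] (P : Sylow p G) [(P : Subgroup G).Normal] (hab : ∀ a ∈ P, ∀ b ∈ P, a * b = b * a) (g : G) (hg : g ∈ P) (hC : Subgroup.centralizer ({g} : Set G) = P) : Nat.card (Cfsg.IrrCharacter G) ≤ Nat.card P ∧ (Nat.card (Cfsg.IrrCharacter G) = Nat.card P → commutator G ≤ P) := by
  classical
  have hp : p.Prime := Fact.out
  obtain ⟨ι, _, _, m, hm, H⟩ := exists_galois_avg g
  have hne : ∀ χ : G → ℂ, IsIrrCharacter G χ → χ g ≠ 0 := by
    intro χ hχ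
    have h1 := hχ.deg_dvd_index_of_comm hχ.isCharacter.deg_eq.symm P hab
    obtain ⟨k, hk⟩ := P.isPGroup' ⟨g, hg⟩
    exact hχ.isCharacter.ne_zero_of_pElement hp hχ.isCharacter.deg_eq.symm
      (fun h => P.not_dvd_index (h.trans h1)) (k := k) (congrArg Subtype.val hk)
  have hcent : ∀ i, Subgroup.centralizer ({g ^ m i} : Set G) = P := by
    intro i
    rw [← hC]
    ext x
    simp only [Subgroup.mem_centralizer_iff, Set.mem_singleton_iff, forall_eq]
    constructor
    · intro h
      obtain ⟨j, hj⟩ := exists_pow_eq_self_of_coprime (hm i)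
      rw [← hj]
      exact (Commute.pow_left h j : Commute ((g ^ m i) ^ j) x)
    · intro h
      exact (Commute.pow_left h (m i) : Commute (g ^ m i) x)
  have hsum : ∑ χ : IrrCharacter G, ∑ i, ‖(χ : G → ℂ) (g ^ m i)‖ ^ 2 =
      Fintype.card ι * (Nat.card P : ℝ) := by
    rw [Finset.sum_comm]
    simp only [sum_irr_normSq, hcent, Finset.sum_const, Finset.card_univ, nsmul_eq_mul]
  have hle : ∀ χ : IrrCharacter G, (Fintype.card ι : ℝ) ≤ ∑ i, ‖(χ : G → ℂ) (g ^ m i)‖ ^ 2 :=
    fun χ => (H χ χ.2.isCharacter (hne χ χ.2)).2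
  have hι : (0 : ℝ) < Fintype.card ι := by exact_mod_cast Fintype.card_pos
  have hsum' : ∑ _χ : IrrCharacter G, (Fintype.card ι : ℝ) =
      Fintype.card ι * (Nat.card (IrrCharacter G) : ℝ) := by
    rw [Finset.sum_const, Finset.card_univ, nsmul_eq_mul, Nat.card_eq_fintype_card, mul_comm]
  constructor
  · have := Finset.sum_le_sum fun χ (_ : χ ∈ Finset.univ) => hle χ
    rw [hsum, hsum'] at this
    exact_mod_cast le_of_mul_le_mul_left this hι
  · intro heq x hx
    have h1 := (Finset.sum_eq_sum_iff_of_le fun χ (_ : χ ∈ Finset.univ) => hle χ).mp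
      (by rw [hsum, hsum', heq])
    refine mem_of_forall_irr (P : Subgroup G) fun χ hχ hk => ?_
    have h2 := h1 ⟨χ, hχ⟩ (Finset.mem_univ _)
    have h3 : ∀ i, χ (g ^ m i) = χ 1 := fun i => hk _ ((P : Subgroup G).pow_mem hg _)
    simp only [h3, Finset.sum_const, Finset.card_univ, nsmul_eq_mul] at h2
    have h4 : ‖χ 1‖ ^ 2 = 1 := by
      have : (Fintype.card ι : ℝ) * 1 = Fintype.card ι * ‖χ 1‖ ^ 2 := by rw [mul_one]; exact h2
      exact (mul_left_cancel₀ hι.ne' this).symm
    have h5 : χ 1 = 1 := by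
      rw [← hχ.isCharacter.deg_eq] at h4 ⊢
      rw [Complex.norm_natCast] at h4
      have : deg χ ^ 2 = 1 := by exact_mod_cast h4
      rw [(Nat.pow_eq_one.mp this).resolve_right two_ne_zero]
      simp
    rw [hχ.isCharacter.apply_commutator_of_apply_one h5 hx, h5]

end Cfsg.Agent.S0861
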