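import Cfsg.Statements.S0865
import Cfsg.Agent.OD.Pre
import Cfsg.Agent.H4.LinExt

set_option autoImplicit false
open Cfsg

open CfH4

namespace Cfsg.Agent.S0865

/-- Let N be a normal subgroup of the finite group G and λ a character of N of degree 1, invariant under conjugation by G, whose order (under pointwise multiplication) is coprime to the index of N. Then there is a character μ of G of degree 1 restricting to λ with the same order as λ, and μ is the only degree-1 character of G restricting to λ whose order is coprime to the index of N. -/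
theorem result {G : Type*} [Group G] [Finite G] (N : Subgroup G) [hN : N.Normal] (lam : N → ℂ) (hlam : Cfsg.IsCharacter N lam ∧ lam 1 = 1) (hinv : ∀ (g : G) (n : N), lam ⟨g * n * g⁻¹, hN.conj_mem (n : G) n.2 g⟩ = lam n) (hcop : Nat.Coprime N.index (orderOf lam)) : ∃ μ : G → ℂ, (Cfsg.IsCharacter G μ ∧ μ 1 = 1 ∧ (∀ n : N, μ n = lam n) ∧ orderOf μ = orderOf lam) ∧ ∀ μ' : G → ℂ, Cfsg.IsCharacter G μ' ∧ μ' 1 = 1 → (∀ n : N, μ' n = lam n) → Nat.Coprime N.index (orderOf μ') → μ' = μ := by
  obtain ⟨l, rfl⟩ := hlam.1.exists_homFun hlam.2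
  rw [orderOf_homFun] at hcop ⊢
  have hc : (NEmb.sub N).ι.range.index.Coprime (orderOf l) := by rwa [NEmb.sub_range]
  obtain ⟨f, hf, hfo⟩ := (NEmb.sub N).exists_ext_orderOf_eq
    ((NEmb.sub N).mem_extHoms_of_coprime ((NEmb.sub N).invHom_of_inv hinv) hc
      (by rw [pow_orderOf_eq_one l]; exact Subgroup.one_mem _)) hc
  refine ⟨homFun G f, ⟨homFun_char f, homFun_one f, fun n => congrArg Units.val (hf n),
    by rw [orderOf_homFun, hfo]⟩, fun μ' hμ' h1 h2 => ?_⟩
  obtain ⟨f', rfl⟩ := hμ'.1.exists_homFun hμ'.2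
  rw [orderOf_homFun] at h2
  congr 1
  refine (NEmb.sub N).eq_of_res_eq_of_coprime (fun n => ?_) (m := orderOf f' * orderOf f)
    (by rw [NEmb.sub_range, hfo]; exact h2.mul_right hcop) ?_
  · rw [hf]; exact Units.ext (h1 n)
  · exact (orderOf_dvd_iff_pow_eq_one.1 (dvd_mul_right _ _)).trans
      (orderOf_dvd_iff_pow_eq_one.1 (dvd_mul_left _ _)).symm

end Cfsg.Agent.S0865
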