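import Cfsg.Statements.S0867
import Cfsg.Agent.OD.Pre
import Cfsg.Agent.H4.DegRatio

set_option autoImplicit false
open Cfsg

open CfH4

namespace Cfsg.Agent.S0867

/-- Let N be a normal subgroup of the finite group G and ϑ an irreducible character of N of degree d, invariant under conjugation by G, such that the index of N is coprime to the product of d and the determinantal order of ϑ. Then there is an irreducible character χ of G restricting to ϑ whose determinantal order equals that of ϑ, and χ is the only irreducible character of G restricting to ϑ whose determinantal order is coprime to the index of N. -/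
theorem result {G : Type*} [Group G] [Finite G] (N : Subgroup G) [hN : N.Normal] (ϑ : N → ℂ) (hϑ : Cfsg.IsIrrCharacter N ϑ) (hinv : ∀ (g : G) (n : N), ϑ ⟨g * n * g⁻¹, hN.conj_mem (n : G) n.2 g⟩ = ϑ n) (d : ℕ) (hd : ϑ 1 = d) (hcop : Nat.Coprime N.index (Cfsg.detOrder ϑ * d)) : ∃ χ : G → ℂ, (Cfsg.IsIrrCharacter G χ ∧ (∀ n : N, χ n = ϑ n) ∧ Cfsg.detOrder χ = Cfsg.detOrder ϑ) ∧ ∀ χ' : G → ℂ, Cfsg.IsIrrCharacter G χ' → (∀ n : N, χ' n = ϑ n) → Nat.Coprime N.index (Cfsg.detOrder χ') → χ' = χ := by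
  obtain ⟨l, hl⟩ := hϑ.isCharacter.exists_detHom
  have hdo : detOrder ϑ = orderOf l := by rw [detOrder, hl, orderOf_homFun]
  rw [hdo] at hcop ⊢
  have hc1 : (NEmb.sub N).ι.range.index.Coprime (orderOf l) := by
    rw [NEmb.sub_range]; exact hcop.coprime_mul_right_right
  have hc2 : (NEmb.sub N).ι.range.index.Coprime d := by
    rw [NEmb.sub_range]; exact hcop.coprime_mul_left_right
  have hli : (NEmb.sub N).InvHom l := fun g n => by
    ext
    rw [← homFun_apply, ← homFun_apply, ← hl]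
    have := hϑ.isCharacter.detChar_comp ((NEmb.sub N).actEquiv g).toMonoidHom n
    rw [show (fun x => ϑ (((NEmb.sub N).actEquiv g).toMonoidHom x)) = ϑ from funext (hinv g)]
      at this
    exact this.symm
  obtain ⟨f, hf, hfo⟩ := (NEmb.sub N).exists_ext_orderOf_eq
    ((NEmb.sub N).mem_extHoms_of_coprime hli hc1
      (by rw [pow_orderOf_eq_one l]; exact Subgroup.one_mem _)) hc1
  have hf' : ∀ n : N, (f ((NEmb.sub N).ι n) : ℂ) = detChar ϑ n := fun n => by
    rw [hf, hl, homFun_apply]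
  obtain ⟨η, hη, hηN⟩ := (NEmb.sub N).extends_of_det hϑ hinv hd hc2 f hf'
  obtain ⟨χ, ⟨hχ, hχN, hχd⟩, huniq⟩ :=
    (NEmb.sub N).existsUnique_ext_det hϑ hd hc2 hη.isCharacter hηN f hf'
  refine ⟨χ, ⟨hχ, hχN, by rw [detOrder, hχd, orderOf_homFun, hfo]⟩, fun χ' h1 h2 h3 => ?_⟩
  refine huniq χ' ⟨h1, h2, ?_⟩
  obtain ⟨f', hD⟩ := h1.isCharacter.exists_detHom
  rw [detOrder, hD, orderOf_homFun] at h3
  rw [hD]
  congr 1
  refine (NEmb.sub N).eq_of_res_eq_of_coprime (fun n => ?_) (m := orderOf f' * orderOf f)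
    (by rw [hfo]; exact Nat.Coprime.mul_right (by rwa [NEmb.sub_range]) hc1) ?_
  · ext
    rw [hf', ← homFun_apply, ← hD, ← funext h2]
    exact (h1.isCharacter.detChar_comp N.subtype n).symm
  · exact (orderOf_dvd_iff_pow_eq_one.1 (dvd_mul_right _ _)).trans
      (orderOf_dvd_iff_pow_eq_one.1 (dvd_mul_left _ _)).symm

end Cfsg.Agent.S0867
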