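import Cfsg.Statements.S0868
import Cfsg.Agent.OD.Pre
import Cfsg.Agent.H4.Gallagher
import Cfsg.Agent.OD.Helper4x2f6a8fcc28

set_option autoImplicit false
open scoped ComplexConjugate
open Cfsg

open CfH4

namespace Cfsg.Agent.S0868

/-- Let N be a normal subgroup of the finite group G, χ an irreducible character of G whose restriction ϑ to N is irreducible, and ψ an irreducible character of G. Define η on G by η g = (1 / order of N) * Σ over n in N of ψ (n * g) * conj (χ (n * g)). Then: if the restriction of ψ to N has nonzero inner product with ϑ, η is an irreducible character of G; if that inner product is zero, η vanishes identically; and if ψ = χ then η is identically 1. -/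
theorem result {G : Type*} [Group G] [Fintype G] (N : Subgroup G) [N.Normal] [Fintype N] (χ : G → ℂ) (hχ : Cfsg.IsIrrCharacter G χ) (hχN : Cfsg.IsIrrCharacter N (fun n : N => χ n)) (ψ : G → ℂ) (hψ : Cfsg.IsIrrCharacter G ψ) (η : G → ℂ) (hη : η = fun g => (Nat.card N : ℂ)⁻¹ * ∑ n : N, ψ ((n : G) * g) * conj (χ ((n : G) * g))) : (Cfsg.classInner (fun n : N => ψ n) (fun n : N => χ n) ≠ 0 → Cfsg.IsIrrCharacter G η) ∧ (Cfsg.classInner (fun n : N => ψ n) (fun n : N => χ n) = 0 → η = 0) ∧ (ψ = χ → η = fun _ => 1) := by
  classical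
  have hA : IsClassFunction G (ψ * fun g => conj (χ g)) := hψ.classFun.mul hχ.classFun.conj
  have key : ∀ g, η g = ∑ β : IrrCharacter G,
      if ∀ n : N, (β : G → ℂ) n = (β : G → ℂ) 1 then
        classInner ψ ((β : G → ℂ) * χ) * (β : G → ℂ) g else 0 := by
    intro g
    rw [hη]
    simp only [classInner_mul_right]
    exact (NEmb.sub N).avg_classFun hA g
  have key2 : ∀ β : G → ℂ, IsIrrCharacter G β → (∀ n : N, β n = β 1) → β * χ = ψ → η = β := by
    intro β hβ hβN he
    ext g
    rw [key, Finset.sum_eq_single ⟨β, hβ⟩]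
    · simp only
      rw [if_pos hβN, he, hψ.classInner_self, one_mul]
    · intro γ _ hγ
      split_ifs with hγN
      · rw [hψ.classInner_of_ne ((NEmb.sub N).gallagher_irr hχ.isCharacter hχN γ.2 hγN), zero_mul]
        intro h
        exact hγ (Subtype.ext ((NEmb.sub N).gallagher_inj hχ.isCharacter hχN γ.2 hγN hβ hβN
          (h.symm.trans he.symm)))
      · rfl
    · simp
  refine ⟨fun h => ?_, fun h => ?_, fun h => ?_⟩
  · obtain ⟨β, hβ, hβN, he⟩ := (NEmb.sub N).gallagher_surj hχ.isCharacter hχN hψ h
    rw [key2 β hβ hβN he]; exact hβ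
  · ext g
    rw [key, Finset.sum_eq_zero]
    · rfl
    intro γ _
    split_ifs with hγN
    · have := ((NEmb.sub N).gallagher hχ.isCharacter hχN).1 ⟨γ.2, hγN⟩
      rw [hψ.classInner_of_ne this.1, zero_mul]
      intro he
      apply this.2
      simp only [← he]
      exact h
    · rfl
  · exact key2 _ isIrrCharacter_one (fun _ => rfl) (by rw [h]; ext; simp)

end Cfsg.Agent.S0868
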