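import Cfsg.Statements.S0869
import Cfsg.Agent.OD.Pre
import Cfsg.Agent.H5.BrauerPre

set_option autoImplicit false
open Cfsg

namespace Cfsg.Agent.S0869

/-- Let S be a nonempty finite type and R an additive subgroup of the integer-valued functions on S that is closed under pointwise multiplication. If the constant function 1 is not in R, then there exist a point x of S and a prime p such that p divides f x for every f in R. -/
theorem result {S : Type*} [Finite S] [Nonempty S] (R : AddSubgroup (S → ℤ)) (hmul : ∀ f ∈ R, ∀ g ∈ R, f * g ∈ R) (h1 : (1 : S → ℤ) ∉ R) : ∃ (x : S) (p : ℕ), p.Prime ∧ ∀ f ∈ R, (p : ℤ) ∣ f x := by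
  classical
  have := Fintype.ofFinite S
  by_contra hc
  push Not at hc
  have h2 : ∀ x : S, ∃ f ∈ R, f x = 1 := by
    intro x
    obtain ⟨n, hn⟩ := Int.subgroup_cyclic (R.map (Pi.evalAddMonoidHom (fun _ => ℤ) x))
    have h3 : n.natAbs = 1 := by
      by_contra h4
      obtain ⟨p, hp, hpn⟩ := Nat.exists_prime_and_dvd h4
      obtain ⟨f, hf, hf'⟩ := hc x p hp
      apply hf'
      have h5 : f x ∈ R.map (Pi.evalAddMonoidHom (fun _ => ℤ) x) := ⟨f, hf, rfl⟩
      rw [hn, AddSubgroup.mem_closure_singleton] at h5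
      obtain ⟨k, hk⟩ := h5
      rw [← hk, smul_eq_mul]
      exact Dvd.dvd.mul_left (Int.natCast_dvd.2 hpn) _
    have h5 : (1 : ℤ) ∈ R.map (Pi.evalAddMonoidHom (fun _ => ℤ) x) := by
      rw [hn, AddSubgroup.mem_closure_singleton]
      exact ⟨n, by rw [smul_eq_mul, ← Int.natAbs_mul_self, h3]; rfl⟩
    exact h5
  choose f hf hf1 using h2
  have := CfH5.prod_const_mem R hmul f (fun _ => 1) hf (by simpa using hf1)
  apply h1
  simp only [Finset.prod_const_one, Int.cast_one] at this
  exact this

end Cfsg.Agent.S0869
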