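import Cfsg.Statements.S0870
import Cfsg.Agent.OD.Pre
import Cfsg.Agent.H5.Ind2

set_option autoImplicit false
open Cfsg

namespace Cfsg.Agent.S0870

/-- For subgroups H and K of a finite group G, the pointwise product of the functions induced from the constant function 1 on H and on K is a sum, over subgroups U of H with natural-number coefficients, of the functions induced from the constant function 1 on U. -/
theorem result {G : Type*} [Group G] [Fintype G] (H K : Subgroup G) : ∃ a : Subgroup G → ℕ, (∀ U, a U ≠ 0 → U ≤ H) ∧ Cfsg.indFun H (fun _ => 1) * Cfsg.indFun K (fun _ => 1) = ∑ U : Subgroup G, (a U : ℂ) • Cfsg.indFun U (fun _ => 1) := by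
  classical
  obtain ⟨n, U, hU, h⟩ := CfH5.indFun_one_mul_indFun_one H K
  refine ⟨fun V => (Finset.univ.filter fun i => U i = V).card, fun V hV => ?_, ?_⟩
  · obtain ⟨i, hi⟩ := Finset.card_ne_zero.1 hV
    rw [← (Finset.mem_filter.1 hi).2]; exact hU i
  · rw [h, ← Finset.sum_fiberwise (s := Finset.univ) (g := U)]
    refine Finset.sum_congr (by congr) fun V _ => ?_
    rw [Finset.sum_congr rfl (g := fun _ => Cfsg.indFun V (fun _ => 1)) (by
      intro x hx; rw [(Finset.mem_filter.1 hx).2]), Finset.sum_const, Nat.cast_smul_eq_nsmul]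

end Cfsg.Agent.S0870
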