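import Cfsg.Statements.S0871
import Cfsg.Agent.OD.Pre
import Cfsg.Agent.H5.BrauerPre

set_option autoImplicit false
open Cfsg

namespace Cfsg.Agent.S0871

/-- Let x be an element of the finite group G and p a prime. Then there is a subgroup H having a cyclic normal subgroup C of order prime to p and p-power index in H, such that the value at x of the function induced from the constant function 1 on H is a natural number not divisible by p. -/
theorem result {G : Type*} [Group G] [Fintype G] (x : G) (p : ℕ) (hp : p.Prime) : ∃ H : Subgroup G, (∃ C : Subgroup G, C ≤ H ∧ H ≤ Subgroup.normalizer (C : Set G) ∧ IsCyclic C ∧ Nat.Coprime (Nat.card C) p ∧ ∃ k : ℕ, C.relIndex H = p ^ k) ∧ ∃ n : ℕ, Cfsg.indFun H (fun _ => 1) x = (n : ℂ) ∧ ¬ p ∣ n := by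
  have := Fact.mk hp
  obtain ⟨a, ha⟩ := CfH5.exists_pow_orderOf_coprime x hp
  set c := x ^ p ^ a with hc
  let C := Subgroup.zpowers c
  obtain ⟨P, hP, hPN, hPi⟩ := CfH5.exists_sylow_le p (Subgroup.normalizer (C : Set G))
  have hHN : C ⊔ P ≤ Subgroup.normalizer (C : Set G) := sup_le Subgroup.le_normalizer hPN
  obtain ⟨k, hk⟩ := CfH5.relIndex_sup_eq_pow hP hPN
  refine ⟨C ⊔ P, ⟨C, le_sup_left, hHN, inferInstance, by rw [Nat.card_zpowers]; exact ha, k, hk⟩, _,
    CfH5.indFun_one_eq_card_fixed _ x, fun hdvd => ?_⟩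
  have h1 := CfH5.card_fixed_pow_modEq (Ω := G ⧸ (C ⊔ P)) x p a
  rw [← hc] at h1
  have h2 := CfH5.card_mul_indFun_one (C ⊔ P) c
  rw [CfH5.indFun_one_eq_card_fixed] at h2
  have h3 : Nat.card {g : G // g⁻¹ * c * g ∈ C ⊔ P} =
      Nat.card (Subgroup.normalizer (C : Set G)) := by
    refine Nat.card_congr (Equiv.subtypeEquivRight fun g => ⟨fun hg => ?_, fun hg => ?_⟩)
    · have hn : (C.subgroupOf (C ⊔ P)).Normal := Subgroup.normal_subgroupOf_of_le_normalizer hHN
      have h4 := Subgroup.pow_index_mem (C.subgroupOf (C ⊔ P)) ⟨_, hg⟩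
      rw [Subgroup.mem_subgroupOf] at h4
      have h5 : (g⁻¹ * c * g) ^ p ^ k ∈ C := by
        rw [← hk]; exact h4
      have h6 : orderOf (g⁻¹ * c * g) = orderOf c := by
        have := (MulAut.conj g⁻¹).orderOf_eq c
        simpa using this
      obtain ⟨m, hm⟩ := exists_pow_eq_self_of_coprime (x := g⁻¹ * c * g) (n := p ^ k)
        (by rw [h6]; exact Nat.Coprime.pow_left _ ha.symm)
      have h7 : g⁻¹ * c * g ∈ C := hm ▸ C.pow_mem h5 m
      rw [← Subgroup.inv_mem_iff]
      apply Subgroup.mem_normalizer_fintype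
      rintro _ ⟨j, rfl⟩
      have := C.zpow_mem h7 j
      have h8 := conj_zpow (a := g⁻¹) (b := c) (i := j)
      rw [inv_inv] at h8 ⊢
      rwa [h8] at this
    · apply Subgroup.mem_sup_left
      exact (Subgroup.mem_normalizer_iff''.1 hg c).1 (Subgroup.mem_zpowers c)
  rw [h3] at h2
  have h4 : Nat.card (C ⊔ P : Subgroup G) * Nat.card {q : G ⧸ (C ⊔ P) // c • q = q} =
      Nat.card (Subgroup.normalizer (C : Set G)) := by exact_mod_cast h2
  have h5 := ((C ⊔ P).subgroupOf (Subgroup.normalizer (C : Set G))).card_mul_index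
  rw [Nat.card_congr (Subgroup.subgroupOfEquivOfLe hHN).toEquiv, ← h4] at h5
  have h6 := Nat.eq_of_mul_eq_mul_left Nat.card_pos h5
  apply hPi
  have h7 : p ∣ (C ⊔ P).relIndex (Subgroup.normalizer (C : Set G)) := by
    rw [Subgroup.relIndex, h6]
    exact (h1.dvd_iff dvd_rfl).2 hdvd
  exact h7.trans (Subgroup.relIndex_dvd_of_le_left _ le_sup_right)

end Cfsg.Agent.S0871
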