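import Cfsg.Statements.S0872
import Cfsg.Agent.OD.Pre
import Cfsg.Agent.H5.BrauerPre
import Cfsg.Agent.S0871

set_option autoImplicit false
open Cfsg

namespace Cfsg.Agent.S0872

/-- For a finite group G and a prime p there are an integer m not divisible by p and a ℤ-linear combination of functions induced from the constant function 1 on subgroups H, each having a cyclic normal subgroup of order prime to p and p-power index in H, that equals the constant function m. -/
theorem result {G : Type*} [Group G] [Fintype G] (p : ℕ) (hp : p.Prime) : ∃ (m : ℤ) (a : Subgroup G → ℤ), ¬ (p : ℤ) ∣ m ∧ (∀ H, a H ≠ 0 → (∃ C : Subgroup G, C ≤ H ∧ H ≤ Subgroup.normalizer (C : Set G) ∧ IsCyclic C ∧ Nat.Coprime (Nat.card C) p ∧ ∃ k : ℕ, C.relIndex H = p ^ k)) ∧ (fun _ : G => (m : ℂ)) = ∑ H : Subgroup G, (a H : ℂ) • Cfsg.indFun H (fun _ => 1) := by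
  classical
  let Q : Subgroup G → Prop := fun H => ∃ C : Subgroup G, C ≤ H ∧
    H ≤ Subgroup.normalizer (C : Set G) ∧ IsCyclic C ∧ Nat.Coprime (Nat.card C) p ∧
      ∃ k : ℕ, C.relIndex H = p ^ k
  have hQ : ∀ H U, Q H → U ≤ H → Q U := by
    rintro H U ⟨C, h1, h2, h3, h4, k, h5⟩ hU
    refine ⟨C ⊓ U, inf_le_right, ?_, Subgroup.isCyclic_of_le (inf_le_left : C ⊓ U ≤ C),
      Nat.Coprime.coprime_dvd_left (Subgroup.card_dvd_of_le inf_le_left) h4, ?_⟩
    · exact (le_inf (hU.trans h2) Subgroup.le_normalizer).trans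
        (Subgroup.inf_normalizer_le_normalizer_inf)
    · have hn : (C.subgroupOf H).Normal := Subgroup.normal_subgroupOf_of_le_normalizer h2
      have h6 := Subgroup.relIndex_dvd_index_of_normal (C.subgroupOf H) (U.subgroupOf H)
      rw [Subgroup.relIndex_subgroupOf hU] at h6
      rw [Subgroup.inf_relIndex_right]
      obtain ⟨j, -, hj⟩ := (Nat.dvd_prime_pow hp).1 (h5 ▸ h6 : C.relIndex U ∣ p ^ k)
      exact ⟨j, hj⟩
  let R : AddSubgroup (G → ℂ) :=
    { carrier := {f | ∃ a : Subgroup G → ℤ, (∀ H, a H ≠ 0 → Q H) ∧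
        f = ∑ H : Subgroup G, (a H : ℂ) • Cfsg.indFun H (fun _ => 1)}
      zero_mem' := ⟨0, by simp, by simp⟩
      add_mem' := by
        rintro _ _ ⟨a, ha, rfl⟩ ⟨b, hb, rfl⟩
        refine ⟨a + b, fun H hH => ?_, by simp [add_smul, Finset.sum_add_distrib]⟩
        by_cases h : a H = 0
        · exact hb H (by simpa [h] using hH)
        · exact ha H h
      neg_mem' := by
        rintro _ ⟨a, ha, rfl⟩
        exact ⟨-a, fun H hH => ha H (by simpa using hH), by simp⟩ }
  have hR : ∀ H, Q H → Cfsg.indFun H (fun _ => 1) ∈ R := by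
    intro H hH
    refine ⟨Pi.single H 1, fun K hK => ?_, ?_⟩
    · by_cases h : K = H
      · exact h ▸ hH
      · simp [h] at hK
    · rw [Finset.sum_eq_single H (fun K _ h => by simp [h]) (by simp)]; simp
  have hmul : ∀ f ∈ R, ∀ g ∈ R, f * g ∈ R := by
    rintro _ ⟨a, ha, rfl⟩ _ ⟨b, hb, rfl⟩
    rw [Finset.sum_mul_sum]
    refine sum_mem fun H _ => sum_mem fun K _ => ?_
    by_cases h : a H = 0
    · simpa [h] using R.zero_mem
    obtain ⟨n, U, hU, h1⟩ := CfH5.indFun_one_mul_indFun_one H K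
    rw [smul_mul_smul_comm, h1, ← Int.cast_mul, Int.cast_smul_eq_zsmul]
    exact R.zsmul_mem (sum_mem fun i _ => hR _ (hQ H _ (ha H h) (hU i))) _
  choose H hH n hn hpn using fun x : G => Cfsg.Agent.S0871.result x p hp
  obtain ⟨a, ha, h⟩ := CfH5.prod_const_mem R hmul (fun x => Cfsg.indFun (H x) (fun _ => 1))
    (fun x => n x) (fun x => hR _ (hH x)) (by simpa using hn)
  refine ⟨_, a, ?_, ha, by convert h⟩
  rw [(Nat.prime_iff_prime_int.1 hp).dvd_finsetProd_iff]
  rintro ⟨x, -, hx⟩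
  exact hpn x (Int.natCast_dvd_natCast.1 hx)

end Cfsg.Agent.S0872
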