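import Cfsg.Statements.S0873
import Cfsg.Agent.OD.Pre
import Cfsg.Agent.H4.Char

set_option autoImplicit false
open Cfsg

namespace Cfsg.Agent.S0873

open CfH4

/-- Let C be a normal subgroup of the finite group G of order prime to p and P a p-subgroup with C ⊔ P = G. Let λ be a character of C of degree 1 invariant under conjugation by G and equal to 1 at every element of C centralized by P. Then λ is identically 1. -/
theorem result {G : Type*} [Group G] [Finite G] (p : ℕ) [Fact p.Prime] (C P : Subgroup G) [hC : C.Normal] (hP : IsPGroup p P) (hcop : Nat.Coprime (Nat.card C) p) (hCP : C ⊔ P = ⊤) (lam : C → ℂ) (hlam : Cfsg.IsCharacter C lam ∧ lam 1 = 1) (hinv : ∀ (g : G) (c : C), lam ⟨g * c * g⁻¹, hC.conj_mem (c : G) c.2 g⟩ = lam c) (hker : ∀ c : C, (c : G) ∈ Subgroup.centralizer (P : Set G) → lam c = 1) : lam = fun _ => 1 := by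
  obtain ⟨f, hf⟩ := hlam.1.exists_hom hlam.2
  ext c0
  let X := {c : C // f c = f c0}
  have hX : Nat.card X = Nat.card f.ker :=
    Nat.card_congr ⟨fun c => ⟨c0⁻¹ * c.1, by simp [MonoidHom.mem_ker, c.2]⟩,
      fun k => ⟨c0 * k.1, by rw [map_mul, MonoidHom.mem_ker.1 k.2, mul_one]⟩,
      fun c => by simp, fun k => by simp⟩
  let _ : MulAction P X :=
    { smul := fun g c => ⟨⟨g * c.1 * (g : G)⁻¹, hC.conj_mem _ c.1.2 g⟩, by
        refine Eq.trans ?_ c.2; apply Units.ext; rw [← hf, ← hf, hinv]⟩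
      one_smul := fun c => Subtype.ext (Subtype.ext (by
        change ((1 : P) : G) * c.1 * ((1 : P) : G)⁻¹ = c.1; simp))
      mul_smul := fun a b c => Subtype.ext (Subtype.ext (by
        change ((a * b : P) : G) * c.1 * ((a * b : P) : G)⁻¹ = a * (b * c.1 * (b : G)⁻¹) * (a : G)⁻¹
        simp [mul_assoc])) }
  obtain ⟨c, hc⟩ := hP.nonempty_fixed_point_of_prime_not_dvd_card X (by
    rw [hX]
    intro h
    exact (Fact.out : p.Prime).one_lt.ne' (Nat.eq_one_of_dvd_coprimes hcop
      (h.trans (Subgroup.card_subgroup_dvd_card _)) dvd_rfl))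
  rw [hf, ← c.2, ← hf]
  apply hker
  intro g hg
  have := congrArg (fun x : X => (x.1 : G)) (hc ⟨g, hg⟩)
  exact mul_inv_eq_iff_eq_mul.1 this

end Cfsg.Agent.S0873
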