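import Cfsg.Statements.S0875
import Cfsg.Agent.OD.Pre
import Cfsg.Agent.H5.Elementary

set_option autoImplicit false
open Cfsg

namespace Cfsg.Agent.S0875

open CfH4

/-- Let G be a finite group of order m * n with m and n coprime, and g an element whose order is coprime to m. Every x in G factors uniquely as x = u * v with u, v commuting, the order of u coprime to n and the order of v coprime to m; let ϑ be the function on G equal to n at those x whose factor v is conjugate to g and equal to 0 elsewhere. Then ϑ is a linear combination of the irreducible characters of G with algebraic-integer coefficients. -/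
theorem result {G : Type*} [Group G] [Fintype G] (m n : ℕ) (hmn : Nat.card G = m * n) (hcop : Nat.Coprime m n) (g : G) (hg : Nat.Coprime (orderOf g) m) (ϑ : G → ℂ) (hϑ1 : ∀ x : G, (∃ v : G, IsConj v g ∧ (∃ u : G, x = u * v ∧ Commute u v ∧ Nat.Coprime (orderOf u) n ∧ Nat.Coprime (orderOf v) m)) → ϑ x = n) (hϑ0 : ∀ x : G, (¬ ∃ v : G, IsConj v g ∧ (∃ u : G, x = u * v ∧ Commute u v ∧ Nat.Coprime (orderOf u) n ∧ Nat.Coprime (orderOf v) m)) → ϑ x = 0) : ∃ c : Cfsg.IrrCharacter G → ℂ, (∀ χ, c χ ∈ Cfsg.AlgInt) ∧ ϑ = ∑ᶠ χ : Cfsg.IrrCharacter G, c χ • (χ : G → ℂ) := by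
  classical
  obtain ⟨e, h1, h2⟩ := CfH5.exists_piExp hcop
  have hd : ∀ x : G, orderOf x ∣ m * n := fun x => hmn ▸ orderOf_dvd_natCard x
  have key : ∀ x : G, (∃ v : G, IsConj v g ∧ (∃ u : G, x = u * v ∧ Commute u v ∧
      Nat.Coprime (orderOf u) n ∧ Nat.Coprime (orderOf v) m)) ↔ IsConj (x ^ e) g := by
    intro x
    constructor
    · rintro ⟨v, hv, u, rfl, huv, hu, hv'⟩
      rwa [huv.mul_pow, CfH5.pow_piExp_of_dvd_left h1 (hu.dvd_of_dvd_mul_right (hd u)),
        CfH5.pow_piExp_of_dvd_right h2 (hv'.dvd_of_dvd_mul_left (hd v)), one_mul]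
    · intro h
      refine ⟨x ^ e, h, x * (x ^ e)⁻¹, by simp, ?_, ?_, ?_⟩
      · exact ((Commute.refl x).pow_right e).mul_left (Commute.refl _).inv_left
      · exact Nat.Coprime.coprime_dvd_left (CfH5.orderOf_mul_inv_pow_piExp_dvd h2 (hd x)) hcop
      · exact Nat.Coprime.coprime_dvd_left (CfH5.orderOf_pow_piExp_dvd h1 (hd x)) hcop.symm
  have hϑ : ∀ x, ϑ x = if IsConj (x ^ e) g then (n : ℂ) else 0 := by
    intro x
    split_ifs with h
    · exact hϑ1 x ((key x).2 h)
    · exact hϑ0 x (mt (key x).1 h)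
  have hc : IsClassFunction G ϑ := by
    intro x y
    rw [hϑ, hϑ, conj_pow]
    have h3 : IsConj (x ^ e) (y * x ^ e * y⁻¹) := isConj_iff.2 ⟨y, rfl⟩
    exact if_congr ⟨fun h => h3.trans h, fun h => h3.symm.trans h⟩ rfl rfl
  have h3 : ϑ ∈ CfH5.charSpan AlgInt.toSubring G := by
    refine CfH5.mem_charSpan_of_piPart hcop hmn h1 h2 hc (fun x => ?_) fun V p _ _ hV => ?_
    · rw [hϑ, hϑ, CfH5.pow_piExp_of_dvd_right h2 (CfH5.orderOf_pow_piExp_dvd h1 (hd x))]
    · refine CfH5.mem_charSpan_of_card_mul (hc.res V) fun x => ?_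
      rw [hϑ]
      split_ifs
      · obtain ⟨k, rfl⟩ := hV
        rw [Nat.cast_mul, mul_div_cancel_left₀ _ (CfH5.natCard_ne_zero V)]
        exact isIntegral_algebraMap (R := ℤ) (x := (k : ℤ))
      · rw [zero_div]; exact isIntegral_zero
  refine ⟨fun χ => classInner ϑ χ, fun χ =>
    CfH5.classInner_mem_of_mem_charSpan h3 χ.2.isCharacter, ?_⟩
  rw [finsum_eq_sum_of_fintype]
  exact hc.eq_sum

end Cfsg.Agent.S0875
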