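import Cfsg.Statements.S0876
import Cfsg.Agent.OD.Pre
import Cfsg.Agent.S0875

set_option autoImplicit false
open Cfsg

namespace Cfsg.Agent.S0876

open CfH4

/-- Let G be a finite group, p a prime and M a maximal ideal of the ring of algebraic integers containing p. Let x, y be elements with p-parts a and b (so a⁻¹ * x and b⁻¹ * y are their p-regular parts). Then a⁻¹ * x and b⁻¹ * y are conjugate in G if and only if, for every irreducible character χ, the difference χ x - χ y lies in the local ideal at M. -/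
theorem result {G : Type*} [Group G] [Finite G] (p : ℕ) (M : Ideal Cfsg.AlgInt) (hM : Cfsg.IsPModular p M) (x y a b : G) (ha : Cfsg.IsPPart p x a) (hb : Cfsg.IsPPart p y b) : IsConj (a⁻¹ * x) (b⁻¹ * y) ↔ ∀ χ : Cfsg.IrrCharacter G, Cfsg.MemLocalIdeal M ((χ : G → ℂ) x - (χ : G → ℂ) y) := by
  classical
  obtain ⟨hp, hM, hpM⟩ := hM
  have := Fintype.ofFinite G
  have := Fact.mk hp
  let _ := Ideal.Quotient.field M
  have hchar : CharP (AlgInt ⧸ M) p := (CharP.charP_iff_prime_eq_zero hp).2 (by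
    rw [← map_natCast (Ideal.Quotient.mk M), Ideal.Quotient.eq_zero_iff_mem]; exact hpM)
  let r : IrrCharacter G → G → AlgInt ⧸ M := fun χ g =>
    Ideal.Quotient.mk M ⟨χ.1 g, CfH5.isIntegral_char χ.2.isCharacter g⟩
  have hr : ∀ χ g k, r χ (g ^ p ^ k) = r χ g ^ p ^ k := by
    intro χ g k
    obtain ⟨d, μ, -, h2, h3⟩ := CfH5.char_eq_sum_roots χ.2.isCharacter g (orderOf_pos g).ne'
      (pow_orderOf_eq_one g)
    let ν : Fin d → AlgInt := fun i =>
      ⟨μ i, CfH5.isIntegral_of_pow_eq_one (orderOf_pos g).ne' (h2 i)⟩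
    have h4 : ∀ j : ℕ, r χ (g ^ j) = ∑ i, Ideal.Quotient.mk M (ν i) ^ j := by
      intro j
      simp only [r, ← map_pow, ← map_sum]
      congr 1
      apply Subtype.ext
      simp [h3, ν]
    have h5 := h4 1
    rw [pow_one] at h5
    rw [h4, h5, sum_pow_char_pow]
    simp
  have hpart : ∀ x a : G, IsPPart p x a → (∀ χ, r χ (a⁻¹ * x) = r χ x) ∧
      ¬ p ∣ orderOf (a⁻¹ * x) ∧ Commute a (a⁻¹ * x) ∧ ∃ k, orderOf a = p ^ k := by
    rintro _ a ⟨z, rfl, hc, ⟨k, hk⟩, hz⟩
    rw [inv_mul_cancel_left]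
    refine ⟨fun χ => ?_, hz, hc, k, hk⟩
    have h1 : r χ z ^ p ^ k = r χ (a * z) ^ p ^ k := by
      rw [← hr, ← hr, hc.mul_pow, ← hk, pow_orderOf_eq_one, one_mul]
    rw [← sub_eq_zero, ← sub_pow_char_pow] at h1
    exact sub_eq_zero.1 (pow_eq_zero_iff (pow_pos hp.pos k).ne' |>.1 h1)
  have hloc : ∀ χ : IrrCharacter G, MemLocalIdeal M (χ.1 x - χ.1 y) ↔ r χ x = r χ y := by
    intro χ
    simp only [r]
    rw [Ideal.Quotient.eq]
    constructor
    · rintro ⟨c, d, hc, hd, h⟩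
      have hd0 : (d : ℂ) ≠ 0 := fun h0 => hd (by rw [show d = 0 from Subtype.ext h0]; exact M.zero_mem)
      refine (hM.isPrime.mem_or_mem (y := d) ?_).resolve_right hd
      convert hc
      apply Subtype.ext
      rw [div_eq_iff hd0] at h
      simp [h]
    · intro h
      exact ⟨_, 1, h, fun h1 => hM.ne_top ((Ideal.eq_top_iff_one M).2 h1), by simp⟩
  obtain ⟨hx1, hx2, hx3, kx, hx4⟩ := hpart x a ha
  obtain ⟨hy1, hy2, hy3, ky, hy4⟩ := hpart y b hb
  simp only [hloc]
  constructor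
  · intro h χ
    rw [← hx1, ← hy1]
    simp only [r, χ.2.classFun.of_isConj h]
  · intro h
    by_contra hc
    obtain ⟨k, n, hn, hG⟩ := Nat.exists_eq_pow_mul_and_not_dvd (Nat.card_pos (α := G)).ne' p
      hp.ne_one
    have hcop : ∀ {j t : ℕ}, ¬ p ∣ t → (p ^ j).Coprime t := fun ht =>
      Nat.Coprime.pow_left _ ((Nat.Prime.coprime_iff_not_dvd hp).2 ht)
    let Q : G → Prop := fun z => ∃ v : G, IsConj v (a⁻¹ * x) ∧ (∃ u : G, z = u * v ∧ Commute u v ∧
      Nat.Coprime (orderOf u) n ∧ Nat.Coprime (orderOf v) (p ^ k))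
    obtain ⟨c, hc1, hc2⟩ := Cfsg.Agent.S0875.result (p ^ k) n hG (hcop hn) (a⁻¹ * x)
      (hcop hx2).symm (fun z => if Q z then (n : ℂ) else 0) (fun z hz => if_pos hz)
      (fun z hz => if_neg hz)
    rw [finsum_eq_sum_of_fintype] at hc2
    have e1 := congrFun hc2 (a⁻¹ * x)
    have e2 := congrFun hc2 (b⁻¹ * y)
    rw [if_pos ⟨_, IsConj.refl _, 1, by simp, by simp, by simp, (hcop hx2).symm⟩] at e1
    rw [if_neg] at e2
    · have e3 : ∀ z (t : ℕ), (t : ℂ) = (∑ χ : IrrCharacter G, c χ • χ.1) z →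
          (t : AlgInt ⧸ M) = ∑ χ, Ideal.Quotient.mk M ⟨c χ, hc1 χ⟩ * r χ z := by
        intro z t ht
        simp only [r, ← map_mul, ← map_sum]
        rw [← map_natCast (Ideal.Quotient.mk M)]
        congr 1
        apply Subtype.ext
        simpa using ht
      have e4 := e3 _ n e1
      have e5 := e3 _ 0 (by simpa using e2)
      simp only [hx1, h] at e4
      simp only [hy1] at e5
      rw [← e5, Nat.cast_zero, CharP.cast_eq_zero_iff _ p] at e4
      exact hn e4
    · rintro ⟨v, hv, u, huv, hc3, hu, hv'⟩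
      apply hc
      obtain ⟨e, h1, h2⟩ := CfH5.exists_piExp (hcop (j := k) hn)
      have hd : ∀ x : G, orderOf x ∣ p ^ k * n := fun x => hG ▸ orderOf_dvd_natCard x
      have h3 := congrArg (· ^ e) huv
      simp only [hc3.mul_pow, CfH5.pow_piExp_of_dvd_left h1 (hu.dvd_of_dvd_mul_right (hd u)),
        CfH5.pow_piExp_of_dvd_right h2 (hv'.dvd_of_dvd_mul_left (hd v)), one_mul,
        CfH5.pow_piExp_of_dvd_right h2 ((hcop hy2).symm.dvd_of_dvd_mul_left (hd _))] at h3
      rw [h3]; exact hv.symm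

end Cfsg.Agent.S0876
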