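import Cfsg.Statements.S0877
import Cfsg.Agent.OD.Pre
import Cfsg.Agent.H5.Elementary

set_option autoImplicit false
open Cfsg

namespace Cfsg.Agent.S0877

open CfH4
open scoped ComplexConjugate

/-- Let H be a subgroup of the finite group G whose order is coprime to its index. Suppose that elements of H conjugate in G are conjugate in H, and that every subgroup E of G that is elementary for some prime (in the sense used for Brauer's characterisation of characters) and whose order divides the order of H is conjugate to a subgroup of H. Then there is a normal subgroup K with K ⊔ H = ⊤ and K ⊓ H trivial. -/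
theorem result {G : Type*} [Group G] [Finite G] (H : Subgroup G) (hHall : Nat.Coprime (Nat.card H) H.index) (hfus : ∀ x ∈ H, ∀ y ∈ H, IsConj x y → ∃ h ∈ H, h * x * h⁻¹ = y) (helem : ∀ (E : Subgroup G) (p : ℕ), p.Prime → Cfsg.IsElementary p E → Nat.card E ∣ Nat.card H → ∃ g : G, E.map (MulAut.conj g).toMonoidHom ≤ H) : ∃ K : Subgroup G, K.Normal ∧ K ⊔ H = ⊤ ∧ K ⊓ H = ⊥ := by
  classical
  have := Fintype.ofFinite G
  have hG : Nat.card G = H.index * Nat.card H := H.index_mul_card.symm
  obtain ⟨e, h1, h2⟩ := CfH5.exists_piExp hHall.symm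
  have hd : ∀ x : G, orderOf x ∣ H.index * Nat.card H := fun x => hG ▸ orderOf_dvd_natCard x
  have hex : ∀ g : G, ∃ h : H, IsConj (g ^ e) h := by
    intro g
    obtain ⟨p, hpG, hp⟩ := Nat.exists_infinite_primes (Nat.card G + 1)
    have hE : IsElementary p (Subgroup.zpowers (g ^ e)) := by
      refine ⟨⟨_, Subgroup.mem_zpowers _⟩, ?_, ?_, 0, ?_⟩
      · rw [Subgroup.mem_center_iff]; intro a; exact mul_comm' _ _
      · exact (Nat.coprime_of_lt_prime (orderOf_pos _).ne' (by
          rw [Subgroup.orderOf_mk]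
          exact Nat.lt_of_le_of_lt orderOf_le_card hpG) hp).symm
      · rw [pow_zero, Subgroup.index_eq_one, eq_top_iff]
        rintro ⟨_, j, rfl⟩ -
        exact ⟨j, rfl⟩
    obtain ⟨c, hc⟩ := helem _ p hp hE (by
      rw [Nat.card_zpowers]; exact CfH5.orderOf_pow_piExp_dvd h1 (hd g))
    exact ⟨⟨_, hc ⟨_, Subgroup.mem_zpowers _, rfl⟩⟩, isConj_iff.2 ⟨c, rfl⟩⟩
  choose σ hσ using hex
  have hfus' : ∀ x y : H, IsConj (x : G) y → IsConj x y := fun x y h => by
    obtain ⟨c, hc, h⟩ := hfus x x.2 y y.2 h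
    exact isConj_iff.2 ⟨⟨c, hc⟩, Subtype.ext h⟩
  have hσ1 : ∀ (g : G) (h : H), IsConj g h → IsConj (σ g) h := by
    intro g h hgh
    refine hfus' _ _ ((hσ g).symm.trans ?_)
    have := hgh.pow e
    rwa [CfH5.pow_piExp_of_dvd_right h2 (Subgroup.orderOf_dvd_natCard H h.2)] at this
  have hσ2 : ∀ g g' : G, IsConj (g ^ e) (g' ^ e) → IsConj (σ g) (σ g') := fun g g' h =>
    hfus' _ _ ((hσ g).symm.trans (h.trans (hσ g')))
  have hspan : ∀ (A : Subring ℂ), ∀ θ ∈ CfH5.charSpan A H,
      (fun g => θ (σ g)) ∈ CfH5.charSpan A G := by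
    intro A θ hθ
    have hc := CfH5.charSpan_classFun hθ
    refine CfH5.mem_charSpan_of_piPart hHall.symm hG h1 h2 (fun x y => hc.of_isConj (hσ2 _ _ ?_))
      (fun x => hc.of_isConj (hσ2 _ _ ?_)) fun V p hp hV hV' => ?_
    · exact ((isConj_iff.2 ⟨y, rfl⟩ : IsConj x (y * x * y⁻¹)).pow e).symm
    · rw [CfH5.pow_piExp_of_dvd_right h2 (CfH5.orderOf_pow_piExp_dvd h1 (hd x))]
    · obtain ⟨c, hc'⟩ := helem V p hp hV hV'
      let f : V →* H := ((MulAut.conj c).toMonoidHom.comp V.subtype).codRestrict H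
        fun v => hc' ⟨v, v.2, rfl⟩
      convert CfH5.charSpan_comp hθ f using 2 with v
      exact hc.of_isConj (hσ1 _ _ (isConj_iff.2 ⟨c, rfl⟩))
  let z : H → ℕ := fun h => Nat.card (Subgroup.centralizer ({h} : Set H))
  let t : H → ℕ := fun h => (Finset.univ.filter fun g => IsConj h (σ g)).card
  have hz : ∀ (θ : H → ℂ), IsClassFunction H θ → ∀ y : H,
      ∑ h : H, (if IsConj h y then (z h : ℂ) * θ h else 0) = Nat.card H * θ y := by
    intro θ hθ y
    have h3 : ∀ h : H, (if IsConj h y then (z h : ℂ) * θ h else 0) =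
        if IsConj y h then (z y : ℂ) * θ y else 0 := by
      intro h
      by_cases hh : IsConj h y
      · rw [if_pos hh, if_pos hh.symm, hθ.of_isConj hh]
        have := sum_irr_mul_conj h y
        have h4 := sum_irr_mul_conj_self y
        rw [if_pos hh] at this
        simp only [z]
        rw [← this, ← h4]
        simp only [fun χ : IrrCharacter H => χ.2.classFun.of_isConj hh]
      · rw [if_neg hh, if_neg fun h => hh h.symm]
    simp only [h3]
    rw [← Finset.sum_filter, Finset.sum_const, nsmul_eq_mul, ← mul_assoc, ← Fintype.card_subtype,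
      Fintype.card_eq_nat_card, CfH5.natCard_isConj, ← Nat.cast_mul, Subgroup.index_mul_card]
  have hsum : ∀ (θ : H → ℂ), IsClassFunction H θ →
      ∑ h : H, (t h * z h : ℕ) * θ h = Nat.card H * ∑ g : G, θ (σ g) := by
    intro θ hθ
    simp only [Finset.mul_sum, ← hz θ hθ]
    rw [Finset.sum_comm]
    refine Finset.sum_congr rfl fun h _ => ?_
    rw [← Finset.sum_filter, Finset.sum_const, nsmul_eq_mul, Nat.cast_mul, mul_assoc]
  have hge : ∀ h ∈ (Finset.univ : Finset H), Nat.card G ≤ t h * z h := by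
    intro h _
    let δ : H → ℂ := ∑ χ : IrrCharacter H, conj (χ.1 h) • χ.1
    have hδ : δ ∈ CfH5.charSpan AlgInt.toSubring H := sum_mem fun χ _ =>
      CfH5.smul_mem_charSpan (CfH5.isIntegral_conj (CfH5.isIntegral_char χ.2.isCharacter h))
        (CfH5.mem_charSpan_of_isCharacter χ.2.isCharacter)
    have hδ2 : ∀ y, δ y = if IsConj h y then (z h : ℂ) else 0 := by
      intro y
      have := congrArg conj (sum_irr_mul_conj h y)
      simp only [map_sum, map_mul, Complex.conj_conj] at this
      simp only [δ, Finset.sum_apply, Pi.smul_apply, smul_eq_mul, this, z]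
      split_ifs <;> simp
    have h3 := CfH5.classInner_mem_of_mem_charSpan (hspan _ δ hδ) isCharacter_one
    rw [classInner_def] at h3
    simp only [hδ2, map_one, mul_one] at h3
    rw [← Finset.sum_filter, Finset.sum_const, nsmul_eq_mul, ← Nat.cast_mul, mul_comm,
      ← div_eq_mul_inv] at h3
    refine Nat.le_of_dvd (Nat.mul_pos ?_ Nat.card_pos)
      (CfH5.dvd_of_isIntegral_div Nat.card_pos.ne' h3)
    exact Finset.card_pos.2 ⟨h, by simpa using (hσ1 h h (IsConj.refl _)).symm⟩
  have heq := (Finset.sum_eq_sum_iff_of_le hge).1 (by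
    have := hsum (fun _ => 1) (isClassFunction_const 1)
    simp only [mul_one, Finset.sum_const, Finset.card_univ, nsmul_eq_mul,
      Fintype.card_eq_nat_card, smul_eq_mul] at this ⊢
    exact_mod_cast this.symm)
  have hirr : ∀ χ : IrrCharacter H, IsIrrCharacter G (fun g => χ.1 (σ g)) := by
    intro χ
    refine (CfH5.isGenChar_of_mem_charSpan_bot (hspan _ _
      (CfH5.mem_charSpan_of_isCharacter χ.2.isCharacter))).isIrr_of_re_nonneg ?_ ?_
    · have h3 := hsum _ (χ.2.classFun.mul χ.2.classFun.conj)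
      have h4 := card_mul_classInner χ.1 χ.1
      simp only [← heq _ (Finset.mem_univ _), ← Finset.mul_sum, Pi.mul_apply, ← h4,
        χ.2.classInner_self, mul_one] at h3
      rw [classInner_def, inv_mul_eq_one₀ natCard_ne_zero']
      exact mul_left_cancel₀ (CfH5.natCard_ne_zero H) (by rw [← h3, mul_comm])
    · rw [χ.2.classFun.of_isConj (hσ1 1 1 (IsConj.refl _)), ← χ.2.isCharacter.deg_eq]; simp
  obtain ⟨N, hN, hN1, hN2⟩ := CfH5.exists_normal_inf_of_extend H (MonoidHom.id H)
    (fun χ g => χ.1 (σ g)) (fun χ => (hirr χ).isCharacter)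
    (fun χ x => χ.2.classFun.of_isConj (hσ1 _ _ (IsConj.refl _)))
  have hdisj : N ⊓ H = ⊥ := by
    rw [eq_bot_iff]
    rintro x ⟨hx, hx'⟩
    exact congrArg Subtype.val ((hN2 ⟨x, hx'⟩).1 hx)
  refine ⟨N, hN, ?_, hdisj⟩
  refine (Subgroup.isComplement'_of_card_mul_and_disjoint ?_ (disjoint_iff.2 hdisj)).sup_eq_top
  rw [heq 1 (Finset.mem_univ _)]
  congr 1
  · rw [Nat.card_eq_fintype_card, Fintype.card_subtype]
    congr 1
    ext x
    have h3 : σ 1 = 1 := isConj_one_left.1 (hσ1 1 1 (IsConj.refl _))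
    simp only [Finset.mem_filter, Finset.mem_univ, true_and, hN1, h3, isConj_one_right]
    exact ⟨fun h => eq_one_of_forall_irr fun χ hχ => h ⟨χ, hχ⟩, fun h χ => by rw [h]⟩
  · simp only [z]
    rw [show Subgroup.centralizer ({1} : Set H) = ⊤ by
      ext; simp [Subgroup.mem_centralizer_singleton_iff]]
    simp

end Cfsg.Agent.S0877
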