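import Cfsg.Statements.S0892
import Cfsg.Agent.OD.Pre
import Cfsg.Agent.H5.DoubleCover

set_option autoImplicit false
open Cfsg

namespace Cfsg.Agent.S0892

/-- Let n ≥ 4 with n ≠ 6 and n ≠ 7, and let Γ be a finite group with a subgroup Z contained in both the centre and the commutator subgroup of Γ such that Γ / Z is isomorphic to the alternating group on n letters. Then Z has order at most 2. -/
theorem result (n : ℕ) (hn : 4 ≤ n) (h6 : n ≠ 6) (h7 : n ≠ 7) {Γ : Type*} [Group Γ] [Finite Γ] (Z : Subgroup Γ) [Z.Normal] (hZc : Z ≤ Subgroup.center Γ) (hZd : Z ≤ commutator Γ) (e : Γ ⧸ Z ≃* alternatingGroup (Fin n)) : Nat.card Z ≤ 2 := by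
  let π : Γ →* Equiv.Perm (Fin n) :=
    ((alternatingGroup (Fin n)).subtype.comp e.toMonoidHom).comp (QuotientGroup.mk' Z)
  have hk : π.ker = Z := by
    ext x
    simp [π, MonoidHom.mem_ker]
  have hr : π.range = alternatingGroup (Fin n) := by
    refine le_antisymm ?_ fun σ hσ => ?_
    · rintro _ ⟨x, rfl⟩; exact (e x).2
    · obtain ⟨x, hx⟩ := QuotientGroup.mk_surjective (e.symm ⟨σ, hσ⟩)
      exact ⟨x, by simp [π, hx]⟩
  rw [← hk] at hZc hZd ⊢
  exact CfH5.card_ker_le_two π hr hZc hZd (by simpa) (by simpa) (by simpa)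

end Cfsg.Agent.S0892
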