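import Cfsg.Statements.S0893
import Cfsg.Agent.OD.Pre
import Cfsg.Agent.H5.Extraspecial

set_option autoImplicit false
open Cfsg

namespace Cfsg.Agent.S0893

open CfH4

/-- Let P be an extraspecial p-group of order p ^ (2 * n + 1), A an abelian subgroup of order p ^ (n + 1), and λ a character of A of degree 1 that is not identically 1 on the elements of A lying in the centre of P. Then the function induced from λ to P is an irreducible character of P and vanishes at every element outside the centre. -/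
theorem result {P : Type*} [Group P] [Fintype P] (p n : ℕ) [Fact p.Prime] (hP : Cfsg.IsExtraspecial p P) (hcard : Nat.card P = p ^ (2 * n + 1)) (A : Subgroup P) (hab : ∀ a ∈ A, ∀ b ∈ A, a * b = b * a) (hA : Nat.card A = p ^ (n + 1)) (lam : A → ℂ) (hlam : Cfsg.IsCharacter A lam ∧ lam 1 = 1) (hZ : ∃ a : A, (a : P) ∈ Subgroup.center P ∧ lam a ≠ 1) : Cfsg.IsIrrCharacter P (Cfsg.indFun A lam) ∧ ∀ x : P, x ∉ Subgroup.center P → Cfsg.indFun A lam x = 0 := by
  obtain ⟨a, ha, ha'⟩ := hZ
  obtain ⟨f, hf⟩ := hlam.1.exists_hom hlam.2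
  have ha1 : (a : P) ≠ 1 := fun h => ha' (by rw [show a = 1 from Subtype.ext h, hlam.2])
  have hZA : Subgroup.center P ≤ A := fun z hz =>
    (Subgroup.zpowers_le.2 a.2) (CfH5.extraspecial_mem_zpowers hP ha ha1 hz)
  have h1 : ∀ z (hz : z ∈ Subgroup.center P) x,
      indFun A lam (z * x) = lam ⟨z, hZA hz⟩ * indFun A lam x := by
    intro z hz x
    rw [CfH5.indFun_apply, CfH5.indFun_apply, mul_left_comm, Finset.mul_sum _ _ (lam _)]
    congr 1
    refine Finset.sum_congr rfl fun g _ => ?_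
    have h2 : g⁻¹ * (z * x) * g = z * (g⁻¹ * x * g) := by
      rw [← mul_assoc, Subgroup.mem_center_iff.1 hz]; group
    rw [h2]
    by_cases hg : g⁻¹ * x * g ∈ A
    · rw [CfH5.ebz_of_mem _ _ hg, CfH5.ebz_of_mem _ _ (A.mul_mem (hZA hz) hg),
        ← hlam.1.map_mul_of_apply_one hlam.2]; rfl
    · rw [CfH5.ebz_of_not_mem _ _ hg, CfH5.ebz_of_not_mem, mul_zero]
      rwa [A.mul_mem_cancel_left (hZA hz)]
  have h2 : ∀ x, x ∉ Subgroup.center P → indFun A lam x = 0 := by
    intro x hx
    refine CfH5.extraspecial_vanish hP (CfH5.indFun_isClassFunction A lam)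
      (fun z hz hz1 => ⟨_, fun h => ha' ?_, h1 z hz⟩) hx
    obtain ⟨k, hk⟩ := CfH5.extraspecial_mem_zpowers hP hz hz1 ha
    have h3 : a = ⟨z, hZA hz⟩ ^ k := Subtype.ext hk.symm
    rw [hf] at h
    rw [hf, h3, map_zpow, show f ⟨z, hZA hz⟩ = 1 from Units.ext h]; simp
  refine ⟨(CfH5.isCharacter_indFun A hlam.1).isIrr_of_classInner_self ?_, h2⟩
  have hp := (Fact.out : p.Prime).pos
  have h3 : A.index = p ^ n := by
    have := A.card_mul_index
    rw [hA, hcard, show 2 * n + 1 = n + 1 + n by ring, pow_add _ (n + 1)] at this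
    exact Nat.eq_of_mul_eq_mul_left (pow_pos hp _) this
  rw [CfH5.classInner_self_of_vanish (Subgroup.center P) (d := (p ^ n : ℕ)) h2 (fun z hz => by
    have := h1 z hz 1
    rw [mul_one] at this
    rw [this, CfH5.indFun_one, hlam.2, h3, norm_mul, hlam.1.norm_eq_one_of_apply_one hlam.2]
    simp), CfH5.extraspecial_index_center hP hcard]
  push_cast
  exact div_self (by exact_mod_cast (pow_pos (pow_pos hp n) 2).ne')

end Cfsg.Agent.S0893
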