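import Cfsg.Statements.S0894
import Cfsg.Agent.OD.Pre
import Cfsg.Agent.H5.Extraspecial

set_option autoImplicit false
open Cfsg

namespace Cfsg.Agent.S0894

open CfH4

/-- Let P be an extraspecial p-group of order p ^ (2 * n + 1). Then every irreducible character of P has degree 1 or p ^ n, and exactly p - 1 of them have degree p ^ n. -/
theorem result {P : Type*} [Group P] [Finite P] (p n : ℕ) [Fact p.Prime] (hP : Cfsg.IsExtraspecial p P) (hcard : Nat.card P = p ^ (2 * n + 1)) : (∀ χ : Cfsg.IrrCharacter P, (χ : P → ℂ) 1 = 1 ∨ (χ : P → ℂ) 1 = (p : ℂ) ^ n) ∧ Nat.card {χ : Cfsg.IrrCharacter P // (χ : P → ℂ) 1 = (p : ℂ) ^ n} = p - 1 := by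
  classical
  have hp := (Fact.out : p.Prime)
  have h1 : ∀ χ : Cfsg.IrrCharacter P, (χ : P → ℂ) 1 = 1 ∨ (χ : P → ℂ) 1 = (p : ℂ) ^ n :=
    fun χ => or_iff_not_imp_left.2 (CfH5.extraspecial_irr_degree hP hcard χ.2)
  refine ⟨h1, ?_⟩
  have h2 := CfH5.extraspecial_index_center hP hcard
  have hn : p ^ n ≠ 1 := by
    intro h
    rw [h, one_pow, Subgroup.index_eq_one] at h2
    have h3 := hP.2
    rw [← hP.1.2.2, (commutator_eq_bot_iff_center_eq_top P).2 h2, Subgroup.card_bot] at h3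
    exact hp.one_lt.ne h3
  have h3 := sum_irr_deg_sq (G := P)
  rw [← Finset.sum_filter_add_sum_filter_not _ (fun χ : IrrCharacter P => χ.1 1 = 1),
    Finset.sum_congr rfl (g := fun _ => 1) (fun χ hχ => by
      rw [deg_eq_of_eq (d := 1) (by simpa using (Finset.mem_filter.1 hχ).2), one_pow]),
    Finset.sum_congr rfl (s₁ := Finset.univ.filter fun χ : IrrCharacter P => ¬ χ.1 1 = 1)
      (g := fun _ => (p ^ n) ^ 2) (fun χ hχ => by
      rw [deg_eq_of_eq (d := p ^ n) (by simpa using (h1 χ).resolve_left (Finset.mem_filter.1 hχ).2)]),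
    Finset.sum_const, Finset.sum_const, smul_eq_mul, smul_eq_mul, mul_one, ← Fintype.card_subtype,
    Fintype.card_eq_nat_card, card_linear_irr, hP.1.2.2, h2, hcard] at h3
  have h4 : Nat.card {χ : Cfsg.IrrCharacter P // (χ : P → ℂ) 1 = (p : ℂ) ^ n} =
      (Finset.univ.filter fun χ : IrrCharacter P => ¬ χ.1 1 = 1).card := by
    rw [Nat.card_eq_fintype_card, Fintype.card_subtype]
    congr 1
    ext χ
    simp only [Finset.mem_filter, Finset.mem_univ, true_and]
    refine ⟨fun h h' => hn ?_, (h1 χ).resolve_left⟩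
    exact_mod_cast h.symm.trans h'
  rw [h4]
  have h5 : (1 + (Finset.univ.filter fun χ : IrrCharacter P => ¬ χ.1 1 = 1).card) * (p ^ n) ^ 2 =
      p * (p ^ n) ^ 2 := by rw [add_mul, one_mul, h3]; ring
  have := Nat.eq_of_mul_eq_mul_right (pow_pos (pow_pos hp.pos n) 2) h5
  omega

end Cfsg.Agent.S0894
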