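import Cfsg.Statements.S0895
import Cfsg.Agent.OD.Pre
import Cfsg.Agent.H4.Orth

set_option autoImplicit false
open Cfsg

open CfH4

namespace Cfsg.Agent.S0895

open Matrix in
theorem symm_of_inv {G : Type*} [Group G] {n : ℕ} (ρ : Representation ℂ G (Fin n → ℂ))
    (hρ : ρ.IsIrreducible) (hn : Odd n) (C : Matrix (Fin n) (Fin n) ℂ)
    (hC : ∀ g, LinearMap.toMatrix' (ρ g) * C * (LinearMap.toMatrix' (ρ g))ᵀ = C) : Cᵀ = C := by
  set A := C - Cᵀ with hA
  have hAt : Aᵀ = -A := by simp [hA]
  have hAi : ∀ g, LinearMap.toMatrix' (ρ g) * A * (LinearMap.toMatrix' (ρ g))ᵀ = A := fun g => by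
    have := congrArg Matrix.transpose (hC g)
    rw [transpose_mul, transpose_mul, transpose_transpose, ← Matrix.mul_assoc] at this
    rw [hA, Matrix.mul_sub, Matrix.sub_mul, hC, this]
  have hdet : A.det = 0 := by
    have := det_transpose A
    rw [hAt, det_neg, Fintype.card_fin, hn.neg_one_pow] at this
    linear_combination (-1 / 2 : ℂ) * this
  have hcomm : ∀ g, LinearMap.toMatrix' (ρ g) * A = A * (LinearMap.toMatrix' (ρ g⁻¹))ᵀ := fun g => by
    conv_rhs => rw [← hAi g]
    rw [Matrix.mul_assoc, ← transpose_mul, ← LinearMap.toMatrix'_mul, ← map_mul, inv_mul_cancel,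
      map_one, LinearMap.toMatrix'_one, transpose_one, Matrix.mul_one]
  let U : Subrepresentation ρ :=
    { toSubmodule := LinearMap.range (Matrix.toLin' A)
      apply_mem_toSubmodule := by
        rintro g _ ⟨v, rfl⟩
        refine ⟨(LinearMap.toMatrix' (ρ g⁻¹))ᵀ *ᵥ v, ?_⟩
        rw [Matrix.toLin'_apply, Matrix.toLin'_apply, mulVec_mulVec, ← hcomm, ← mulVec_mulVec,
          LinearMap.toMatrix'_mulVec] }
  rcases hρ.eq_bot_or_eq_top U with h | h
  · have h1 : LinearMap.range (Matrix.toLin' A) = ⊥ := congrArg Subrepresentation.toSubmodule h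
    rw [LinearMap.range_eq_bot, LinearEquiv.map_eq_zero_iff] at h1
    exact (sub_eq_zero.1 h1).symm
  · have h1 : LinearMap.range (Matrix.toLin' A) = ⊤ := congrArg Subrepresentation.toSubmodule h
    have h2 : IsUnit (Matrix.toLin' A) := (LinearMap.isUnit_iff_range_eq_top _).2 h1
    have h3 := h2.map LinearMap.det
    rw [LinearMap.det_toLin', hdet] at h3
    exact absurd h3 not_isUnit_zero

open Matrix in
theorem sum_sq_eq {G : Type*} [Group G] [Fintype G] {n : ℕ} (ρ : Representation ℂ G (Fin n → ℂ))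
    (hρ : ρ.IsIrreducible) (hn : Odd n) :
    ∑ s : G, ρ.character (s * s) = ∑ s : G, ρ.character s * ρ.character s := by
  classical
  let R : G → Matrix (Fin n) (Fin n) ℂ := fun g => LinearMap.toMatrix' (ρ g)
  have hR : ∀ g h, R (g * h) = R g * R h := fun g h => by
    simp only [R, map_mul, LinearMap.toMatrix'_mul]
  have htr : ∀ g, ρ.character g = ∑ i, R g i i := fun g => by
    rw [Representation.character, LinearMap.trace_eq_matrix_trace ℂ (Pi.basisFun ℂ (Fin n)),
      LinearMap.toMatrix_eq_toMatrix']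
    rfl
  have key : ∀ i j, ∑ g, R g i j * R g j i = ∑ g, R g i i * R g j j := by
    intro i j
    have h1 := symm_of_inv ρ hρ hn (∑ g, R g * Matrix.single i j 1 * (R g)ᵀ) fun h => by
      change R h * _ * (R h)ᵀ = _
      rw [Matrix.mul_sum, Matrix.sum_mul]
      refine Fintype.sum_equiv (Equiv.mulLeft h) _ _ fun g => ?_
      simp only [Equiv.coe_mulLeft, hR, transpose_mul, Matrix.mul_assoc]
    have h2 := congrFun (congrFun h1 i) j
    have h3 : ∀ g a b, (R g * Matrix.single i j (1 : ℂ) * (R g)ᵀ : Matrix (Fin n) (Fin n) ℂ) a b =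
        R g a i * R g b j := by
      intro g a b
      simp [Matrix.mul_apply, Matrix.single, ite_and]
    simp only [transpose_apply, Matrix.sum_apply, h3] at h2
    rw [← h2]
    exact Finset.sum_congr rfl fun g _ => mul_comm _ _
  simp only [htr, hR, Matrix.mul_apply, Finset.sum_mul_sum]
  rw [Finset.sum_comm, Finset.sum_comm (f := fun s i => ∑ j, R s i i * R s j j)]
  refine Finset.sum_congr rfl fun i _ => ?_
  rw [Finset.sum_comm, Finset.sum_comm (f := fun s j => R s i i * R s j j)]
  exact Finset.sum_congr rfl fun j _ => key i j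

/-- Let χ be a real-valued irreducible character of a finite group G whose degree is an odd natural number. Then the average over s in G of χ (s * s) equals 1. -/
theorem result {G : Type*} [Group G] [Fintype G] (χ : G → ℂ) (hχ : Cfsg.IsIrrCharacter G χ) (hreal : ∀ g : G, (χ g).im = 0) (d : ℕ) (hd : χ 1 = d) (hodd : Odd d) : (Nat.card G : ℂ)⁻¹ * ∑ s : G, χ (s * s) = 1 := by
  have h1 := hχ.classInner_self
  obtain ⟨n, ρ, hρ, rfl⟩ := hχ
  have hn : n = d := by
    rw [Representation.char_one, Module.finrank_fin_fun] at hd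
    exact_mod_cast hd
  rw [sum_sq_eq ρ hρ (hn ▸ hodd), ← h1, classInner_def]
  congr 1
  exact Finset.sum_congr rfl fun g _ => by rw [Complex.conj_eq_iff_im.2 (hreal g)]

end Cfsg.Agent.S0895
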