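import Cfsg.Statements.S0897
import Cfsg.Agent.OD.Pre
import Cfsg.Agent.H4.Dade

set_option autoImplicit false
open Cfsg

open CfH4

namespace Cfsg.Agent.S0897

open scoped commutatorElement

theorem commutator_le_of_elementary {E : Type*} [Group E] [Finite E] {p : ℕ} [Fact p.Prime]
    (hE : IsElementary p E) (R : Sylow p E) : commutator E ≤ ⁅(R : Subgroup E), (R : Subgroup E)⁆ := by
  have hp : p.Prime := Fact.out
  obtain ⟨x, hx, -, k, hk⟩ := hE
  have hle : Subgroup.zpowers x ≤ Subgroup.center E := by simpa using hx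
  have hn : (Subgroup.zpowers x).Normal := ⟨fun a ha g => by
    rw [Subgroup.mem_center_iff.1 (hle ha) g, mul_inv_cancel_right]; exact ha⟩
  have h3 : Subgroup.zpowers x ⊔ (R : Subgroup E) = ⊤ := by
    rw [← Subgroup.index_eq_one]
    refine Nat.eq_one_of_dvd_coprimes (a := p ^ k) (b := (R : Subgroup E).index) ?_ ?_ ?_
    · exact Nat.Coprime.pow_left _ ((Nat.Prime.coprime_iff_not_dvd hp).2 R.not_dvd_index)
    · exact hk ▸ Subgroup.index_dvd_of_le le_sup_left
    · exact Subgroup.index_dvd_of_le le_sup_right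
  have h4 : ∀ a : E, ∃ c ∈ Subgroup.center E, ∃ u ∈ (R : Subgroup E), c * u = a := by
    intro a
    obtain ⟨c, hc, u, hu, h⟩ := Subgroup.mem_sup_of_normal_left.1 (h3 ▸ Subgroup.mem_top a)
    exact ⟨c, hle hc, u, hu, h⟩
  rw [commutator_def, Subgroup.commutator_le]
  intro a _ b _
  obtain ⟨c, hc, u, hu, rfl⟩ := h4 a
  obtain ⟨d, hd, v, hv, rfl⟩ := h4 b
  have h5 : ⁅c * u, d * v⁆ = ⁅u, v⁆ := by
    have hc' := Subgroup.mem_center_iff.1 hc
    have hd' := Subgroup.mem_center_iff.1 hd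
    simp only [commutatorElement_def]
    calc c * u * (d * v) * (c * u)⁻¹ * (d * v)⁻¹
        = c * (u * d * v * u⁻¹) * c⁻¹ * v⁻¹ * d⁻¹ := by group
      _ = (u * d) * v * u⁻¹ * v⁻¹ * d⁻¹ := by rw [← hc' (u * d * v * u⁻¹)]; group
      _ = d * (u * v * u⁻¹ * v⁻¹) * d⁻¹ := by rw [hd' u]; group
      _ = u * v * u⁻¹ * v⁻¹ := by rw [← hd' (u * v * u⁻¹ * v⁻¹)]; group
  rw [h5]
  exact Subgroup.commutator_mem_commutator hu hv

/-- Let N be a normal subgroup of the finite group G with the index of N a power of the prime p, and P a Sylow p-subgroup of G such that P ⊓ N lies in the centre of P and every character of degree 1 of P ⊓ N is the restriction of a character of degree 1 of P. Then every irreducible character of N invariant under conjugation by G is the restriction of an irreducible character of G. -/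
theorem result {G : Type*} [Group G] [Fintype G] (p : ℕ) [Fact p.Prime] (N : Subgroup G) [hN : N.Normal] (hind : ∃ k : ℕ, N.index = p ^ k) (P : Sylow p G) (hcent : ∀ x ∈ (P : Subgroup G) ⊓ N, ∀ y ∈ (P : Subgroup G), x * y = y * x) (hlin : ∀ lam : ↥((P : Subgroup G) ⊓ N) → ℂ, Cfsg.IsCharacter ↥((P : Subgroup G) ⊓ N) lam → lam 1 = 1 → ∃ μ : ↥(P : Subgroup G) → ℂ, Cfsg.IsCharacter ↥(P : Subgroup G) μ ∧ μ 1 = 1 ∧ ∀ x : ↥((P : Subgroup G) ⊓ N), μ ⟨(x : G), x.2.1⟩ = lam x) (ϑ : N → ℂ) (hϑ : Cfsg.IsIrrCharacter N ϑ) (hinv : ∀ (g : G) (n : N), ϑ ⟨g * n * g⁻¹, hN.conj_mem (n : G) n.2 g⟩ = ϑ n) : ∃ χ : G → ℂ, Cfsg.IsIrrCharacter G χ ∧ ∀ n : N, χ n = ϑ n := by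
  have hp : p.Prime := Fact.out
  have hA : ∀ x ∈ ⁅(P : Subgroup G), (P : Subgroup G)⁆, x ∈ N → x = 1 := by
    intro x hx hxN
    by_contra hx1
    have hxP : x ∈ (P : Subgroup G) := Subgroup.commutator_le.2 (fun a ha b hb =>
      (P : Subgroup G).mul_mem ((P : Subgroup G).mul_mem ((P : Subgroup G).mul_mem ha hb)
        ((P : Subgroup G).inv_mem ha)) ((P : Subgroup G).inv_mem hb)) hx
    obtain ⟨f, -, hf⟩ := exists_hom_ne_one (G := ↥((P : Subgroup G) ⊓ N)) ⊥ (by
      rw [commutator_def, Subgroup.commutator_le]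
      intro a _ b _
      rw [Subgroup.mem_bot, commutatorElement_eq_one_iff_mul_comm]
      exact Subtype.ext (hcent a a.2 b b.2.1)) (g := ⟨x, hxP, hxN⟩)
      (fun h => hx1 (congrArg Subtype.val (Subgroup.mem_bot.1 h)))
    obtain ⟨μ, hμ, hμ1, hμe⟩ := hlin _ (homFun_char f) (homFun_one f)
    apply hf
    ext
    have h1 := hμe ⟨x, hxP, hxN⟩
    rw [hμ.apply_commutator_of_apply_one hμ1 (g := ⟨x, hxP⟩) (by
      rw [← Subgroup.map_subtype_commutator] at hx
      obtain ⟨y, hy, rfl⟩ := hx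
      exact hy)] at h1
    exact h1.symm
  have hB : ∀ R : Subgroup G, IsPGroup p R → ∀ x ∈ ⁅R, R⁆, x ∈ N → x = 1 := by
    intro R hR x hx hxN
    obtain ⟨Q, hQ⟩ := hR.exists_le_sylow
    obtain ⟨g, rfl⟩ := MulAction.exists_smul_eq G P Q
    have h1 : x ∈ ⁅(P : Subgroup G).map (MulAut.conj g).toMonoidHom,
        (P : Subgroup G).map (MulAut.conj g).toMonoidHom⁆ := Subgroup.commutator_mono hQ hQ hx
    rw [← Subgroup.map_commutator] at h1
    obtain ⟨y, hy, rfl⟩ := h1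
    have : y ∈ N := by simpa [mul_assoc] using hN.conj_mem _ hxN g⁻¹
    rw [hA y hy this, map_one]
  obtain ⟨E, φ, _, hE, hEN, hφ, -, m, hm, hmφ⟩ := dade hp N hind hϑ hinv
  obtain ⟨R⟩ : Nonempty (Sylow p E) := inferInstance
  have hC : ∀ x : E, x ∈ commutator E → (x : G) ∈ N → x = 1 := by
    intro x hx hxN
    have h1 := Subgroup.mem_map_of_mem E.subtype (commutator_le_of_elementary hE R hx)
    rw [Subgroup.map_commutator] at h1
    exact Subtype.ext (hB _ (R.isPGroup'.map _) _ h1 hxN)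
  let F : NEmb ↥(E ⊓ N) E := NEmb.subLe inf_le_left fun t ht x hx =>
    ⟨E.mul_mem (E.mul_mem ht hx.1) (E.inv_mem ht), hN.conj_mem x hx.2 t⟩
  have hφ1 : φ 1 = 1 := hφ.apply_one_of_comm fun a b => by
    rw [← commutatorElement_eq_one_iff_mul_comm]
    apply F.inj
    rw [map_one]
    refine hC _ ?_ (⁅a, b⁆).2.2
    rw [map_commutatorElement]
    exact Subgroup.commutator_mem_commutator (Subgroup.mem_top _) (Subgroup.mem_top _)
  obtain ⟨l, rfl⟩ := hφ.isCharacter.exists_homFun hφ1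
  obtain ⟨μ, hμ⟩ := F.mem_extHoms.1 (F.mem_extHoms_of_commutator (l := l) fun n hn => by
    have : n = 1 := F.inj ((hC _ hn n.2.2).trans (map_one _).symm)
    rw [this, map_one])
  obtain ⟨k, hk⟩ := hind
  refine (NEmb.sub N).extends_of_sub hϑ hinv E F.ι (Subgroup.inclusion inf_le_right)
    (Subgroup.inclusion_injective _) (fun _ => rfl) (fun n hn => ⟨⟨n, hn, n.2⟩, rfl⟩) (fun g => ?_)
    μ (m := m) ?_ ?_
  · obtain ⟨a, ha, b, hb, hab⟩ := Subgroup.mem_sup_of_normal_left.1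
      ((sup_comm E N).symm.trans hEN ▸ Subgroup.mem_top g)
    exact ⟨⟨a, ha⟩, b, hb, hab.symm⟩
  · simp only [hμ]
    exact hmφ
  · rw [NEmb.sub_range, hk]
    exact ((Nat.Prime.coprime_iff_not_dvd hp).2 hm).pow_left _

end Cfsg.Agent.S0897
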