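import Cfsg.Statements.S0899
import Cfsg.Agent.OD.Pre
import Cfsg.Agent.H5.FTBound

set_option autoImplicit false
open Cfsg

namespace Cfsg.Agent.S0899

open CfH4 CfH5 CfH9


/-- Let G be a finite group with a faithful complex representation of degree n (on Fin n → ℂ) and p a prime. Suppose either that (n + 1) ^ 2 ≤ p, or that n + 1 < p and every subgroup of G whose order is not divisible by p ^ 2 has a normal Sylow p-subgroup. Then every Sylow p-subgroup of G is normal. -/
theorem result {G : Type*} [Group G] [Finite G] (n : ℕ) (ρ : Representation ℂ G (Fin n → ℂ)) (hρ : Function.Injective ρ) (p : ℕ) [Fact p.Prime] (h : (n + 1) ^ 2 ≤ p ∨ (n + 1 < p ∧ ∀ K : Subgroup G, ¬ p ^ 2 ∣ Nat.card K → ∀ Q : Sylow p K, (Q : Subgroup K).Normal)) (P : Sylow p G) : (P : Subgroup G).Normal := by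
  have h0 : ρ.character 1 = n := by simp
  have h1 : ∀ g, ρ.character g = ρ.character 1 → g = 1 := fun g hg =>
    hρ ((CfH4.rep_eq_one_of_char_eq ρ g hg).trans (map_one ρ).symm)
  rcases Nat.eq_zero_or_pos n with rfl | hn
  · exact ⟨fun x hx g => by
      rw [hρ (Subsingleton.elim _ _ : ρ (g * x * g⁻¹) = ρ x)]; exact hx⟩
  refine normal_sylow_of_faithful (n := n) (h.elim (fun h => by nlinarith) And.left) G ρ.character
    ⟨n, ρ, rfl⟩ h0 h1 (h.imp_right fun h K Q hK hQ => ?_) P (sylIn_top P)
  exact (Subgroup.normal_subgroupOf_iff_le_normalizer hQ.le).1 (h.2 K hK hQ.toSylow)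

end Cfsg.Agent.S0899
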