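import Cfsg.Statements.S0900
import Cfsg.Agent.OD.Pre
import Cfsg.Agent.H4.Ramified
import Cfsg.Agent.OD.Helper4x2f6a8fcc28

set_option autoImplicit false
open Cfsg

open CfH4

namespace Cfsg.Agent.S0900

/-- Let N be a normal subgroup of the finite group G, χ an irreducible character of G and ϑ an irreducible character of N having nonzero inner product with the restriction of χ. Consider: (a) the restriction of χ to N is e • ϑ for a natural number e with e ^ 2 equal to the index of N; (b) χ vanishes outside N and ϑ is invariant under conjugation by G; (c) ϑ is invariant and every irreducible character of G having nonzero inner product with the function induced from ϑ equals χ. Then (a) ↔ (b) and (a) ↔ (c). -/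
theorem result {G : Type*} [Group G] [Fintype G] (N : Subgroup G) [hN : N.Normal] [Fintype N] (χ : G → ℂ) (hχ : Cfsg.IsIrrCharacter G χ) (ϑ : N → ℂ) (hϑ : Cfsg.IsIrrCharacter N ϑ) (hcon : Cfsg.classInner (fun n : N => χ n) ϑ ≠ 0) : ((∃ e : ℕ, (fun n : N => χ n) = (e : ℂ) • ϑ ∧ e ^ 2 = N.index) ↔ ((∀ g : G, g ∉ N → χ g = 0) ∧ ∀ (g : G) (n : N), ϑ ⟨g * n * g⁻¹, hN.conj_mem (n : G) n.2 g⟩ = ϑ n)) ∧ ((∃ e : ℕ, (fun n : N => χ n) = (e : ℂ) • ϑ ∧ e ^ 2 = N.index) ↔ (∀ (g : G) (n : N), ϑ ⟨g * n * g⁻¹, hN.conj_mem (n : G) n.2 g⟩ = ϑ n ∧ ∀ ψ : G → ℂ, Cfsg.IsIrrCharacter G ψ → Cfsg.classInner (Cfsg.indFun N ϑ) ψ ≠ 0 → ψ = χ)) := by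
  have hidx : (NEmb.sub N).ι.range.index = N.index := by rw [NEmb.sub_range]
  have hinv : ∀ e : ℕ, (fun n : N => χ n) = (e : ℂ) • ϑ → e ^ 2 = N.index → (NEmb.sub N).Inv ϑ := by
    intro e he he2
    refine (NEmb.sub N).inv_of_smul hχ.classFun ?_ he
    rintro h0
    rw [Nat.cast_eq_zero.1 h0] at he2
    exact Subgroup.index_ne_zero_of_finite (he2.symm.trans (by simp))
  refine ⟨⟨?_, ?_⟩, ⟨?_, ?_⟩⟩
  · rintro ⟨e, he, he2⟩
    refine ⟨?_, hinv e he he2⟩
    simpa only [NEmb.sub_range] using (NEmb.sub N).vanish_of_fullyRam hχ hϑ he (hidx ▸ he2)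
  · rintro ⟨hv, hi⟩
    obtain ⟨e, -, -, he⟩ := NEmb.Inv.clifford_mult (E := NEmb.sub N) hi hχ hϑ hcon
    exact ⟨e, he, hidx ▸ (NEmb.sub N).fullyRam_of_vanish hχ hϑ he (by
      simpa only [NEmb.sub_range] using hv)⟩
  · rintro ⟨e, he, he2⟩ g n
    refine ⟨hinv e he he2 g n, fun ψ hψ h => ?_⟩
    have := (NEmb.sub N).ind_eq_of_fullyRam hχ hϑ he (hidx ▸ he2)
    change indFun N ϑ = _ at this
    rw [this, classInner_smul_left] at h
    exact (hχ.eq_of_classInner_ne_zero hψ (right_ne_zero_of_mul h)).symm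
  · intro h
    obtain ⟨e, -, -, he⟩ := NEmb.Inv.clifford_mult (E := NEmb.sub N) (fun g n => (h g n).1)
      hχ hϑ hcon
    exact ⟨e, he, hidx ▸ (NEmb.sub N).fullyRam_of_unique hχ hϑ he (h 1 1).2⟩

end Cfsg.Agent.S0900
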