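import Cfsg.Statements.S1645
import Cfsg.Agent.OD.Pre
import Cfsg.Agent.H4.An7

set_option autoImplicit false
open Cfsg

open CfH4

namespace Cfsg.Agent.S1645

/-- If some involution of a finite simple group has centraliser a non-split double cover of the alternating group of degree n ≥ 5, then n is 8 or 11 (the McLaughlin and Lyons cases). -/
theorem result {G : Type*} [Group G] [Finite G] [IsSimpleGroup G] (n : ℕ) (hn : 5 ≤ n) (z : G) (hz : orderOf z = 2) (hcov : Cfsg.IsNonsplitDoubleCover (Subgroup.centralizer ({z} : Set G)) (alternatingGroup (Fin n))) : n = 8 ∨ n = 11 := by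
  simpa using CfH4.An.degree (X := Fin n) (by simp; omega) hz hcov

end Cfsg.Agent.S1645
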