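import Cfsg.Statements.S1654
import Cfsg.Agent.OD.Pre
import Cfsg.Agent.H4.Ly9

set_option autoImplicit false
open Cfsg

open CfH4

namespace Cfsg.Agent.S1654

/-- A group of Lyons type contains G₂(5): if a finite simple group has an involution whose centraliser is a non-split double cover of the alternating group of degree 11, then it has a subgroup isomorphic to the adjoint Chevalley group of type G₂ over a field with 5 elements. -/
theorem result {G : Type*} [Group G] [Finite G] [IsSimpleGroup G] (t : G) (ht : orderOf t = 2) (hcov : Cfsg.IsNonsplitDoubleCover (Subgroup.centralizer ({t} : Set G)) (alternatingGroup (Fin 11))) : ∃ (H : Subgroup G) (K : Type) (_ : Field K) (_ : Fintype K), Fintype.card K = 5 ∧ Nonempty (H ≃* Cfsg.Lie.chevG2.group K) := by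
  obtain ⟨e⟩ := CfH4.Ly.iso ht hcov
  obtain ⟨φ, hφ⟩ := CfH6.G25M.iso
  exact ⟨_, ZMod 5, inferInstance, inferInstance, ZMod.card 5,
    CfH6.iso_range (e.toMonoidHom.comp CfH6.LyN.ρ) (e.injective.comp CfH6.LyN.inj) rfl φ hφ⟩

end Cfsg.Agent.S1654
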