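import Cfsg.Statements.S1657
import Cfsg.Agent.OD.Pre
import Cfsg.Agent.H8.ON8
import Cfsg.Agent.H8.ON10

set_option autoImplicit false
open Cfsg

namespace Cfsg.Agent.S1657

/-- In a finite simple group of O'Nan type (an involution t whose centraliser has a normal subgroup M of index 2 containing its centraliser, perfect, with cyclic centre of order 4 and central quotient PSL(3, 4)), any subgroup H having a normal subgroup of index 2 isomorphic to PSL(3, 7) has index 122760, and H has orbits of sizes 6384, 5586, 58653 and 52136 on the cosets of H other than H itself (so the action has rank 5). -/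
theorem result {G : Type*} [Group G] [Finite G] [IsSimpleGroup G] (t : G) (ht : orderOf t = 2) (M : Subgroup (Subgroup.centralizer ({t} : Set G))) [M.Normal] (hM : M.index = 2) (hout : Subgroup.centralizer (M : Set (Subgroup.centralizer ({t} : Set G))) ≤ M) (hZc : IsCyclic (Subgroup.center M)) (hZ4 : Nat.card (Subgroup.center M) = 4) (hperf : commutator M = ⊤) (F : Type) [Field F] [Fintype F] (hF : Fintype.card F = 4) (e : M ⧸ Subgroup.center M ≃* Matrix.ProjectiveSpecialLinearGroup (Fin 3) F) (H : Subgroup G) (N : Subgroup H) [N.Normal] (hN : N.index = 2) (eN : N ≃* Matrix.ProjectiveSpecialLinearGroup (Fin 3) (ZMod 7)) : H.index = 122760 ∧ ∃ q₁ q₂ q₃ q₄ : G ⧸ H, (MulAction.orbit H q₁).ncard = 6384 ∧ (MulAction.orbit H q₂).ncard = 5586 ∧ (MulAction.orbit H q₃).ncard = 58653 ∧ (MulAction.orbit H q₄).ncard = 52136 := by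
  open Subgroup MulAction CfH9 CfH8 commutatorElement in
  obtain ⟨ρ⟩ := CfH8.ON.main t ht M hM hout hZc hZ4 hperf F hF e
  exact CfH8.ONS.main ρ H N hN eN

end Cfsg.Agent.S1657
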