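import Cfsg.Statements.S1661
import Cfsg.Agent.OD.Pre
import Cfsg.Agent.H8.ON8

set_option autoImplicit false
open Cfsg

namespace Cfsg.Agent.S1661

/-- Uniqueness of the O'Nan group at the level of isomorphism: a finite simple group having an involution t whose centraliser has a normal subgroup M of index 2, containing its own centraliser in the involution centraliser, which is perfect, with cyclic centre of order 4 and central quotient isomorphic to PSL(3, 4), is isomorphic to the presented O'Nan group. -/
theorem result {G : Type*} [Group G] [Finite G] [IsSimpleGroup G] (t : G) (ht : orderOf t = 2) (M : Subgroup (Subgroup.centralizer ({t} : Set G))) [M.Normal] (hM : M.index = 2) (hout : Subgroup.centralizer (M : Set (Subgroup.centralizer ({t} : Set G))) ≤ M) (hZc : IsCyclic (Subgroup.center M)) (hZ4 : Nat.card (Subgroup.center M) = 4) (hperf : commutator M = ⊤) (F : Type) [Field F] [Fintype F] (hF : Fintype.card F = 4) (e : M ⧸ Subgroup.center M ≃* Matrix.ProjectiveSpecialLinearGroup (Fin 3) F) : Cfsg.Spor.IsoON G := by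
  open Subgroup MulAction CfH9 CfH8 commutatorElement in
  obtain ⟨ρ⟩ := CfH8.ON.main t ht M hM hout hZc hZ4 hperf F hF e
  exact ⟨ρ.symm⟩

end Cfsg.Agent.S1661
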