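import Cfsg.Statements.S1668
import Cfsg.Agent.OD.Pre
import Cfsg.Agent.L.SuC
import Cfsg.Agent.H6.G2M


set_option autoImplicit false
open Cfsg

namespace Cfsg.Agent.S1668

theorem xmap {F K : Type*} [Field F] [Field K] (e : F ≃+* K) (D : Lie.ChevalleyDatum) (r : Fin D.nroots) (t : F) :
    (D.xMat F r t).map e = D.xMat K r (e t) := by
  ext (i | i) (j | j) <;> simp only [Lie.ChevalleyDatum.xMat, Matrix.map_apply, Matrix.of_apply] <;>
    split_ifs <;> simp [map_list_sum, Function.comp_def]

theorem chev_equiv {F K : Type*} [Field F] [Field K] (e : F ≃+* K) (D : Lie.ChevalleyDatum) :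
    Nonempty (D.group F ≃* D.group K) := by
  refine ⟨((CfH3.glEquiv e D.Idx).subgroupMap _).trans (MulEquiv.subgroupCongr ?_)⟩
  rw [Lie.ChevalleyDatum.group, MonoidHom.map_closure, Lie.ChevalleyDatum.group]
  congr 1
  ext g
  constructor
  · rintro ⟨g, ⟨r, t, h⟩, rfl⟩
    exact ⟨r, e t, by rw [← xmap, ← h]; rfl⟩
  · rintro ⟨r, t, h⟩
    obtain ⟨g, rfl⟩ := (CfH3.glEquiv e D.Idx).surjective g
    refine ⟨g, ⟨r, e.symm t, ?_⟩, rfl⟩
    apply Matrix.map_injective e.injective
    change (g : Matrix D.Idx D.Idx F).map e = (D.xMat F r (e.symm t)).map e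
    rw [xmap, e.apply_symm_apply, ← h]; rfl

/-- Recognition of the sporadic Suzuki group as a rank 3 permutation group: a transitive permutation group on 1782 points in which the stabiliser of a point is isomorphic to the Chevalley group G₂(4) and has two further orbits, of sizes 416 and 1365, is isomorphic to the sporadic Suzuki group. -/
theorem result {Ω : Type*} [Fintype Ω] [DecidableEq Ω] (hΩ : Fintype.card Ω = 1782) (G : Subgroup (Equiv.Perm Ω)) [MulAction.IsPretransitive G Ω] (a : Ω) (K : Type) [Field K] [Fintype K] (hK : Fintype.card K = 4) (e : MulAction.stabilizer G a ≃* Cfsg.Lie.chevG2.group K) (b c : Ω) (hb : (MulAction.orbit (MulAction.stabilizer G a) b).ncard = 416) (hc : (MulAction.orbit (MulAction.stabilizer G a) c).ncard = 1365) : Cfsg.Spor.IsoSuz G := by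
  obtain ⟨f⟩ := CfH3.nonempty_equiv_F4 hK
  obtain ⟨e1⟩ := chev_equiv f Lie.chevG2
  obtain ⟨e2⟩ := CfH6.G2M.iso
  exact CfL.SuB.main (by rw [Nat.card_eq_fintype_card, hΩ]) (e.trans (e1.trans e2.symm)) hb hc

end Cfsg.Agent.S1668
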