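import Cfsg.Statements.S1672
import Cfsg.Agent.OD.Pre
import Cfsg.Agent.H3.Ta9
import Cfsg.Agent.H3.E8z

set_option autoImplicit false
open Cfsg

namespace Cfsg.Agent.S1672

/-- A finite simple group of Thompson type (an involution t whose centraliser C has a normal subgroup Q, extraspecial of order 2 ^ 9 with an elementary abelian subgroup of order 2 ^ 5, whose centraliser in C lies in Q, and with C / Q isomorphic to the alternating group of degree 9) embeds in the adjoint Chevalley group of type E₈ over a field with 3 elements. -/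
theorem result {G : Type*} [Group G] [Finite G] [IsSimpleGroup G] (t : G) (ht : orderOf t = 2) (Q : Subgroup (Subgroup.centralizer ({t} : Set G))) [Q.Normal] (hQ : Cfsg.IsExtraspecial 2 Q) (hcard : Nat.card Q = 2 ^ 9) (hplus : ∃ E : Subgroup Q, Cfsg.IsElementaryAbelian 2 E ∧ Nat.card E = 2 ^ 5) (h2c : Subgroup.centralizer (Q : Set (Subgroup.centralizer ({t} : Set G))) ≤ Q) (e : (Subgroup.centralizer ({t} : Set G)) ⧸ Q ≃* alternatingGroup (Fin 9)) : ∃ (K : Type) (_ : Field K) (_ : Fintype K), Fintype.card K = 3 ∧ ∃ f : G →* Cfsg.Lie.chevE8.group K, Function.Injective f := by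
  obtain ⟨⟨i⟩, -⟩ := CfH3.Th.main ht Q hQ hcard hplus h2c e
  obtain ⟨ψ, hψ⟩ := CfH3.T3.hom
  haveI : Fact (Nat.Prime 3) := ⟨by norm_num⟩
  refine ⟨ZMod 3, inferInstance, inferInstance, ZMod.card 3, ψ.comp i.toMonoidHom, ?_⟩
  rw [← MonoidHom.ker_eq_bot_iff]
  refine (Subgroup.Normal.eq_bot_or_eq_top (MonoidHom.normal_ker _)).resolve_right fun h => hψ ?_
  have : i.symm (CfH6.ThB.el 0) ∈ (ψ.comp i.toMonoidHom).ker := h ▸ Subgroup.mem_top _
  simpa using this

end Cfsg.Agent.S1672
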