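import Cfsg.Statements.S1676
import Cfsg.Agent.OD.Pre
import Cfsg.Agent.H8.D8

set_option autoImplicit false
open Cfsg

namespace Cfsg.Agent.S1676

/-- A step in recognising the second Conway group: let G be a finite group with no non-trivial normal subgroup of odd order and trivial centre, with an involution t whose centraliser C is 2-constrained, O₂(C) extraspecial of order 2 ^ 9 and C / O₂(C) isomorphic to Sp(6, 2). Then G has a maximal subgroup H of index 2300 such that H has orbits of sizes 891 and 1408 on the cosets of H other than H itself. -/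
theorem result {G : Type*} [Group G] [Finite G] (hO : Cfsg.oddCore G = ⊥) (hZ : Subgroup.center G = ⊥) (t : G) (ht : orderOf t = 2) (hcon : Cfsg.IsPConstrained 2 (Subgroup.centralizer ({t} : Set G))) (hQ : Cfsg.IsExtraspecial 2 (Cfsg.pCore 2 (Subgroup.centralizer ({t} : Set G)))) (hcard : Nat.card (Cfsg.pCore 2 (Subgroup.centralizer ({t} : Set G))) = 2 ^ 9) (e : (Subgroup.centralizer ({t} : Set G)) ⧸ Cfsg.pCore 2 (Subgroup.centralizer ({t} : Set G)) ≃* Matrix.symplecticGroup (Fin 3) (ZMod 2)) : ∃ H : Subgroup G, IsCoatom H ∧ H.index = 2300 ∧ ∃ q₁ q₂ : G ⧸ H, (MulAction.orbit H q₁).ncard = 891 ∧ (MulAction.orbit H q₂).ncard = 1408 := by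
  open Subgroup MulAction CfH9 CfH8 commutatorElement in
    exact CfH9.C2f.rank3 (CfH8.C2.main hO hZ t ht (CfH5.Nat.exSx t ht hcon hQ hcard e))

end Cfsg.Agent.S1676
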