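import Cfsg.Statements.S1678
import Cfsg.Agent.OD.Pre
import Cfsg.Agent.H8.C35

set_option autoImplicit false
open Cfsg

namespace Cfsg.Agent.S1678

/-- The third Conway group from an involution centraliser: let G be a finite group with no non-trivial normal subgroup of odd order and trivial centre, having an involution t whose centraliser is a non-split double cover of the symplectic group Sp(6, 2). Then G is isomorphic to the third Conway group (the stabiliser in the Leech lattice automorphism group of a vector of the second shortest length). -/
theorem result {G : Type*} [Group G] [Finite G] (hO : Cfsg.oddCore G = ⊥) (hZ : Subgroup.center G = ⊥) (t : G) (ht : orderOf t = 2) (hC : Cfsg.IsNonsplitDoubleCover (Subgroup.centralizer ({t} : Set G)) (Matrix.symplecticGroup (Fin 3) (ZMod 2))) : Cfsg.Spor.IsoCo3 G := by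
  open Subgroup MulAction CfH9 CfH8 commutatorElement in
  exact CfH8.C3.main hO hZ t ht hC

end Cfsg.Agent.S1678
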