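import Cfsg.Statements.S1679
import Cfsg.Agent.OD.Pre
import Cfsg.Agent.H6.G2M
import Cfsg.Agent.H6.Suz

set_option autoImplicit false
open Cfsg

namespace Cfsg.Agent.S1679

/-- In the presented sporadic Suzuki group (generators a, …, g), the subgroup generated by the images of a, …, f is isomorphic to the adjoint Chevalley group of type G₂ over a field with four elements. -/
theorem result : ∃ (K : Type) (_ : Field K) (_ : Fintype K), Fintype.card K = 4 ∧ Nonempty ((((Subgroup.closure ({Cfsg.Spor.Suz.a, Cfsg.Spor.Suz.b, Cfsg.Spor.Suz.c, Cfsg.Spor.Suz.d, Cfsg.Spor.Suz.e, Cfsg.Spor.Suz.f} : Set (FreeGroup Cfsg.Spor.Suz.Gen))).map (PresentedGroup.mk (Cfsg.Spor.coxRelators Cfsg.Spor.Suz.edges ∪ {r | r ∈ Cfsg.Spor.Suz.extra})))) ≃* Cfsg.Lie.chevG2.group K) := by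
  rw [CfH6.Suz.sub_eq]
  refine ⟨CfH3.F4, inferInstance, inferInstance, rfl, ?_⟩
  obtain ⟨φ⟩ := CfH6.G2M.iso
  obtain ⟨ρ, hρ⟩ := CfH6.G2B.hhom (CfH6.byW CfH6.SuzB.el CfH6.SuzA.ws1)
    (CfH6.byW_inv CfH6.SuzB.el (n := 4) CfH6.SuzB.hinv CfH6.SuzB.hrel (by decide +kernel))
    (CfH6.byW_rels CfH6.SuzB.el (n := 4) CfH6.SuzB.hinv CfH6.SuzB.hrel (by decide +kernel))
  exact CfH6.iso_range ρ (CfH6.equiv_of_card hρ CfH6.G2B.htop CfH6.G2O.finG
    (CfH6.card_of_index CfH6.Suz.card CfH6.Suz.stab.2 (by decide)).ge)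
    (CfH6.range_hom hρ CfH6.G2B.htop) φ.toMonoidHom φ.bijective

end Cfsg.Agent.S1679
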