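import Cfsg.Statements.S1681
import Cfsg.Agent.OD.Pre
import Cfsg.Agent.H6.Suz
import Cfsg.Agent.H6.SuzO2

set_option autoImplicit false
open Cfsg

namespace Cfsg.Agent.S1681

/-- In the presented sporadic Suzuki group (generators a, …, g), the subgroup generated by the images of a, b, c, d, f, g has index 22880. -/
theorem result : (((Subgroup.closure ({Cfsg.Spor.Suz.a, Cfsg.Spor.Suz.b, Cfsg.Spor.Suz.c, Cfsg.Spor.Suz.d, Cfsg.Spor.Suz.f, Cfsg.Spor.Suz.g} : Set (FreeGroup Cfsg.Spor.Suz.Gen))).map (PresentedGroup.mk (Cfsg.Spor.coxRelators Cfsg.Spor.Suz.edges ∪ {r | r ∈ Cfsg.Spor.Suz.extra})))).index = 22880 := by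
  rw [CfH6.map_closure_eq _ CfH6.SuzB.el CfH6.SuzB.hinv CfH6.SuzB.tr CfH6.SuzB.hmk _
    [Cfsg.Spor.Suz.a, Cfsg.Spor.Suz.b, Cfsg.Spor.Suz.c, Cfsg.Spor.Suz.d, Cfsg.Spor.Suz.f, Cfsg.Spor.Suz.g]
    (by intro r; simp) (ws := CfH6.SuzO2.t0) (k := 6) (by decide) (by decide +kernel)]
  exact (CfH6.index_of_card CfH6.SuzO2.covT0 CfH6.SuzO2.finT0 CfH6.Suz.card (by decide)).1

end Cfsg.Agent.S1681
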