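import Cfsg.Statements.S1685
import Cfsg.Agent.OD.Pre
import Cfsg.Agent.H6.F22G

set_option autoImplicit false
open Cfsg

namespace Cfsg.Agent.S1685

/-- In the presented Fischer group Fi₂₂ (generators a, …, i), the subgroup generated by the images of b, c, d, e, f, g, h, i has index 14080. -/
theorem result : (((Subgroup.closure ({Cfsg.Spor.Fi22.b, Cfsg.Spor.Fi22.c, Cfsg.Spor.Fi22.d, Cfsg.Spor.Fi22.e, Cfsg.Spor.Fi22.f, Cfsg.Spor.Fi22.g, Cfsg.Spor.Fi22.h, Cfsg.Spor.Fi22.i} : Set (FreeGroup Cfsg.Spor.Fi22.Gen))).map (PresentedGroup.mk (Cfsg.Spor.coxRelators Cfsg.Spor.Fi22.edges ∪ {r | r ∈ Cfsg.Spor.Fi22.extra})))).index = 14080 := by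
  rw [CfH6.map_closure_eq _ CfH6.F22B.el CfH6.F22B.hinv CfH6.F22B.tr CfH6.F22B.hmk _
    [Cfsg.Spor.Fi22.b, Cfsg.Spor.Fi22.c, Cfsg.Spor.Fi22.d, Cfsg.Spor.Fi22.e, Cfsg.Spor.Fi22.f, Cfsg.Spor.Fi22.g,
      Cfsg.Spor.Fi22.h, Cfsg.Spor.Fi22.i]
    (by intro r; simp) (ws := CfH6.F22O.t0) (k := 8) (by decide) (by decide +kernel)]
  exact (CfH6.index_of_card CfH6.F22O.covT0 CfH6.F22O.finT0 CfH6.F22G.card (by decide)).1

end Cfsg.Agent.S1685
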