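import Cfsg.Statements.S1686
import Cfsg.Agent.OD.Pre
import Cfsg.Agent.H6.O7M
import Cfsg.Agent.H6.F22G

set_option autoImplicit false
open Cfsg

namespace Cfsg.Agent.S1686

/-- In the presented Fischer group Fi₂₂, the subgroup generated by the images of b, …, i is isomorphic to PΩ(7, 3), the commutator subgroup of the isometry group of the quadratic form x₀² + x₁y₁ + x₂y₂ + x₃y₃ over the integers mod 3, modulo its centre. -/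
theorem result : Nonempty ((((Subgroup.closure ({Cfsg.Spor.Fi22.b, Cfsg.Spor.Fi22.c, Cfsg.Spor.Fi22.d, Cfsg.Spor.Fi22.e, Cfsg.Spor.Fi22.f, Cfsg.Spor.Fi22.g, Cfsg.Spor.Fi22.h, Cfsg.Spor.Fi22.i} : Set (FreeGroup Cfsg.Spor.Fi22.Gen))).map (PresentedGroup.mk (Cfsg.Spor.coxRelators Cfsg.Spor.Fi22.edges ∪ {r | r ∈ Cfsg.Spor.Fi22.extra})))) ≃* Cfsg.POmega (ZMod 3) (Cfsg.quadFormOdd 3 (ZMod 3))) := by
  rw [CfH6.map_closure_eq _ CfH6.F22B.el CfH6.F22B.hinv CfH6.F22B.tr CfH6.F22B.hmk _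
    [Cfsg.Spor.Fi22.b, Cfsg.Spor.Fi22.c, Cfsg.Spor.Fi22.d, Cfsg.Spor.Fi22.e, Cfsg.Spor.Fi22.f, Cfsg.Spor.Fi22.g,
      Cfsg.Spor.Fi22.h, Cfsg.Spor.Fi22.i]
    (by intro r; simp) (ws := CfH6.F22O.t0) (k := 8) (by decide) (by decide +kernel)]
  obtain ⟨φ, hφ⟩ := CfH6.O7M.iso
  obtain ⟨ρ, hρ⟩ := CfH6.O7B.hhom (CfH6.byW CfH6.F22B.el CfH6.F22O.t0)
    (CfH6.byW_inv CfH6.F22B.el (n := 4) CfH6.F22B.hinv CfH6.F22B.hrel (by decide +kernel))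
    (CfH6.byW_rels CfH6.F22B.el (n := 4) CfH6.F22B.hinv CfH6.F22B.hrel (by decide +kernel))
  exact CfH6.iso_range ρ (CfH6.equiv_of_card hρ CfH6.O7B.htop CfH6.O7O.finG
    (CfH6.index_of_card CfH6.F22O.covT0 CfH6.F22O.finT0 CfH6.F22G.card (by decide)).2.ge)
    (CfH6.range_hom hρ CfH6.O7B.htop) φ hφ

end Cfsg.Agent.S1686
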