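import Cfsg.Statements.S1714
import Cfsg.Agent.H8.F23M
import Cfsg.Agent.H8.FiQ

set_option autoImplicit false
open Cfsg

namespace Cfsg.Agent.S1714

/-- The Fischer group Fi₂₃ from a transposition centraliser: let G be a finite group with an involution d such that the centraliser C of d is quasisimple, C modulo the subgroup generated by d is isomorphic to the presented Fischer group Fi₂₂, and some conjugate of d different from d commutes with d. Then G is isomorphic to the presented Fischer group Fi₂₃. -/
theorem result {G : Type*} [Group G] [Finite G] (d : G) (hd : orderOf d = 2) (hq : Cfsg.IsQuasisimple (Subgroup.centralizer ({d} : Set G))) [((Subgroup.zpowers d).subgroupOf (Subgroup.centralizer ({d} : Set G))).Normal] (e : Cfsg.Spor.IsoFi22 ((Subgroup.centralizer ({d} : Set G)) ⧸ (Subgroup.zpowers d).subgroupOf (Subgroup.centralizer ({d} : Set G)))) (hnwc : ∃ g : G, g * d * g⁻¹ ∈ Subgroup.centralizer ({d} : Set G) ∧ g * d * g⁻¹ ≠ d) : Cfsg.Spor.IsoFi23 G := by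
  obtain ⟨e⟩ := e
  obtain ⟨π, h1, h2, h3⟩ := CfH8.Fi.quot_ext hd e
  obtain ⟨φ, hφ⟩ := CfH8.Fi.F23.emb (π := π) hq.1.commutator_eq_top h1 h2
    (h3.trans (congrArg (2 * ·) CfH6.F22G.card))
  exact CfH8.Fi.F23.main hφ hnwc

end Cfsg.Agent.S1714
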