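import Cfsg.Statements.S1716
import Cfsg.Agent.H3.He8
import Cfsg.Agent.OD.Pre

set_option autoImplicit false
open Cfsg

namespace Cfsg.Agent.S1716

/-- Groups with the involution centraliser of SL(5, 2), at the level of isomorphism: let G be a finite group with an involution z whose centraliser is isomorphic to the centraliser of a transvection s of SL(5, 2), and suppose some conjugate of z different from z lies in O₂ of the centraliser of z. Then G is isomorphic to the stabiliser in SL(5, 2) of a non-zero vector of the natural module, or to SL(5, 2), or to the Mathieu group M₂₄, or to the presented Held group. -/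
theorem result {G : Type*} [Group G] [Finite G] (s : Matrix.SpecialLinearGroup (Fin 5) (ZMod 2)) (hs : (s : Matrix (Fin 5) (Fin 5) (ZMod 2)) = Matrix.transvection 0 1 1) (z : G) (hz : orderOf z = 2) (e : (Subgroup.centralizer ({z} : Set G)) ≃* Subgroup.centralizer ({s} : Set (Matrix.SpecialLinearGroup (Fin 5) (ZMod 2)))) (hnwc : ∃ g : G, (∃ hq : g * z * g⁻¹ ∈ Subgroup.centralizer ({z} : Set G), (⟨g * z * g⁻¹, hq⟩ : Subgroup.centralizer ({z} : Set G)) ∈ Cfsg.pCore 2 (Subgroup.centralizer ({z} : Set G))) ∧ g * z * g⁻¹ ≠ z) : (∃ v : Fin 5 → ZMod 2, v ≠ 0 ∧ Nonempty (G ≃* MulAction.stabilizer (Matrix.SpecialLinearGroup (Fin 5) (ZMod 2)) v)) ∨ Nonempty (G ≃* Matrix.SpecialLinearGroup (Fin 5) (ZMod 2)) ∨ Nonempty (G ≃* Cfsg.M24) ∨ Cfsg.Spor.IsoHe G := by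
  obtain ⟨φ, M⟩ := CfH3.He.mod_of_iso s hs hz e
  obtain ⟨g, ⟨hq, h1⟩, h2⟩ := hnwc
  exact M.main (M.fused hq h1 (isConj_iff.2 ⟨g, rfl⟩) h2)

end Cfsg.Agent.S1716
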