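import Cfsg.Statements.S1718
import Cfsg.Agent.OD.Pre
import Cfsg.Agent.H6.CoY

set_option autoImplicit false
open Cfsg

namespace Cfsg.Agent.S1718

/-- Uniqueness of the first Conway group under the large-extraspecial hypothesis: let G be a finite group with an involution z whose centraliser C has generalised Fitting subgroup Q extraspecial of order 2 ^ 9, with C / Q isomorphic to Ω⁺(8, 2) (the commutator subgroup of the isometry group of the hyperbolic quadratic form in dimension 8 over the field with 2 elements), and suppose some conjugate of z different from z lies in Q. Then G is isomorphic to the first Conway group. -/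
theorem result {G : Type*} [Group G] [Finite G] (z : G) (hz : orderOf z = 2) (Q : Subgroup (Subgroup.centralizer ({z} : Set G))) [Q.Normal] (hF : Cfsg.generalizedFittingSubgroup (Subgroup.centralizer ({z} : Set G)) = Q) (hQ : Cfsg.IsExtraspecial 2 Q) (hcard : Nat.card Q = 2 ^ 9) (e : (Subgroup.centralizer ({z} : Set G)) ⧸ Q ≃* Cfsg.Omega (ZMod 2) (Cfsg.quadFormPlus 4 (ZMod 2))) (hnwc : ∃ g : G, (∃ hq : g * z * g⁻¹ ∈ Subgroup.centralizer ({z} : Set G), (⟨g * z * g⁻¹, hq⟩ : Subgroup.centralizer ({z} : Set G)) ∈ Q) ∧ g * z * g⁻¹ ≠ z) : Cfsg.Spor.IsoCo1 G := by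
  obtain ⟨ι, h⟩ := CfH6.Co.exSt z hz Q hF hQ hcard ((Nat.card_congr e.toEquiv).trans CfH6.Co.cardΩ) hnwc
  exact h.iso

end Cfsg.Agent.S1718
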