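import Cfsg.Statements.S1722
import Cfsg.Agent.OD.Pre
import Cfsg.Agent.L.J2h
import Cfsg.Agent.L.J2S5


set_option autoImplicit false
open Cfsg

namespace Cfsg.Agent.S1722

open CfL in
theorem f1 : (∀ a : TE n5_g, (∀ k, k ^ 5 = 1 → k * a = a * k) ↔ a ^ 5 = 1) ∧ TE.cnt (fun a : TE n5_g => a ^ 5 = 1) = 25 ∧
    n5a ^ 5 = 1 ∧ n5a ≠ 1 ∧ n5b ≠ 1 ∧ n5b ^ 5 = 1 ∧
    ∀ c : TE n5_g, c ^ 5 = 1 → c = 1 ∨ ∃ k, ∃ j ∈ [1, 2, 3, 4], k * c * k⁻¹ = n5a ^ j ∨ k * c * k⁻¹ = n5b ^ j := by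
  decide +kernel

/-- Sylow 5-structure of a group of Hall–Janko type (large-extraspecial hypothesis with Q of order 32, quotient Ω⁻(4, 2), z not weakly closed in Q, more than one class of involutions): a Sylow 5-subgroup P is its own centraliser, has order 25, its normaliser has order 300, and the subgroups of order 5 fall into exactly two conjugacy classes. -/
theorem result {G : Type*} [Group G] [Finite G] (z : G) (hz : orderOf z = 2) (Q : Subgroup (Subgroup.centralizer ({z} : Set G))) [Q.Normal] (hF : Cfsg.generalizedFittingSubgroup (Subgroup.centralizer ({z} : Set G)) = Q) (hQ : Cfsg.IsExtraspecial 2 Q) (hcard : Nat.card Q = 2 ^ 5) (e : (Subgroup.centralizer ({z} : Set G)) ⧸ Q ≃* Cfsg.Omega (ZMod 2) (Cfsg.quadFormMinus 1 (ZMod 2) 1 1)) (hnwc : ∃ g : G, (∃ hq : g * z * g⁻¹ ∈ Subgroup.centralizer ({z} : Set G), (⟨g * z * g⁻¹, hq⟩ : Subgroup.centralizer ({z} : Set G)) ∈ Q) ∧ g * z * g⁻¹ ≠ z)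 (hcl : ∃ x y : G, orderOf x = 2 ∧ orderOf y = 2 ∧ ¬ IsConj x y) (P : Sylow 5 G) : Subgroup.centralizer ((P : Subgroup G) : Set G) = P ∧ Nat.card P = 25 ∧ Nat.card (Subgroup.normalizer ((P : Subgroup G) : Set G)) = 300 ∧ ∃ X Y : Subgroup G, Nat.card X = 5 ∧ Nat.card Y = 5 ∧ (∀ g : G, X.map (MulAut.conj g).toMonoidHom ≠ Y) ∧ ∀ W : Subgroup G, Nat.card W = 5 → ∃ g : G, W.map (MulAut.conj g).toMonoidHom = X ∨ W.map (MulAut.conj g).toMonoidHom = Y := by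
  obtain ⟨φ0, J⟩ := CfL.js_large z hz Q hF hQ hcard e hnwc hcl
  obtain ⟨e⟩ := J.iso
  obtain ⟨φ, h, n1, n2, n3, n4⟩ := CfL.n5_nm
  have p5 : Fact (Nat.Prime 5) := ⟨by norm_num⟩
  have c25 : Nat.card CfL.n5K = 25 := (CfL.TE.cnt_eq (fun a => a ^ 5 = 1)).trans f1.2.1
  obtain ⟨e', h'⟩ := h.sylow e (p := 5) (by rw [J.gens.1, CfL.fact604800.2.1]; exact c25) P
  obtain ⟨h0, -, h1, h2, h3, h4, h5⟩ := f1
  have ord : ∀ c, c ^ 5 = 1 → c ≠ 1 → orderOf (e'.toMonoidHom.comp φ c) = 5 := fun c c1 c2 => by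
    rw [orderOf_injective _ h'.inj, orderOf_eq_prime c1 c2]
  have cX := (Nat.card_zpowers _).trans (ord _ h1 h2)
  have cY := (Nat.card_zpowers _).trans (ord _ h4 h3)
  refine ⟨h'.cent h0, h'.card.trans c25, h'.card_norm.trans CfL.TE.card, _, _, cX, cY, fun g hg => ?_, fun W hW => ?_⟩
  · classical
    have hm : g * e'.toMonoidHom.comp φ CfL.n5a * g⁻¹ ∈ Subgroup.zpowers (e'.toMonoidHom.comp φ CfL.n5b) := by
      rw [← hg]; exact ⟨_, Subgroup.mem_zpowers _, rfl⟩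
    rw [mem_zpowers_iff_mem_range_orderOf, ord _ h4 h3] at hm
    obtain ⟨k, hk, e1⟩ := Finset.mem_image.1 hm
    rw [← map_pow] at e1
    have cj : IsConj (φ CfL.n5a) (φ (CfL.n5b ^ k)) := (CfL.isConj_equiv e').1 (isConj_iff.2 ⟨g, e1.symm⟩)
    rw [Finset.mem_range] at hk
    interval_cases k
    · rw [pow_zero, map_one, isConj_one_left] at cj
      exact h2 (h.inj (by rw [cj, map_one]))
    exacts [n1 cj, n2 cj, n3 cj, n4 cj]
  · obtain ⟨D, hD⟩ := (IsPGroup.of_card (p := 5) (n := 1) (G := W) (by rw [hW, pow_one])).exists_le_sylow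
    obtain ⟨g, hg⟩ := MulAction.exists_smul_eq G D P
    obtain ⟨⟨c, hc⟩, c1⟩ := (Subgroup.ne_bot_iff_exists_ne_one (H := W)).1 (fun e => by rw [e] at hW; simp at hW)
    have c1 : c ≠ 1 := fun e => c1 (Subtype.ext e)
    have hm : g * c * g⁻¹ ∈ (P : Subgroup G) := by
      rw [← hg]; exact ⟨c, hD hc, rfl⟩
    rw [← h'.map] at hm
    obtain ⟨k, hk, e1⟩ := hm
    have cW : ∀ u : G, Nat.card (W.map (MulAut.conj u).toMonoidHom) = 5 := fun u =>
      (Subgroup.card_map_of_injective (MulAut.conj u).injective).trans hW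
    have key : ∀ m, (e'.toMonoidHom.comp φ) (m * k * m⁻¹) ∈ W.map (MulAut.conj (e'.toMonoidHom.comp φ m * g)).toMonoidHom ∧
        (e'.toMonoidHom.comp φ) (m * k * m⁻¹) ≠ 1 := fun m => by
      rw [map_mul (e'.toMonoidHom.comp φ), map_mul (e'.toMonoidHom.comp φ), map_inv, e1]
      exact ⟨⟨c, hc, by simp [mul_assoc]⟩, by simpa using c1⟩
    rcases h5 k hk with e2 | ⟨m, j, -, e2 | e2⟩
    · exact absurd (by simp [e2]) (key 1).2
    · exact ⟨_, Or.inl (CfL.eq_of_prime_card p5.out (cW _) cX (key m).1 (by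
        rw [e2, map_pow]; exact Subgroup.pow_mem _ (Subgroup.mem_zpowers _) _) (key m).2)⟩
    · exact ⟨_, Or.inr (CfL.eq_of_prime_card p5.out (cW _) cY (key m).1 (by
        rw [e2, map_pow]; exact Subgroup.pow_mem _ (Subgroup.mem_zpowers _) _) (key m).2)⟩

end Cfsg.Agent.S1722
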