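import Cfsg.Statements.S1723
import Cfsg.Agent.OD.Pre
import Cfsg.Agent.L.J2h
import Cfsg.Agent.L.J2S3
import Cfsg.Agent.H9.QdFacts


set_option autoImplicit false
open Cfsg

namespace Cfsg.Agent.S1723

open CfL in
theorem f1 : TE.cnt (fun a : TE n3_g => a ^ 3 = 1) = 27 ∧ (∃ a b : TE n3_g, a ^ 3 = 1 ∧ b ^ 3 = 1 ∧ a * b ≠ b * a) ∧
    n3a ^ 3 = 1 ∧ n3a ≠ 1 ∧ n3b ^ 1 ≠ 1 ∧ (n3b ^ 1) ^ 3 = 1 ∧
    ∀ c : TE n3_g, c ^ 3 = 1 → c = 1 ∨ ∃ k, k * c * k⁻¹ = n3a ∨ k * c * k⁻¹ = n3b ^ 1 := by decide +kernel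

/-- Sylow 3-structure of a group of Hall–Janko type (large-extraspecial hypothesis with Q of order 32, quotient Ω⁻(4, 2), z not weakly closed in Q, more than one class of involutions): a Sylow 3-subgroup P is extraspecial of order 27, its normaliser has order 216, and the elements of order 3 form exactly two conjugacy classes. -/
theorem result {G : Type*} [Group G] [Finite G] (z : G) (hz : orderOf z = 2) (Q : Subgroup (Subgroup.centralizer ({z} : Set G))) [Q.Normal] (hF : Cfsg.generalizedFittingSubgroup (Subgroup.centralizer ({z} : Set G)) = Q) (hQ : Cfsg.IsExtraspecial 2 Q) (hcard : Nat.card Q = 2 ^ 5) (e : (Subgroup.centralizer ({z} : Set G)) ⧸ Q ≃* Cfsg.Omega (ZMod 2) (Cfsg.quadFormMinus 1 (ZMod 2) 1 1)) (hnwc : ∃ g : G, (∃ hq : g * z * g⁻¹ ∈ Subgroup.centralizer ({z} : Set G), (⟨g * z * g⁻¹, hq⟩ : Subgroup.centralizer ({z} : Set G)) ∈ Q) ∧ g * z * g⁻¹ ≠ z) (hcl :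 ∃ x y : G, orderOf x = 2 ∧ orderOf y = 2 ∧ ¬ IsConj x y) (P : Sylow 3 G) : Cfsg.IsExtraspecial 3 (P : Subgroup G) ∧ Nat.card P = 27 ∧ Nat.card (Subgroup.normalizer ((P : Subgroup G) : Set G)) = 216 ∧ ∃ a b : G, orderOf a = 3 ∧ orderOf b = 3 ∧ ¬ IsConj a b ∧ ∀ c : G, orderOf c = 3 → IsConj c a ∨ IsConj c b := by
  obtain ⟨φ0, J⟩ := CfL.js_large z hz Q hF hQ hcard e hnwc hcl
  obtain ⟨e⟩ := J.iso
  obtain ⟨φ, h, hn⟩ := CfL.n3_nm
  have : Fact (Nat.Prime 3) := ⟨by norm_num⟩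
  have c27 : Nat.card CfL.n3K = 27 := (CfL.TE.cnt_eq (fun a => a ^ 3 = 1)).trans f1.1
  obtain ⟨e', h'⟩ := h.sylow e (p := 3) (by rw [J.gens.1, CfL.fact604800.2.2]; exact c27) P
  obtain ⟨-, ⟨a, b, ha, hb, hab⟩, h1, h2, h3, h4, h5⟩ := f1
  have ord : ∀ c, c ^ 3 = 1 → c ≠ 1 → orderOf (e'.toMonoidHom.comp φ c) = 3 := fun c c1 c2 => by
    rw [orderOf_injective _ h'.inj, orderOf_eq_prime c1 c2]
  refine ⟨CfH9.isExtraspecial_of_card (h'.card.trans c27) fun hc => ?_, h'.card.trans c27,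
    h'.card_norm.trans CfL.TE.card, _, _, ord _ h1 h2, ord _ h4 h3, fun hc => hn ((CfL.isConj_equiv e').1 hc),
    fun c hc => ?_⟩
  · have := congrArg Subtype.val (hc.1.1 ⟨_, h'.mem.2 ha⟩ ⟨_, h'.mem.2 hb⟩)
    exact hab (h'.inj (by rw [map_mul, map_mul]; exact this))
  · obtain ⟨D, hD⟩ := (IsPGroup.of_card (p := 3) (n := 1) (G := Subgroup.zpowers c) (by rw [Nat.card_zpowers, hc, pow_one])).exists_le_sylow
    obtain ⟨g, hg⟩ := MulAction.exists_smul_eq G D P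
    have hm : g * c * g⁻¹ ∈ (P : Subgroup G) := by
      rw [← hg]; exact ⟨c, hD (Subgroup.mem_zpowers c), rfl⟩
    rw [← h'.map] at hm
    obtain ⟨k, hk, e1⟩ := hm
    have cj : IsConj c (e'.toMonoidHom.comp φ k) := isConj_iff.2 ⟨g, e1.symm⟩
    rcases h5 k hk with e2 | ⟨m, e2 | e2⟩
    · rw [e2, map_one, isConj_one_left] at cj
      rw [cj, orderOf_one] at hc; omega
    · exact Or.inl (cj.trans (MonoidHom.map_isConj _ (isConj_iff.2 ⟨m, e2⟩)))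
    · exact Or.inr (cj.trans (MonoidHom.map_isConj _ (isConj_iff.2 ⟨m, e2⟩)))

end Cfsg.Agent.S1723
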