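import Cfsg.Statements.S1724
import Cfsg.Agent.OD.Pre
import Cfsg.Agent.L.J2h
import Cfsg.Agent.L.J2S7


set_option autoImplicit false
open Cfsg

namespace Cfsg.Agent.S1724

open CfL in
theorem f1 : (∀ a : TE n7_g, (∀ k, k ^ 7 = 1 → k * a = a * k) ↔ a ^ 7 = 1) ∧ TE.cnt (fun a : TE n7_g => a ^ 7 = 1) = 7 ∧
    ∃ a b : TE n7_g, a * b ≠ b * a := by decide +kernel

/-- In a group of Hall–Janko type (large-extraspecial hypothesis with Q of order 32, quotient Ω⁻(4, 2), z not weakly closed in Q, more than one class of involutions), a Sylow 7-subgroup is its own centraliser and its normaliser is non-abelian of order 42. -/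
theorem result {G : Type*} [Group G] [Finite G] (z : G) (hz : orderOf z = 2) (Q : Subgroup (Subgroup.centralizer ({z} : Set G))) [Q.Normal] (hF : Cfsg.generalizedFittingSubgroup (Subgroup.centralizer ({z} : Set G)) = Q) (hQ : Cfsg.IsExtraspecial 2 Q) (hcard : Nat.card Q = 2 ^ 5) (e : (Subgroup.centralizer ({z} : Set G)) ⧸ Q ≃* Cfsg.Omega (ZMod 2) (Cfsg.quadFormMinus 1 (ZMod 2) 1 1)) (hnwc : ∃ g : G, (∃ hq : g * z * g⁻¹ ∈ Subgroup.centralizer ({z} : Set G), (⟨g * z * g⁻¹, hq⟩ : Subgroup.centralizer ({z} : Set G)) ∈ Q) ∧ g * z * g⁻¹ ≠ z) (hcl : ∃ x y : G, orderOf x = 2 ∧ orderOf y = 2 ∧ ¬ IsConj x y) (D : Sylow 7 G) : Subgroup.centralizer ((D : Subgroup G) : Set G) = D ∧ Nat.card (Subgroup.normalizer ((D : Subgroup G) : Set G)) = 42 ∧ ¬ IsMulCommutative (Subgroup.normalizer ((D : Subgroup G) : Set G)) := by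
  obtain ⟨φ0, J⟩ := CfL.js_large z hz Q hF hQ hcard e hnwc hcl
  obtain ⟨e⟩ := J.iso
  obtain ⟨φ, h⟩ := CfL.n7_nm
  have : Fact (Nat.Prime 7) := ⟨by norm_num⟩
  obtain ⟨e', h'⟩ := h.sylow e (p := 7) (by
    rw [J.gens.1, CfL.fact604800.1]
    exact (CfL.TE.cnt_eq (fun a => a ^ 7 = 1)).trans f1.2.1) D
  refine ⟨h'.cent f1.1, h'.card_norm.trans CfL.TE.card, fun hc => ?_⟩
  obtain ⟨a, b, hab⟩ := f1.2.2
  rw [h'.norm] at hc
  have := congrArg Subtype.val (hc.1.1 ⟨_, a, rfl⟩ ⟨_, b, rfl⟩)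
  exact hab (h'.inj (by rw [map_mul, map_mul]; exact this))

end Cfsg.Agent.S1724
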