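import Cfsg.Statements.S1823
import Cfsg.Agent.OD.Pre
import Cfsg.Agent.H7.QT3

set_option autoImplicit false
set_option linter.unusedVariables false
open Cfsg

namespace Cfsg.Agent.S1823

open Subgroup CfH7 CfH9
open scoped commutatorElement


/-- A common nontrivial normal 2-subgroup for a pair of 2-local-type subgroups over a Sylow 2-subgroup of a simple QTKE-group. Let G be a non-abelian finite simple QTKE-group and T a Sylow 2-subgroup of G. Let M₀ and H be subgroups of G containing T with O₂(M₀) ≠ 1 and O₂(H) ≠ 1, such that T lies in a unique maximal subgroup of H. Let R be a nontrivial subgroup of T that is a Sylow 2-subgroup of O²(H)R and is normalized by M₀. Then some nontrivial subgroup R₀ of R is normalized by both M₀ and H (that is, R₀ is normal in ⟨M₀, H⟩). -/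
theorem result {G : Type*} [Group G] [Finite G] [IsSimpleGroup G]
    (hG : ¬ IsMulCommutative G) (hQ : Cfsg.IsQTKE G) (T : Sylow 2 G) (M₀ H : Subgroup G)
    (hM₀ : M₀ ∈ Cfsg.calHOver (T : Subgroup G)) (hH : H ∈ Cfsg.calHOver (T : Subgroup G))
    (hU : ∃! K : Subgroup ↥H, IsCoatom K ∧ (T : Subgroup G).subgroupOf H ≤ K)
    (R : Subgroup G) (hR : R ≠ ⊥) (hRT : R ≤ (T : Subgroup G))
    (hRS : ∃ P : Sylow 2 ↥(Cfsg.oddGenerated H ⊔ R),
      (P : Subgroup ↥(Cfsg.oddGenerated H ⊔ R)) = R.subgroupOf (Cfsg.oddGenerated H ⊔ R))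
    (hRM : M₀ ≤ Subgroup.normalizer (R : Set G)) :
    ∃ R₀ : Subgroup G, R₀ ≠ ⊥ ∧ R₀ ≤ R ∧ M₀ ⊔ H ≤ Subgroup.normalizer (R₀ : Set G) := by
  have hpar : IsOfParabolicCharacteristic 2 G := fun R hR hR1 hS => hQ.2.2 _ ⟨R, hR, hR1, rfl⟩ hS
  have hT := sylIn_top T
  obtain ⟨Y, u⟩ := existsUnique_coatom_iff.1 hU
  rw [← UMax.map_iff H.subtype_injective, map_subgroupOf_eq_of_le hH.2, map_subtype_top] at u
  obtain ⟨P, hP⟩ := hRS
  have s := sylIn_of_sylow P
  rw [hP, map_subgroupOf_eq_of_le le_sup_right, oddGenerated_eq] at s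
  exact common_normal hT (fun L h => parabolicChar_Cz_pCoreOf_le hpar hT h) hM₀.2 u
    (fun e => hH.1 (pCoreOf_eq_bot_iff.1 e)) hR hRT s hRM

end Cfsg.Agent.S1823
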