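import Cfsg.Statements.S1851
import Cfsg.Agent.OD.Pre
import Cfsg.Agent.H7.PRed
import Cfsg.Agent.H7.Components

set_option autoImplicit false
set_option linter.unusedVariables false
open Cfsg

namespace Cfsg.Agent.S1851

open Subgroup CfH7 CfH9
open scoped commutatorElement


/-- Let G be a non-abelian finite simple QTKE-group and T a Sylow 2-subgroup of G, and let L be a member of ℒ_f(G, T) (a member of ℒ(G, T) that lies in 𝒳 — L ≠ 1, L = O²(L), F*(L) = O₂(L) — and acts nontrivially on Ω₁(Z(O₂(L)))). Then (1) every member K of ℒ(G, T) containing L is again in ℒ_f(G, T) (a sharper form of (1) also compares the modules [Ω₁(Z(R)), L] and [Ω₁(Z(R')), K] for suitable 2-subgroups R, R'; that comparison is not included); and (2) if L is maximal under inclusion among the members of ℒ_f(G, T), then L is a maximal member of ℒ(G, T), hence a member of ℒ_f*(G, T). -/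
theorem result {G : Type*} [Group G] [Finite G] [IsSimpleGroup G]
    (hG : ¬ IsMulCommutative G) (hQ : Cfsg.IsQTKE G) (T : Sylow 2 G) (L : Subgroup G)
    (hL : L ∈ Cfsg.calLf (T : Subgroup G)) :
    (∀ K ∈ Cfsg.calL (T : Subgroup G), L ≤ K → K ∈ Cfsg.calLf (T : Subgroup G)) ∧
    ((∀ K ∈ Cfsg.calLf (T : Subgroup G), L ≤ K → K = L) → L ∈ Cfsg.calLfMax (T : Subgroup G)) := by
  have hpar : IsOfParabolicCharacteristic 2 G := fun R hR hR1 hS => hQ.2.2 _ ⟨R, hR, hR1, rfl⟩ hS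
  have hT := sylIn_top T
  have b : ∀ K ∈ calL (T : Subgroup G), K ≠ ⊥ ∧ pResidualOf 2 K = K ∧ SubnIn K (K ⊔ T) ∧
      Cz(pCoreOf 2 (K ⊔ T)) ≤ pCoreOf 2 (K ⊔ T) ∧ ⁅pCoreOf 2 (K ⊔ T), K⁆ ≤ pCoreOf 2 K ∧
      pCoreOf 2 (K ⊔ T) ≤ Nm(K) := by
    rintro K ⟨⟨h1, h2, h3, -⟩, -, h4⟩
    have e := congrArg (Subgroup.map (K ⊔ (T : Subgroup G)).subtype) h2
    rw [map_commutator, map_subgroupOf_eq_of_le le_sup_left] at e
    have r := pResidualOf_eq_of_perfect (p := 2) e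
    have s : SubnIn K (K ⊔ T) := ⟨le_sup_left, h3⟩
    have n := (le_sup_left : K ≤ K ⊔ T).trans (le_normalizer_pCoreOf (p := 2) _)
    refine ⟨fun e => h1 (by simp [e]), r, s, parabolicChar_Cz_pCoreOf_le hpar hT le_sup_right
      fun e => h4 ((map_eq_bot_iff_of_injective _ (subtype_injective _)).1 e), ?_⟩
    have m := s.pCoreOf_le_Nm_pResidualOf (p := 2)
    rw [r] at m
    exact ⟨le_pCoreOf (comm_le_right m) (right_le_Nm_comm _ _)
      ((isPGroup_pCoreOf _).to_le (comm_le_left n)), m⟩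
  have k : ∀ K ∈ calL (T : Subgroup G), L ≤ K → K ∈ calLf (T : Subgroup G) := fun K hK l => by
    obtain ⟨-, r, s, -, c, m⟩ := b L hL.1
    obtain ⟨h1, r', s', h2, c', -⟩ := b K hK
    refine ⟨hK, ⟨h1, ?_, chP_iff_fstar.1 (s'.charP (chP_iff.2 (inf_le_right.trans h2)))⟩,
      fun e => hL.2.2 ?_⟩
    · rw [pResidualOf_eq_closure] at r'
      simpa only [oddGenerated, Nat.coprime_two_right] using r'
    change ⁅OZ 2 (pCoreOf 2 K), K⁆ = ⊥ at e
    change ⁅OZ 2 (pCoreOf 2 L), L⁆ = ⊥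
    have nU : K ≤ Nm(OZ 2 (pCoreOf 2 (K ⊔ T))) :=
      (le_sup_left.trans (le_normalizer_pCoreOf _)).trans (Nm_le_Nm_OZ _)
    have k1 : K ≤ Cz(OZ 2 (pCoreOf 2 (K ⊔ T))) := r'.ge.trans <| pResidualOf_le_Cz_of_le
      (elemAb_isPGroup (elemAb_OZ _)) nU (M := OZ 2 (pCoreOf 2 K)) (elemAb_le_omegaOne
        (elemAb_of_le (comm_le_left nU) (elemAb_OZ _)) (le_inf
        ((commutator_mono (OZ_le _) le_rfl).trans c') ((comm_le_left nU).trans
          ((OZ_le_Cz _).trans (Cz_anti s'.pCoreOf_le))))) (comm_eq_bot_right.1 e)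
    have QR : pCoreOf 2 (K ⊔ T) ≤ pCoreOf 2 (L ⊔ T) := pCoreOf_le_pCoreOf_of_le
      (sup_le_sup_right l _) ((sylIn_pCoreOf_le (hT.mono le_sup_right le_top)).trans le_sup_right)
    have nW : Nm(L) ≤ Nm(OZ 2 (pCoreOf 2 L)) := (normalizer_le_normalizer_pCoreOf _).trans (Nm_le_Nm_OZ _)
    refine comm_eq_bot_right.2 (r.ge.trans <| AxB_mod (A := pCoreOf 2 (L ⊔ T))
      (elemAb_isPGroup (elemAb_OZ _)) (m.trans nW) (le_normalizer.trans nW)
      ((pResidualOf_eq_bot_of_isPGroup (isPGroup_pCoreOf _)).le.trans bot_le)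
      (c.trans (le_Cz_OZ _)) (l.trans (k1.trans (Cz_anti ?_))))
    have := inf_le_right.trans (Cz_anti QR) (a := OZ 2 (pCoreOf 2 L) ⊓ Cz(pCoreOf 2 (L ⊔ T)))
    exact elemAb_le_omegaOne (elemAb_of_le inf_le_left (elemAb_OZ _)) (le_inf (this.trans h2) this)
  exact ⟨k, fun h => ⟨⟨hL.1, fun K hK l => h K (k K hK l) l⟩, hL.2⟩⟩

end Cfsg.Agent.S1851
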