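import Cfsg.Statements.S1852
import Cfsg.Agent.OD.Pre
import Cfsg.Agent.H1.Xi6

set_option autoImplicit false
open Cfsg

namespace Cfsg.Agent.S1852

/-- Let G be a non-abelian finite simple QTKE-group and T a Sylow 2-subgroup of G lying in at least two distinct maximal 2-local subgroups of G. Let X be a member of Ξ*(G, T) — X = O²(X) is T-invariant with O₂(XT) ≠ 1, X/O₂(X) is elementary abelian of order p² or extraspecial of order p³ for some odd prime p, T is irreducible on the Frattini quotient of X/O₂(X), and XT lies in no ⟨L, T⟩ with L ∈ ℒ(G, T) and L/O₂(L) quasisimple — that also lies in 𝒳 (F*(X) = O₂(X)) and acts nontrivially on Ω₁(Z(O₂(X))) (a faithful solvable uniqueness group). Then either X is a {2, 3}-group, or X/O₂(X) is a 5-group and the group of automorphisms of X/O₂(X) induced by N_G(X) is a {2, 5}-group (rendered: for every prime r other than 2 and 5, an element of N_G(X) whose r-th power acts trivially on X/O₂(X) itself acts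 trivially on X/O₂(X)). -/
theorem result {G : Type*} [Group G] [Finite G] [IsSimpleGroup G]
    (hG : ¬ IsMulCommutative G) (hQ : Cfsg.IsQTKE G) (T : Sylow 2 G) (X : Subgroup G)
    (hT : ∃ M₁ M₂ : Subgroup G, M₁ ∈ Cfsg.maxTwoLocalsContaining (T : Subgroup G) ∧
      M₂ ∈ Cfsg.maxTwoLocalsContaining (T : Subgroup G) ∧ M₁ ≠ M₂)
    (hX : X ∈ Cfsg.XiStar (T : Subgroup G)) (hXf : X ∈ Cfsg.calXf G) :
    (∀ p : ℕ, p.Prime → p ∣ Nat.card ↥X → p = 2 ∨ p = 3) ∨
    (IsPGroup 5 (↥X ⧸ Cfsg.pCore 2 ↥X) ∧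
      ∀ r : ℕ, r.Prime → r ≠ 2 → r ≠ 5 → ∀ g ∈ Subgroup.normalizer (X : Set G),
        (∀ x ∈ X, g ^ r * x * (g ^ r)⁻¹ * x⁻¹ ∈ Cfsg.pCoreTwoOf X) →
          ∀ x ∈ X, g * x * g⁻¹ * x⁻¹ ∈ Cfsg.pCoreTwoOf X) := by
  exact CfH1.Xi.main2 hG hQ T X hT hX hXf

end Cfsg.Agent.S1852
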