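import Cfsg.Statements.S2751
import Cfsg.Agent.OD.Pre
import Cfsg.Agent.H8.Gold9

set_option autoImplicit false
open Cfsg

namespace Cfsg.Agent.S2751

/-- Goldschmidt's bound for amalgams of index (3, 3): let M₁ and M₂ be finite subgroups of a group G such that M₁ ⊓ M₂ is a Sylow 2-subgroup of both M₁ and M₂, each quotient Mᵢ / O₂(Mᵢ) is isomorphic to the symmetric group of degree 3, and no nontrivial subgroup of M₁ ⊓ M₂ is normal in both M₁ and M₂. Then M₁ ⊓ M₂ has order at most 2^7. -/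
theorem result {G : Type*} [Group G] (M₁ M₂ : Subgroup G) [Finite M₁] [Finite M₂] (ha₁ : ∃ P : Sylow 2 M₁, (P : Subgroup M₁) = (M₁ ⊓ M₂).subgroupOf M₁) (ha₂ : ∃ P : Sylow 2 M₂, (P : Subgroup M₂) = (M₁ ⊓ M₂).subgroupOf M₂) (hb₁ : Nonempty (M₁ ⧸ Cfsg.pCore 2 M₁ ≃* Equiv.Perm (Fin 3))) (hb₂ : Nonempty (M₂ ⧸ Cfsg.pCore 2 M₂ ≃* Equiv.Perm (Fin 3))) (hc : ∀ N : Subgroup G, N ≤ M₁ ⊓ M₂ → (N.subgroupOf M₁).Normal → (N.subgroupOf M₂).Normal → N = ⊥) : Nat.card ↥(M₁ ⊓ M₂) ≤ 2 ^ 7 := by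
  open Subgroup MulAction CfH9 CfH8 commutatorElement in
  have hs : ∀ P : Subgroup G, Finite P → M₁ ⊓ M₂ ≤ P →
      (∃ S : Sylow 2 P, (S : Subgroup P) = (M₁ ⊓ M₂).subgroupOf P) → SylIn 2 (M₁ ⊓ M₂) P :=
    fun P _ hle ⟨S, hS⟩ => sylIn_iff_exists_sylow.2 ⟨S, by rw [hS, map_subgroupOf_eq_of_le hle]⟩
  have hi : ∀ P : Subgroup G, Nonempty (P ⧸ Cfsg.pCore 2 P ≃* Equiv.Perm (Fin 3)) →
      (pCoreOf 2 P).relIndex P = 6 := fun P ⟨f⟩ => by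
    rw [relIndex, CfH7.subgroupOf_pCoreOf, index, Nat.card_congr f.toEquiv]
    simp [Fintype.card_perm, Nat.factorial]
  exact goldschmidt_bound (fun N hN h1 h2 => hc N hN
    ((normal_subgroupOf_iff_le_normalizer (hN.trans inf_le_left)).2 h1)
    ((normal_subgroupOf_iff_le_normalizer (hN.trans inf_le_right)).2 h2))
    (hs M₁ ‹_› inf_le_left ha₁) (hs M₂ ‹_› inf_le_right ha₂) (hi M₁ hb₁) (hi M₂ hb₂)

end Cfsg.Agent.S2751
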