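import Cfsg.Statements.S2756
import Cfsg.Agent.OD.Pre
import Cfsg.Agent.H9.ZJFail
import Cfsg.Agent.H9.Invert
import Cfsg.Agent.H7.PIrr
import Cfsg.Agent.H1.Sidki

set_option autoImplicit false
open Cfsg

namespace Cfsg.Agent.S2756
open Subgroup CfH9 CfH7
open scoped commutatorElement

variable {G : Type*} [Group G] [Finite G]

theorem conj_pow_odd {g x : G} (e : g * x * g⁻¹ = x⁻¹) {m : ℕ} (hm : Odd m) :
    g ^ m * x * (g ^ m)⁻¹ = x⁻¹ := by
  obtain ⟨k, rfl⟩ := hm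
  have h2 : g ^ 2 * x * (g ^ 2)⁻¹ = x := by
    rw [show g ^ 2 * x * (g ^ 2)⁻¹ = g * (g * x * g⁻¹) * g⁻¹ by simp only [pow_two]; group, e,
      ← conj_inv, e, inv_inv]
  have h3 : g ^ (2 * k) * x * (g ^ (2 * k))⁻¹ = x := by
    rw [pow_mul]; exact mem_Cx'.1 (pow_mem (mem_Cx'.2 h2) k)
  rw [pow_succ', ← e]
  nth_rewrite 2 [← h3]
  group

theorem no_inv {H : Subgroup G} (h : PCl 2 H) {g x : G} (hg : g ∈ H) (hx : x ∈ H)
    (ho : Odd (orderOf x)) (e : g * x * g⁻¹ = x⁻¹) : x = 1 := by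
  obtain ⟨a, m, hm, hg'⟩ := Nat.exists_eq_two_pow_mul_odd (orderOf_pos g).ne'
  have h1 : g ^ m ∈ pCoreOf 2 H := h _ (zpowers_le.2 (pow_mem hg m)) (isPGroup_zpowers (k := a)
    (by rw [← pow_mul, mul_comm, ← hg', pow_orderOf_eq_one])) (mem_zpowers _)
  have h2 : x⁻¹ * x⁻¹ ∈ pCoreOf 2 H := by
    have := commutator_mem_left h1 (le_normalizer_pCoreOf (p := 2) H hx)
    rwa [commutatorElement_def, conj_pow_odd e hm] at this
  have h3 : x ∈ pCoreOf 2 H := inv_mem_iff.1 (mem_of_sq_mem (by rwa [orderOf_inv]) h2)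
  obtain ⟨k, hk⟩ := isPGroup_iff_mem.1 (isPGroup_pCoreOf (p := 2) H) x h3
  exact orderOf_eq_one_iff.1 (Nat.eq_one_of_dvd_coprimes
    (Nat.Coprime.pow_right k (Nat.coprime_two_right.2 ho)) dvd_rfl (orderOf_dvd_of_pow_eq_one hk))

theorem exists_inv (h : ¬ PCl 2 (⊤ : Subgroup G)) : ∃ q : ℕ, q.Prime ∧ q ≠ 2 ∧ ∃ x g : G,
    IsPGroup q (zpowers x) ∧ x ≠ 1 ∧ g * x * g⁻¹ = x⁻¹ := by
  let f := QuotientGroup.mk' (pCore 2 G)
  have hf : Function.Surjective f := QuotientGroup.mk'_surjective _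
  have hk : f.ker = pCore 2 G := QuotientGroup.ker_mk' _
  have h2 : 2 ∣ Nat.card (⊤ : Subgroup (G ⧸ pCore 2 G)) := by
    by_contra h2
    refine h (PCl.of_map (f := f) (pCl_of_coprime ?_) ?_)
    · rw [map_top_of_surjective _ hf]
      exact ((Nat.Prime.coprime_iff_not_dvd Nat.prime_two).2 h2).symm
    · rw [top_inf_eq, hk]; exact isPGroup_pCore _ _
  obtain ⟨t', -, ht⟩ := exists_orderOf_eq_prime h2
  obtain ⟨t, rfl⟩ := hf t'
  obtain ⟨y, hy1, hyo, hy⟩ := CfH1.exists_odd_inverted (pow_eq_one_of_orderOf ht) (by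
    rw [pCore_quotient_pCore]; exact ne_one_of_orderOf_eq_prime ht)
  obtain ⟨q, hq, hqd⟩ := Nat.exists_prime_and_dvd (mt orderOf_eq_one_iff.1 hy1)
  haveI := Fact.mk hq
  obtain ⟨_, ⟨i, rfl⟩, hz⟩ := exists_orderOf_eq_prime (p := q) (Q := zpowers y)
    (by rwa [Nat.card_zpowers])
  have hq2 : q ≠ 2 := by rintro rfl; exact (Nat.not_even_iff_odd.2 hyo) (even_iff_two_dvd.2 hqd)
  set z := y ^ i
  have hzi : f t * z * (f t)⁻¹ = z⁻¹ := by rw [← conj_zpow, hy, inv_zpow]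
  obtain ⟨X, hX⟩ := exists_sylIn q ((zpowers z).comap f)
  have hX' : X.map f = zpowers z := by
    have := hX.map f
    rw [map_comap_eq_self_of_surjective hf] at this
    exact (this.eq_of_le (isPGroup_zpowers_of_orderOf_prime hz) le_rfl this.le).symm
  obtain ⟨x, hx, hxz⟩ := hX'.ge (mem_zpowers z)
  obtain ⟨n, hn, g, hg, e⟩ := hX.frattini (g := t) (mem_Nm_comap (mem_normalizer_of_cj_le (by
    rw [cj_zpowers, hzi, zpowers_inv])))
  refine ⟨q, hq, hq2, x, g, hX.pgrp.to_le (zpowers_le.2 hx), fun h0 => ?_, ?_⟩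
  · rw [h0, map_one] at hxz; exact ne_one_of_orderOf_eq_prime hz hxz.symm
  · have h0 : pCore 2 G ⊓ X = ⊥ := disjoint_iff.1
      (IsPGroup.disjoint_of_ne 2 q hq2.symm _ _ (isPGroup_pCore _ _) hX.pgrp)
    rw [← mul_eq_one_iff_eq_inv, ← mem_bot, ← h0]
    refine mi ?_ (mul_mem (conj_mem_of_mem_normalizer hg hx) hx)
    rw [← hk, MonoidHom.mem_ker]
    obtain ⟨j, hj⟩ := mem_comap.1 hn
    have e2 : f g = (f n)⁻¹ * f t := by rw [e, map_mul]; group
    simp only [map_mul, map_inv, hxz, e2, ← hj]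
    rw [show (z ^ j)⁻¹ * f t * z * ((z ^ j)⁻¹ * f t)⁻¹ * z =
      (z ^ j)⁻¹ * (f t * z * (f t)⁻¹) * z ^ j * z by group, hzi]
    group

theorem odd_of_mem {q : ℕ} [hq : Fact q.Prime] (h2 : q ≠ 2) {T : Subgroup G} (hT : IsPGroup q T)
    {x : G} (hx : x ∈ T) : Odd (orderOf x) := by
  obtain ⟨k, hk⟩ := isPGroup_iff_mem.1 hT x hx
  exact Odd.of_dvd_nat (hq.out.odd_of_ne_two h2).pow (orderOf_dvd_of_pow_eq_one hk)

/-- For a finite group G the following are equivalent: (a) G has a normal Sylow 2-subgroup; (b) for every odd prime q dividing the order of G and every Sylow q-subgroup T, the normalizer of Z(J(T)) has a normal Sylow 2-subgroup; (c) for every odd prime q and every Sylow q-subgroup T, no nonidentity element of T is inverted by an element of the normalizer of Z(J(T)). Here J(T) is the Thompson subgroup generated by the abelian subgroups of T of largest order. Stated as the two equivalences (a) ⇔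 (b) and (a) ⇔ (c). -/
theorem result {G : Type*} [Group G] [Finite G] : ((∀ P : Sylow 2 G, (P : Subgroup G).Normal) ↔ ∀ (q : ℕ) [Fact q.Prime], q ≠ 2 → q ∣ Nat.card G → ∀ T : Sylow q G, ∀ P : Sylow 2 ↥(Subgroup.normalizer (Cfsg.centerThompsonAOf (T : Subgroup G) : Set G)), (P : Subgroup ↥(Subgroup.normalizer (Cfsg.centerThompsonAOf (T : Subgroup G) : Set G))).Normal) ∧ ((∀ P : Sylow 2 G, (P : Subgroup G).Normal) ↔ ∀ (q : ℕ) [Fact q.Prime], q ≠ 2 → ∀ T : Sylow q G, ∀ x ∈ (T : Subgroup G), x ≠ 1 → ∀ g ∈ Subgroup.normalizer (Cfsg.centerThompsonAOf (T : Subgroup G) : Set G), g * x * g⁻¹ ≠ x⁻¹) := by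
  simp only [centerThompsonAOf_eq]
  have hle : ∀ T : Subgroup G, T ≤ Nm(ZJ 0 T) := fun T => le_normalizer.trans (Nm_le_Nm_ZJ T)
  have hc : (∀ (q : ℕ) [Fact q.Prime], q ≠ 2 → ∀ T : Sylow q G, ∀ x ∈ (T : Subgroup G), x ≠ 1 →
      ∀ g ∈ Nm(ZJ 0 (T : Subgroup G)), g * x * g⁻¹ ≠ x⁻¹) → IsPClosed 2 G := fun h => by
    refine isPClosed_iff_top.2 (by_contra fun h0 => ?_)
    obtain ⟨q, hq, hq2, x, g, hx, hx1, e⟩ := exists_inv h0
    haveI := Fact.mk hq
    obtain ⟨T, hT⟩ := hx.exists_le_sylow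
    have hxT := hT (mem_zpowers x)
    by_cases hsc : SC ⊤ T (ZJ 0 (T : Subgroup G))
    · obtain ⟨k, hk, e'⟩ := (hsc.ctrlFus_of_comm (sylIn_top T) (elemAb_ZJ _).1).elem hxT
        (mem_top g) (e ▸ inv_mem hxT)
      exact h q hq2 T x hxT hx1 k (mi2 hk) (e'.symm.trans e)
    · obtain ⟨u, hu, ho, n, hn, e'⟩ := (zj_fail hq2 (c := q - 1) (fun hd => by
        have := Nat.le_of_dvd (by have := hq.two_le; omega) hd
        have := hq.two_le; omega) G T (sylIn_top T) hsc).eigen (sylIn_top T)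
      refine h q hq2 T u (ZJ_le _ hu) (ne_one_of_orderOf_eq_prime ho) n hn (e'.trans ?_)
      rw [eq_inv_iff_mul_eq_one, ← pow_succ, Nat.sub_add_cancel hq.one_le, ← ho,
        pow_orderOf_eq_one]
  refine ⟨⟨fun h q _ _ _ T => isPClosed_iff.2 ((isPClosed_iff_top.1 h).mono le_top), fun h =>
    hc fun q _ h2 T x hx h1 g hg e => h1 ?_⟩, fun h q _ h2 T x hx h1 g hg e => h1
      (no_inv (isPClosed_iff_top.1 h) trivial trivial (odd_of_mem h2 T.isPGroup' hx) e), hc⟩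
  have h3 := isPClosed_iff.1 (h q h2 ((sylow_ne_bot_iff T).1 (ne_bot_of_mem hx h1)) T)
  rw [centerThompsonAOf_eq] at h3
  exact no_inv h3 hg (hle _ hx) (odd_of_mem h2 T.isPGroup' hx) e

end Cfsg.Agent.S2756
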