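import Cfsg.Statements.S2758
import Cfsg.Agent.OD.Pre
import Cfsg.Agent.H8.Invol

set_option autoImplicit false
open Cfsg

namespace Cfsg.Agent.S2758

/-- For an odd prime p and a finite group G the following are equivalent: the dihedral group of order 2p is involved in G; some element of 2-power order normalizes but does not centralize some p-subgroup of G; some element of 2-power order inverts some nonidentity element of p-power order. -/
theorem result {G : Type*} [Group G] [Finite G] {p : ℕ} [Fact p.Prime] (hp : p ≠ 2) : (Cfsg.Involves (DihedralGroup p) G ↔ ∃ (x : G) (P : Subgroup G), (∃ k : ℕ, orderOf x = 2 ^ k) ∧ IsPGroup p ↥P ∧ x ∈ Subgroup.normalizer (P : Set G) ∧ x ∉ Subgroup.centralizer (P : Set G)) ∧ (Cfsg.Involves (DihedralGroup p) G ↔ ∃ x y : G, (∃ k : ℕ, orderOf x = 2 ^ k) ∧ (∃ k : ℕ, orderOf y = p ^ k) ∧ y ≠ 1 ∧ x * y * x⁻¹ = y⁻¹) := by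
  open Subgroup MulAction CfH9 CfH8 commutatorElement in
  refine ⟨⟨fun h => ?_, ?_⟩, ⟨fun h => ?_, ?_⟩⟩
  · obtain ⟨x, P, k, h1, h2⟩ := exists_Nm_of_involves_dihedral hp h
    exact ⟨x, P, exists_orderOf_eq_pow h1, h2⟩
  · rintro ⟨x, P, ⟨k, hk⟩, h1, h2, h3⟩
    exact involves_dihedral_of_Nm hp h1 (pow_eq_one_of_orderOf hk) h2 h3
  · obtain ⟨x, y, k, h1, h2, h3⟩ := exists_inverts_of_involves_dihedral hp h
    exact ⟨x, y, exists_orderOf_eq_pow h1, ⟨1, h2.trans (pow_one p).symm⟩,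
      ne_one_of_orderOf_eq_prime h2, h3⟩
  · rintro ⟨x, y, ⟨k, hk⟩, ⟨l, hl⟩, h1, h2⟩
    exact involves_dihedral_of_inverts hp (pow_eq_one_of_orderOf hk) (pow_eq_one_of_orderOf hl) h1 h2

end Cfsg.Agent.S2758
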