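import Cfsg.Statements.S2760
import Cfsg.Agent.OD.Pre
import Cfsg.Agent.H8.Amalgam3
import Cfsg.Agent.H7.CharP

set_option autoImplicit false
open Cfsg

namespace Cfsg.Agent.S2760

/-- Let G be a finite group with C_G(O₂(G)) ≤ O₂(G) and H a subgroup of G such that H is normal in G, or the subgroup O²(H) generated by the elements of H of odd order is normal in G. Then C_H(O₂(H)) ≤ O₂(H). -/
theorem result {G : Type*} [Group G] [Finite G] (hchar : Subgroup.centralizer (Cfsg.pCore 2 G : Set G) ≤ Cfsg.pCore 2 G) (H : Subgroup G) (hH : H.Normal ∨ ((Cfsg.pResidual 2 ↥H).map H.subtype).Normal) : Subgroup.centralizer (Cfsg.pCore 2 ↥H : Set ↥H) ≤ Cfsg.pCore 2 ↥H := by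
  open Subgroup MulAction CfH9 CfH8 commutatorElement in
  have hR : (Cfsg.pResidualOf 2 H).Normal := by
    rcases hH with h | h
    · infer_instance
    · exact h
  haveI : Fact (Nat.Prime 2) := ⟨Nat.prime_two⟩
  apply CfH7.chP_of_isPGroup_inf_Cz
  apply CfH7.isPGroup_of_forall_coprime
  intro x hx ho
  have hxR : x ∈ Cfsg.pResidualOf 2 H := CfH7.mem_pResidualOf hx.1 ho
  have h1 : x ∈ Subgroup.centralizer (Cfsg.pCore 2 G : Set G) := by
    refine CfH7.mem_Cz_of_coprime (M := Cfsg.pCoreOf 2 H) (CfH7.isPGroup_pCore 2 G)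
      (mem_Nm_of_normal _ _) ho ?_ hx.2
    have h2 : ⁅Cfsg.pCore 2 G, zpowers x⁆ ≤ Cfsg.pCore 2 G ⊓ Cfsg.pResidualOf 2 H :=
      le_trans (Subgroup.commutator_mono le_rfl (zpowers_le.2 hxR)) (commutator_le_inf _ _)
    refine le_trans h2 (le_trans ?_ (CfH7.inf_pCore_le_pCoreOf H))
    exact le_inf (le_trans inf_le_right (CfH7.pResidualOf_le H)) inf_le_left
  exact CfH7.eq_one_of_mem_of_coprime (CfH7.isPGroup_pCore 2 G) (hchar h1) ho

end Cfsg.Agent.S2760
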