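import Cfsg.Statements.S2761
import Cfsg.Agent.OD.Pre
import Cfsg.Agent.H8.QdO

set_option autoImplicit false
open Cfsg

namespace Cfsg.Agent.S2761

/-- The group Qd(2), the natural semidirect product of an elementary abelian group of order 4 by SL₂(2) (realised as the affine subgroup of SL₃(2)), is isomorphic to the symmetric group of degree 4. -/
theorem result : Nonempty (↥(Cfsg.qd 2) ≃* Equiv.Perm (Fin 4)) := by
  open Subgroup MulAction CfH9 CfH8 commutatorElement in
  exact qd2_equiv_S4 (qdEquiv 2)

end Cfsg.Agent.S2761
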