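import Cfsg.Statements.S2762
import Cfsg.Agent.OD.Pre
import Cfsg.Agent.H8.QdO

set_option autoImplicit false
open Cfsg

namespace Cfsg.Agent.S2762

/-- Structure of Qd over a finite field F of characteristic p (the affine subgroup of SL₃(F)): its largest normal p-subgroup is the group of translations (matrices with upper-left block the identity), the block-diagonal matrices form a complement isomorphic to SL₂(F), and the translation subgroup is a natural SL₂(F)-module for that complement. -/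
theorem result {F : Type*} [Field F] [Fintype F] {p : ℕ} [Fact p.Prime] [CharP F p] : (∀ M : ↥(Cfsg.qdOver F), M ∈ Cfsg.pCore p ↥(Cfsg.qdOver F) ↔ ((M : Matrix.SpecialLinearGroup (Fin 3) F) : Matrix (Fin 3) (Fin 3) F) 0 0 = 1 ∧ ((M : Matrix.SpecialLinearGroup (Fin 3) F) : Matrix (Fin 3) (Fin 3) F) 0 1 = 0 ∧ ((M : Matrix.SpecialLinearGroup (Fin 3) F) : Matrix (Fin 3) (Fin 3) F) 1 0 = 0 ∧ ((M : Matrix.SpecialLinearGroup (Fin 3) F) : Matrix (Fin 3) (Fin 3) F) 1 1 = 1) ∧ ∃ K : Subgroup ↥(Cfsg.qdOver F), (∀ M : ↥(Cfsg.qdOver F), M ∈ K ↔ ((M : Matrix.SpecialLinearGroup (Fin 3) F) : Matrix (Fin 3) (Fin 3) F) 0 2 = 0 ∧ ((M : Matrix.SpecialLinearGroup (Fin 3) F) : Matrix (Fin 3) (Fin 3) F) 1 2 = 0) ∧ K ⊓ Cfsg.pCore p ↥(Cfsg.qdOver F) = ⊥ ∧ K ⊔ Cfsg.pCore p ↥(Cfsg.qdOver F) = ⊤ ∧ Nonempty (↥K ≃* Matrix.SpecialLinearGroup (Fin 2) F) ∧ Cfsg.IsNaturalSL2Module F (Cfsg.pCore p ↥(Cfsg.qdOver F)) K := by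
  open Subgroup MulAction CfH9 CfH8 commutatorElement in
  let e := qdOverEquiv F
  let i : Matrix.SpecialLinearGroup (Fin 2) F →* Cfsg.qdOver F :=
    (e : QdS F →* _).comp SemidirectProduct.inr
  have hi : ∀ s, qdPi e (i s) = s := fun s => qdPi_apply e _
  have hinj : Function.Injective i := Function.LeftInverse.injective hi
  rw [qd_pCore e p]
  refine ⟨fun M => ?_, i.range, fun M => ?_, eq_bot_iff.2 ?_, eq_top_iff.2 fun M _ => ?_,
    ⟨(MonoidHom.ofInjective hinj).symm⟩,
    (qdNat e i.range fun s => ⟨i s, ⟨s, rfl⟩, hi s⟩).isNatural⟩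
  · obtain ⟨y, rfl⟩ := e.surjective M
    rw [MonoidHom.mem_ker, qdPi_apply, qdOverEquiv_val]
    constructor
    · intro h
      simp [h]
    · rintro ⟨h1, h2, h3, h4⟩
      ext i j
      fin_cases i <;> fin_cases j
      · simpa using h1
      · simpa using h2
      · simpa using h3
      · simpa using h4
  · obtain ⟨y, rfl⟩ := e.surjective M
    rw [qdOverEquiv_val]
    constructor
    · rintro ⟨s, h⟩
      rw [← e.injective h]
      simp
    · rintro ⟨h1, h2⟩
      refine ⟨y.right, congrArg e ?_⟩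
      ext1
      · ext i
        fin_cases i
        · simpa using h1.symm
        · simpa using h2.symm
      · rfl
  · rintro _ ⟨⟨s, rfl⟩, h⟩
    have : s = 1 := (hi s).symm.trans h
    rw [this, map_one]
    exact one_mem _
  · have : M = i (qdPi e M) * ((i (qdPi e M))⁻¹ * M) := by group
    rw [this]
    refine mul_mem (mem_sup_left ⟨_, rfl⟩) (mem_sup_right ?_)
    rw [MonoidHom.mem_ker, map_mul, map_inv, hi, inv_mul_cancel]

end Cfsg.Agent.S2762
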