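import Cfsg.Statements.S2765
import Cfsg.Agent.OD.Pre
import Cfsg.Agent.L.PU12


set_option autoImplicit false
open Cfsg

namespace Cfsg.Agent.S2765


/-- In the same pushing-up situation (G finite, C_G(O_p(G)) ≤ O_p(G), G/K ≅ PSL₂(p^n) with n ≥ 1, a Sylow p-subgroup S in exactly one maximal subgroup, no nontrivial characteristic subgroup of S normal in G), one of the following holds: (I) S has nilpotency class 2, exponent 4 if p = 2 and exponent p otherwise, and G has exactly one noncentral chief factor inside O_p(G); or (II) p = 3, S has class 3 and exponent 9, and G has exactly two noncentral chief factors inside O_p(G). 'Exactly one' is phrased as: some noncentral chief factor U/W inside O_p(G) with G acting hypercentrally on W and on O_p(G)/U; 'exactly two' analogously with a chain. -/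
theorem result {G : Type*} [Group G] [Finite G] {p : ℕ} [Fact p.Prime] (S : Sylow p G) (hE₁ : Subgroup.centralizer (Cfsg.pCore p G : Set G) ≤ Cfsg.pCore p G) (hE₂ : ∃! M : Subgroup G, IsCoatom M ∧ (S : Subgroup G) ≤ M) (K : Subgroup G) [K.Normal] (F : Type) [Field F] [Fintype F] (n : ℕ) (hn : 1 ≤ n) (hF : Fintype.card F = p ^ n) (hE₃ : Nonempty (G ⧸ K ≃* Matrix.ProjectiveSpecialLinearGroup (Fin 2) F)) (hd : ∀ T : Subgroup ↥(S : Subgroup G), T ≠ ⊥ → T.Characteristic → ¬ (T.map (S : Subgroup G).subtype).Normal) : ((S : Subgroup G).lowerCentralSeries 2 = ⊥ ∧ (S : Subgroup G).lowerCentralSeries 1 ≠ ⊥ ∧ (p = 2 → Monoid.exponent ↥(S : Subgroup G) = 4) ∧ (p ≠ 2 → Monoid.exponent ↥(S : Subgroup G) = p) ∧ (∃ U W : Subgroup G, W ≤ U ∧ U ≤ (Cfsg.pCore p G) ∧ Cfsg.IsChiefFactor U W ∧ ¬ ⁅U, (⊤ : Subgroup G)⁆ ≤ W ∧ (∃ k : ℕ, Cfsg.iterCommutator W ⊤ k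 = ⊥) ∧ (∃ k : ℕ, Cfsg.iterCommutator (Cfsg.pCore p G) ⊤ k ≤ U))) ∨ (p = 3 ∧ (S : Subgroup G).lowerCentralSeries 3 = ⊥ ∧ (S : Subgroup G).lowerCentralSeries 2 ≠ ⊥ ∧ Monoid.exponent ↥(S : Subgroup G) = 9 ∧ (∃ U₁ W₁ U₂ W₂ : Subgroup G, W₁ ≤ U₁ ∧ U₁ ≤ W₂ ∧ W₂ ≤ U₂ ∧ U₂ ≤ (Cfsg.pCore p G) ∧ Cfsg.IsChiefFactor U₁ W₁ ∧ Cfsg.IsChiefFactor U₂ W₂ ∧ ¬ ⁅U₁, (⊤ : Subgroup G)⁆ ≤ W₁ ∧ ¬ ⁅U₂, (⊤ : Subgroup G)⁆ ≤ W₂ ∧ (∃ k : ℕ, Cfsg.iterCommutator W₁ ⊤ k = ⊥) ∧ (∃ k : ℕ, Cfsg.iterCommutator W₂ ⊤ k ≤ U₁) ∧ (∃ k : ℕ, Cfsg.iterCommutator (Cfsg.pCore p G) ⊤ k ≤ U₂))) := by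
  obtain ⟨M, h⟩ := CfLp.exists_pu hF (CfH9.sylIn_top S) hE₁ hE₂ K hE₃
  have hd' : CfLp.NoChar ⊤ (S : Subgroup G) := fun X a b c =>
    hd X a b (CfH9.normal_iff_top_le_Nm.2 c)
  obtain ⟨c, hg⟩ := h.good hd'
  have z1 : ∃ k : ℕ, Cfsg.iterCommutator
      ((⊤ : Subgroup G) ⊓ Subgroup.centralizer ((⊤ : Subgroup G) : Set G)) ⊤ k = ⊥ :=
    ⟨1, CfH7.comm_eq_bot_left.2 inf_le_right⟩
  rcases hg with hI | ⟨A, h2⟩
  · exact Or.inl ⟨c.I_class hd' hI, h.comm_ne, (c.I_exp hd' hI).1, (c.I_exp hd' hI).2, _, _,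
      h.Zg_le_Z, inf_le_left, c.chiefZ.1, c.chiefZ.2, z1,
      CfLp.exists_iter h.nZ _ h.pT le_top h.nT hI⟩
  · obtain ⟨d, e1, -, e3⟩ := c.exists_pd h2.hA h2.hT
    rw [← e1, ← e3] at h2
    rw [← e1] at hd' ⊢
    obtain ⟨k1, k2, k3⟩ := d.II_class h2 hd'
    exact Or.inr ⟨d.II_three h2, k1, k2, k3, _, _, _, _, h.Zg_le_Z, le_sup_left,
      (d.chiefL h2).1.1.le, h.LWT, c.chiefZ.1, (d.chiefL h2).1, c.chiefZ.2, (d.chiefL h2).2, z1,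
      CfLp.exists_iter h.nZ _ (h.pT.to_le (sup_le inf_le_left inf_le_left)) le_top h.nZW h.ZW_O,
      CfLp.exists_iter h.nLW _ h.pT le_top h.nT le_sup_left⟩

end Cfsg.Agent.S2765
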