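import Cfsg.Statements.S2766
import Cfsg.Agent.OD.Pre
import Cfsg.Agent.L.PU14


set_option autoImplicit false
open Cfsg

namespace Cfsg.Agent.S2766


/-- Let p ≥ 5 be prime and G a maximal p-local subgroup of a finite group H (G is the normalizer of a nontrivial p-subgroup and lies in no other such normalizer). Suppose C_G(O_p(G)) ≤ O_p(G), G/K ≅ PSL₂(p^n) for some normal K and n ≥ 1, a Sylow p-subgroup S of G lies in exactly one maximal subgroup of G, and N_H(S) is not contained in G. Then G = G₀ × E for subgroups G₀ ≅ Qd(p^n) (the natural semidirect product of the plane over the field with p^n elements by SL₂) and E an elementary abelian p-group. -/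
theorem result {H : Type*} [Group H] [Finite H] {p : ℕ} [Fact p.Prime] (hp : 5 ≤ p) (G : Subgroup H) (hloc : ∃ R : Subgroup H, IsPGroup p ↥R ∧ R ≠ ⊥ ∧ G = Subgroup.normalizer (R : Set H)) (hmax : ∀ R : Subgroup H, IsPGroup p ↥R → R ≠ ⊥ → G ≤ Subgroup.normalizer (R : Set H) → Subgroup.normalizer (R : Set H) = G) (S : Sylow p ↥G) (hE₁ : Subgroup.centralizer (Cfsg.pCore p ↥G : Set ↥G) ≤ Cfsg.pCore p ↥G) (hE₂ : ∃! M : Subgroup ↥G, IsCoatom M ∧ (S : Subgroup ↥G) ≤ M) (K : Subgroup ↥G) [K.Normal] (F : Type) [Field F] [Fintype F] (n : ℕ) (hn : 1 ≤ n) (hF : Fintype.card F = p ^ n) (hE₃ : Nonempty (↥G ⧸ K ≃* Matrix.ProjectiveSpecialLinearGroup (Fin 2) F)) (hN : ¬ Subgroup.normalizer (((S : Subgroup ↥G).map G.subtype : Subgroup H) : Set H) ≤ G) : ∃ G₀ E : Subgroup H, Cfsg.IsInternalDirectProduct G₀ E G ∧ Cfsg.IsElementaryAbelian p E ∧ Nonempty (↥G₀ ≃* ↥(Cfsg.qdOver F)) := by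
  obtain ⟨M, h⟩ := CfLp.exists_pu hF (CfH9.sylIn_top S) hE₁ hE₂ K hE₃
  have h := h.map G.subtype_injective
  rw [CfH9.map_subtype_top] at h
  have hd : CfLp.NoChar G ((S : Subgroup ↥G).map G.subtype) := fun X a b c => hN
    ((CfH9.Nm_le_Nm_char X).trans (hmax _ (h.pS.to_le (Subgroup.map_subtype_le _))
      (fun e => a ((Subgroup.map_eq_bot_iff_of_injective _ (Subgroup.subtype_injective _)).1 e))
      c).le)
  obtain ⟨c, hg⟩ := h.good hd
  obtain ⟨D⟩ := c.secD hg hF
  rcases hg with hI | ⟨A, h2⟩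
  · have h2 : p ≠ 2 := by omega
    have := CfH8.charP_of_card hF
    refine c.exists_qd h2 ?_ (c.T_comm hI hmax hN) (fun x hx => ?_) D
    · intro e
      have := (CharP.cast_eq_zero_iff F p 2).1 (by exact_mod_cast e)
      have := Nat.le_of_dvd two_pos this
      omega
    · have := h.pow_eq_one hd (n := 1)
        (fun x hx => by rw [pow_one]; exact (c.I_main hI).2.2.2 h2 x hx) ⟨x, hx⟩
      rw [pow_one] at this
      exact congrArg Subtype.val this
  · obtain ⟨d, e1, -, e3⟩ := c.exists_pd h2.hA h2.hT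
    rw [← e1, ← e3] at h2
    have := d.II_three h2
    omega

end Cfsg.Agent.S2766
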