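import Cfsg.Statements.S2772
import Cfsg.Agent.OD.Pre
import Cfsg.Agent.H8.Amalgam5

set_option autoImplicit false
open Cfsg

namespace Cfsg.Agent.S2772

/-- Sims' Theorem in local form: let H be a finite non-abelian simple group and G a maximal subgroup of H with C_G(O₂(G)) ≤ O₂(G), such that N_H(S) is not contained in G for a Sylow 2-subgroup S of G and G/O₂(G) is dihedral of order 2q for a prime q. Then G is isomorphic to the symmetric group of degree 4 or to its direct product with a group of order 2. -/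
theorem result {H : Type*} [Group H] [Finite H] [IsSimpleGroup H] (hna : ¬ IsMulCommutative H) (G : Subgroup H) (hG : IsCoatom G) (hchar : Subgroup.centralizer (Cfsg.pCore 2 ↥G : Set ↥G) ≤ Cfsg.pCore 2 ↥G) (S : Sylow 2 ↥G) (hN : ¬ Subgroup.normalizer (((S : Subgroup ↥G).map G.subtype : Subgroup H) : Set H) ≤ G) (q : ℕ) (hq : q.Prime) (hD : Nonempty (↥G ⧸ Cfsg.pCore 2 ↥G ≃* DihedralGroup q)) : Nonempty (↥G ≃* Equiv.Perm (Fin 4)) ∨ Nonempty (↥G ≃* Equiv.Perm (Fin 4) × Multiplicative (ZMod 2)) := by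
  open Subgroup MulAction CfH9 CfH8 commutatorElement in
  set T := (S : Subgroup G).map G.subtype with hTdef
  have hT : SylIn 2 T G := sylIn_of_sylow S
  obtain ⟨x, hx, hxG⟩ := SetLike.not_le_iff_exists.1 hN
  obtain ⟨f⟩ := hD
  have hs : AmSide q G T := by
    refine ⟨inferInstance, CfH7.charP_iff_ambient.1 hchar, hT, ?_⟩
    rw [relIndex, CfH7.subgroupOf_pCoreOf, index, Nat.card_congr f.toEquiv, DihedralGroup.nat_card]
  have hs' := hs.cj x
  rw [cj_eq_of_mem_normalizer hx] at hs'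
  have hT1 : T ≠ ⊥ := fun e => by
    have := (hs.relIndex_eq hq).1
    rw [e, relIndex_bot_right] at this
    omega
  have hsimple : ∀ N : Subgroup H, N ≤ G → G ≤ Nm(N) → ¬ Nm(N) ≤ G → N = ⊥ := by
    intro N hN h1 h2
    have h3 : Nm(N) = ⊤ := hG.2 _ (lt_of_le_of_ne h1 fun e => h2 e.ge)
    rcases (normalizer_eq_top_iff.1 h3).eq_bot_or_eq_top with e | e
    · exact e
    · exact absurd (top_le_iff.1 (e ▸ hN)) hG.1
  have hne : ¬ cj x G ≤ G := fun e =>
    hT1 (le_bot_iff.1 (hT.le.trans (hsimple G le_rfl le_normalizer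
      fun e' => hxG (e' (mem_normalizer_of_cj_le e))).le))
  have hI : G ⊓ cj x G = T := by
    refine (eq_or_eq_of_relIndex_prime' hq (hs'.relIndex_eq hq).2 (le_inf hT.le hs'.syl.le)
      inf_le_right).resolve_right fun e => hne (e.ge.trans inf_le_left)
  have hnc : ¬ G ≤ Cz(CfH7.OZ 2 T) := fun e =>
    CfH7.OZ_ne_bot hT.pgrp hT1 (hsimple _ ((CfH7.OZ_le T).trans hT.le) (e.trans (Cz_le_Nm _))
      fun e' => hxG (e' (CfH7.Nm_le_Nm_OZ T hx)))
  have := amalgam_S4 hq (P₁ := G) (P₂ := cj x G)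
    (fun N hN h1 h2 => hsimple N (hN.trans inf_le_left) h1 fun e => hne (h2.trans e))
    (hI ▸ hs) (hI ▸ hs') (hI ▸ hnc) (by
      rw [hI, ← cj_eq_of_mem_normalizer hx, ← CfH7.cj_OZ, ← cj_centralizer, cj_le_cj_iff]
      exact hnc)
  rcases this.2.2 with ⟨-, -, h, -⟩ | ⟨-, -, ⟨g⟩, -⟩
  · exact Or.inl h
  · exact Or.inr ⟨g.trans MulEquiv.prodComm⟩

end Cfsg.Agent.S2772
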