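import Cfsg.Statements.S2773
import Cfsg.Agent.OD.Pre
import Cfsg.Agent.H9.Focal

set_option autoImplicit false
universe u
open Cfsg

namespace Cfsg.Agent.S2773
open Subgroup CfH9 CfH7
open scoped commutatorElement


/-- For every nontrivial finite 3-group S there is a nontrivial characteristic subgroup K of S such that, in every finite group G containing S as a Sylow 3-subgroup, S ∩ G' is the product of S ∩ (C_G(Z(S)))' and S ∩ (N_G(K))' (derived subgroups; product taken elementwise). -/
theorem result {S : Type u} [Group S] [Finite S] [Nontrivial S] (hS : IsPGroup 3 S) : ∃ K : Subgroup S, K ≠ ⊥ ∧ K.Characteristic ∧ ∀ (G : Type u) [Group G] [Finite G] (τ : S →* G), Function.Injective τ → (∃ P : Sylow 3 G, (P : Subgroup G) = τ.range) → ∀ g : G, g ∈ τ.range ⊓ commutator G ↔ ∃ a ∈ τ.range ⊓ ⁅Subgroup.centralizer ((τ.range ⊓ Subgroup.centralizer (τ.range : Set G) : Subgroup G) : Set G), Subgroup.centralizer ((τ.range ⊓ Subgroup.centralizer (τ.range : Set G) : Subgroup G) : Set G)⁆,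 ∃ b ∈ τ.range ⊓ ⁅Subgroup.normalizer ((K.map τ : Subgroup G) : Set G), Subgroup.normalizer ((K.map τ : Subgroup G) : Set G)⁆, g = a * b := by
  haveI : Fact (Nat.Prime 3) := ⟨Nat.prime_three⟩
  obtain ⟨K, h1, h2, h3⟩ := exists_GK₀ hS
  refine ⟨K, h1, h2, fun G _ _ τ hτ ⟨P, hP⟩ g => ⟨fun hg => ?_, ?_⟩⟩
  · have hK := τ.range_eq_map ▸ h3 G τ hτ
    obtain ⟨a, ha, b, hb, e⟩ := (mem_sup_of_le_Nm (inf_le_left.trans (le_normalizer_inf le_normalizer
      ((le_normalizer.trans hK.nm').trans (le_normalizer_commutator le_normalizer le_normalizer))))).1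
      (focal_aux (by decide) G _ _ (hP ▸ sylIn_top P) hK hg)
    exact ⟨a, ha, b, hb, e.symm⟩
  · rintro ⟨a, ha, b, hb, rfl⟩
    exact mul_mem (mi ha.1 (commutator_mono le_top le_top ha.2))
      (mi hb.1 (commutator_mono le_top le_top hb.2))

end Cfsg.Agent.S2773
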