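import Cfsg.Statements.S2774
import Cfsg.Agent.OD.Pre
import Cfsg.Agent.H9.Focal

set_option autoImplicit false
open Cfsg

namespace Cfsg.Agent.S2774
open Subgroup CfH9 CfH7
open scoped commutatorElement


/-- Let p be an odd prime and S a nontrivial Sylow p-subgroup of a finite group G. Then S ∩ G' is generated by the subgroups S ∩ (N_G(K))' as K ranges over the nontrivial characteristic subgroups of S (derived subgroups of the normalizers). -/
theorem result {G : Type*} [Group G] [Finite G] {p : ℕ} [Fact p.Prime] (hp : p ≠ 2) (S : Sylow p G) (hS : (S : Subgroup G) ≠ ⊥) : (S : Subgroup G) ⊓ commutator G = ⨆ K : {K : Subgroup ↥(S : Subgroup G) // K ≠ ⊥ ∧ K.Characteristic}, (S : Subgroup G) ⊓ ⁅Subgroup.normalizer ((((K : Subgroup ↥(S : Subgroup G))).map (S : Subgroup G).subtype : Subgroup G) : Set G), Subgroup.normalizer ((((K : Subgroup ↥(S : Subgroup G))).map (S : Subgroup G).subtype : Subgroup G) : Set G)⁆ := by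
  haveI := (nontrivial_iff_ne_bot _).2 hS
  obtain ⟨K, h1, h2, h3⟩ := exists_GK₀ S.isPGroup'
  have hK := map_subtype_top (S : Subgroup G) ▸ h3 G _ (S : Subgroup G).subtype_injective
  refine le_antisymm ((focal_aux hp G _ _ (sylIn_top S) hK).trans (sup_le ?_
    (le_iSup_of_le ⟨K, h1, h2⟩ le_rfl))) (iSup_le fun K => inf_le_inf_left _ (commutator_mono le_top le_top))
  refine le_iSup_of_le ⟨center _, CfLp.center_ne_bot' S.isPGroup', inferInstance⟩ (inf_le_inf_left _ ?_)
  dsimp only
  rw [← CfLp.Zc_top, CfLp.map_Zc (subtype_injective _), map_subtype_top]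
  exact commutator_mono (Cz_le_Nm _) (Cz_le_Nm _)

end Cfsg.Agent.S2774
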