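import Cfsg.Statements.S2781
import Cfsg.Agent.OD.Pre
import Cfsg.Agent.H8.Amalgam3
import Cfsg.Agent.H8.Gaschuetz
import Cfsg.Agent.H7.CharP

set_option autoImplicit false
open Cfsg

namespace Cfsg.Agent.S2781

/-- Let H act faithfully by conjugation on the elementary abelian p-subgroup V of a finite group, let O^p(H) be the subgroup of H generated by its elements of order prime to p, and T a Sylow p-subgroup of O^p(H). If V is generated by the H-conjugates of C_V(T) (V is the smallest H-invariant subgroup containing C_V(T)), then V = [V, O^p(H)]·C_V(O^p(H)). -/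
theorem result {G : Type*} [Group G] [Finite G] {p : ℕ} [Fact p.Prime] (V H : Subgroup G) (hV : Cfsg.IsElementaryAbelian p V) (hHV : H ≤ Subgroup.normalizer (V : Set G)) (hf : H ⊓ Subgroup.centralizer (V : Set G) = ⊥) (R : Subgroup G) (hR : R = (Cfsg.pResidual p ↥H).map H.subtype) (S : Sylow p ↥R) (T : Subgroup G) (hT : T = ((S : Subgroup ↥R).map R.subtype)) (hgen : ∀ W : Subgroup G, H ≤ Subgroup.normalizer (W : Set G) → (V ⊓ Subgroup.centralizer ((T : Subgroup G) : Set G)) ≤ W → V ≤ W) : ⁅V, R⁆ ⊔ (V ⊓ Subgroup.centralizer ((R : Subgroup G) : Set G)) = V := by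
  open Subgroup MulAction CfH9 CfH8 commutatorElement in
  have hR' : R = Cfsg.pResidualOf p H := hR
  have hS : SylIn p T R := hT ▸ sylIn_of_sylow S
  have hHR : H ≤ Subgroup.normalizer (R : Set G) := hR' ▸ CfH7.le_normalizer_pResidualOf H
  have hRH : R ≤ H := hR' ▸ CfH7.pResidualOf_le H
  have hRV : R ≤ Subgroup.normalizer (V : Set G) := le_trans hRH hHV
  apply le_antisymm
  · exact sup_le (commutator_le_left_of_le_normalizer hRV) inf_le_left
  · apply hgen
    · exact le_normalizer_sup (le_normalizer_commutator hHV hHR)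
        (le_normalizer_inf hHV (le_normalizer_centralizer hHR))
    · refine inf_centralizer_le_commutator_sup hV.1 hRV ?_
      obtain ⟨k, hk⟩ := (IsPGroup.iff_card.1 (CfH7.elemAb_isPGroup hV))
      rw [hk]
      exact Nat.Coprime.pow_right _
        ((Nat.Prime.coprime_iff_not_dvd Fact.out).2 hS.not_dvd_relIndex).symm

end Cfsg.Agent.S2781
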