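import Cfsg.Statements.S2787
import Cfsg.Agent.OD.Pre
import Cfsg.Agent.H9.NoQuad

set_option autoImplicit false
open Cfsg

namespace Cfsg.Agent.S2787
open Subgroup CfH9 CfH7
open scoped commutatorElement


/-- Let p be a prime and let H act by conjugation on the elementary abelian p-subgroup V of a finite group, irreducibly (no H-invariant subgroups of V other than 1 and V) and nontrivially, and suppose H/C_H(V) is isomorphic to PSL₂(F) for a field F with p^n elements, p^n odd, or p = 3 and H/C_H(V) is isomorphic to a Ree group ²G₂(3^(2m+1)), m ≥ 1. Then no subgroup A of H acting nontrivially on V acts quadratically: [V, A, A] = 1 forces [V, A] = 1. -/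
theorem result {G : Type*} [Group G] [Finite G] {p : ℕ} [Fact p.Prime] (V H : Subgroup G) (hV : Cfsg.IsElementaryAbelian p V) (hHV : H ≤ Subgroup.normalizer (V : Set G)) (hirr : ∀ U : Subgroup G, U ≤ V → H ≤ Subgroup.normalizer (U : Set G) → U = ⊥ ∨ U = V) (hnt : ¬ H ≤ Subgroup.centralizer (V : Set G)) [hn : ((Subgroup.centralizer (V : Set G)).subgroupOf H).Normal] (hq : (∃ (F : Type) (_ : Field F) (_ : Fintype F) (n : ℕ), Fintype.card F = p ^ n ∧ Odd (Fintype.card F) ∧ Nonempty (↥H ⧸ (Subgroup.centralizer (V : Set G)).subgroupOf H ≃* Matrix.ProjectiveSpecialLinearGroup (Fin 2) F)) ∨ (p = 3 ∧ Cfsg.Lie.IsoRee (↥H ⧸ (Subgroup.centralizer (V : Set G)).subgroupOf H))) (A : Subgroup G) (hA : A ≤ H) (hquad : ⁅⁅V, A⁆, A⁆ = ⊥) : ⁅V, A⁆ = ⊥ := by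
  have h : p ≠ 2 ∧ DD (↥H ⧸ (Subgroup.centralizer (V : Set G)).subgroupOf H) := by
    rcases hq with ⟨F, _, _, n, hF, ho, ⟨e⟩⟩ | ⟨rfl, h⟩
    · have h2 : ringChar F ≠ 2 := fun h =>
        (Nat.not_even_iff_odd.2 ho) (Nat.even_iff.2 (FiniteField.even_card_of_char_two h))
      refine ⟨?_, (dd_psl2 (Ring.two_ne_zero h2)).of_hom e.toMonoidHom
        fun x hx _ => e.injective (hx.trans (map_one e).symm)⟩
      rintro rfl
      rcases n with _ | n
      · exact absurd hF (Fintype.one_lt_card (α := F)).ne'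
      · rw [hF] at ho
        exact (Nat.not_even_iff_odd.2 ho) (Even.pow_of_ne_zero even_two (Nat.succ_ne_zero n))
    · exact ⟨by decide, dd_ree h⟩
  exact no_quad h.1 hV hHV hirr h.2 hA hquad

end Cfsg.Agent.S2787
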