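import Cfsg.Statements.S2788
import Cfsg.Agent.H1.ModSL
import Cfsg.Agent.H9.RankOne
import Cfsg.Agent.OD.Pre

set_option autoImplicit false
open Cfsg

namespace Cfsg.Agent.S2788

/-- Let H act faithfully by conjugation on the elementary abelian p-subgroup V of a finite group with H ≅ SL₂(F), F a field with p^n elements, S a Sylow p-subgroup of H, and A ≤ S a subgroup of order at least 3 acting quadratically on V ([V, A, A] = 1). Then |V/C_V(a)| ≥ p^n for every nonidentity a ∈ A. -/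
theorem result {G : Type*} [Group G] [Finite G] {p : ℕ} [Fact p.Prime] (V H : Subgroup G) (hV : Cfsg.IsElementaryAbelian p V) (hHV : H ≤ Subgroup.normalizer (V : Set G)) (hf : H ⊓ Subgroup.centralizer (V : Set G) = ⊥) {F : Type*} [Field F] [Fintype F] (n : ℕ) (hF : Fintype.card F = p ^ n) (hiso : Nonempty (↥H ≃* Matrix.SpecialLinearGroup (Fin 2) F)) (S : Sylow p ↥H) (T : Subgroup G) (hT : T = ((S : Subgroup ↥H).map H.subtype)) (A : Subgroup G) (hA : A ≤ T) (hA3 : 3 ≤ Nat.card A) (hquad : ⁅⁅V, A⁆, A⁆ = ⊥) : ∀ a ∈ A, a ≠ 1 → p ^ n ≤ ((V ⊓ Subgroup.centralizer ({a} : Set G))).relIndex V := by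
  subst hT
  intro a ha h1
  have hp : p.Prime := Fact.out
  have hTp : IsPGroup p ((S : Subgroup H).map H.subtype) := S.isPGroup'.map _
  have hTH : (S : Subgroup H).map H.subtype ≤ H := Subgroup.map_subtype_le _
  have hVp := CfH9.isPGroup_of_elemAb hV
  have haH := hTH (hA ha)
  by_cases hn : 2 ≤ n
  · obtain ⟨e⟩ := hiso
    obtain ⟨k, hk⟩ := CfH9.isPGroup_iff_mem.1 hTp a (hA ha)
    obtain ⟨N, hN, hd⟩ := CfH1.exists_prim_add hp hn
    have h' : (⟨a, haH⟩ : H) ^ p ^ k = 1 := Subtype.ext hk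
    obtain ⟨g, hg⟩ := CfH1.sl2_exists hF hN hd (s := e ⟨a, haH⟩) (k := k) (by rw [← map_pow, h', map_one])
      (by simpa using h1)
    have := (hN.le_sq hVp hHV hf e.toMonoidHom e.surjective _ hg).2
    rw [mul_comm, pow_mul] at this
    exact (Nat.pow_le_pow_iff_left two_ne_zero).1 this
  · obtain ⟨k, hk⟩ := IsPGroup.iff_card.1 hVp
    obtain ⟨j, -, hj⟩ := (Nat.dvd_prime_pow hp).1
      (hk ▸ Subgroup.relIndex_dvd_card (V ⊓ Subgroup.centralizer ({a} : Set G)) V)
    rw [hj]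
    refine Nat.pow_le_pow_right hp.pos ?_
    have : j ≠ 0 := by
      rintro rfl
      rw [pow_zero, Subgroup.relIndex_eq_one] at hj
      have h3 : a ∈ H ⊓ Subgroup.centralizer (V : Set G) :=
        ⟨haH, CfH9.le_Cx_iff.1 (hj.trans inf_le_right)⟩
      rw [hf] at h3
      exact h1 h3
    omega

end Cfsg.Agent.S2788
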