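import Cfsg.Statements.S2792
import Cfsg.Agent.OD.Pre
import Cfsg.Agent.H9.Yoshida

set_option autoImplicit false
open Cfsg

namespace Cfsg.Agent.S2792
open Subgroup CfH9 CfH7
open scoped commutatorElement


/-- Let S be a Sylow p-subgroup of the finite group G and W a subgroup of S weakly closed in S with respect to G. If S ∩ G' ≠ S ∩ (N_G(W))', then there are x ∈ S, z ∈ W and a maximal subgroup W₀ of W such that the iterated commutator [x, z; p−1] (with [x, z] = x⁻¹z⁻¹xz and [x, z; i+1] = [[x, z; i], z]) lies in W₀ but not in the Frattini subgroup of W₀; in particular [x, z; p−1] ≠ 1. -/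
theorem result {G : Type*} [Group G] [Finite G] {p : ℕ} [Fact p.Prime] (S : Sylow p G) (W : Subgroup G) (hW : Cfsg.IsWeaklyClosed W (S : Subgroup G)) (h : (S : Subgroup G) ⊓ commutator G ≠ (S : Subgroup G) ⊓ ⁅Subgroup.normalizer (W : Set G), Subgroup.normalizer (W : Set G)⁆) : ∃ x ∈ (S : Subgroup G), ∃ z ∈ W, ∃ W₀ : Subgroup ↥W, IsCoatom W₀ ∧ (fun y : G => y⁻¹ * z⁻¹ * y * z)^[p - 1] x ∈ W₀.map W.subtype ∧ (fun y : G => y⁻¹ * z⁻¹ * y * z)^[p - 1] x ∉ ((frattini ↥W₀).map W₀.subtype).map W.subtype := by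
  obtain ⟨T, U, z, y, ℓ, hWT, hTS, hUT, hU, hz, hzU, hy, hℓ, hsum⟩ := yoshida_key (sylIn_top S) hW h
  have hT := S.isPGroup'.to_le hTS
  have hN := CfH1.le_Nm_of_relIndex_prime hT hUT hU
  have hSN : (S : Subgroup G) ≤ Nm(W) := fun s hs =>
    mem_normalizer_iff_cj.2 (hW.2 s ((cj_mono s hW.1).trans (cj_eq_of_mem hs).le))
  obtain ⟨h1, h2⟩ := hℓ.iter_comm (hN (hWT hz)) hy (p - 1)
  have h3 := h2 0
  rw [fwdDiff_pred_eq_sum] at h3
  simp only [pow_zero, inv_one, one_mul, mul_one, zero_add] at h3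
  have h4 : (fun y : G => y⁻¹ * z⁻¹ * y * z)^[p - 1] y ∈ W := by
    obtain ⟨k, hk⟩ : ∃ k, p - 1 = k + 1 := ⟨p - 2, by have := (Fact.out : p.Prime).two_le; omega⟩
    rw [hk, Function.iterate_succ_apply']
    exact W.mul_mem (conj_mem_of_mem_normalizer'
      (hSN (hTS (hUT (hℓ.iter_comm (hN (hWT hz)) hy k).1))) (W.inv_mem hz)) hz
  have h5 : (U.subgroupOf W).map W.subtype = U ⊓ W := subgroupOf_map_subtype _ _
  refine ⟨y, hTS (hUT hy), z, hz, U.subgroupOf W, ?_, h5 ▸ mi h1 h4, fun h6 => ?_⟩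
  · refine ⟨fun e => hzU (subgroupOf_eq_top.1 e hz), fun V hV => ?_⟩
    have h6 : (U ⊓ W).relIndex W = p := by
      have h7 := card_sup_mul_card_inf ((hUT.trans hTS).trans hSN)
      rw [CfH1.sup_eq_of_relIndex_prime hUT hU hWT fun e => hzU (e hz),
        CfH1.card_eq_mul_of_relIndex hUT hU, mul_comm p, mul_assoc] at h7
      exact CfH1.relIndex_eq_of_card inf_le_right
        (Nat.eq_of_mul_eq_mul_left Nat.card_pos h7).symm
    have h7 := map_lt_map_iff_of_injective W.subtype_injective |>.2 hV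
    rw [h5] at h7
    rcases eq_or_eq_of_relIndex_prime h6 h7.le (map_subtype_le V) with e | e
    · exact absurd e h7.ne'
    · exact map_injective W.subtype_injective (e.trans (map_subtype_top W).symm)
  · rw [CfH1.map_Phi_of_injective _ W.subtype_injective, h5] at h6
    have h7 := hℓ.mono (inf_le_left : U ⊓ W ≤ U)
    have h8 := CfH1.Phi_le_of h7.commutator_le_ker (fun x hx => h7.mem_ker.2
      ⟨pow_mem hx p, by rw [h7.pow hx]; simp⟩) h6
    exact hsum (h3 ▸ h8.2)

end Cfsg.Agent.S2792
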