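import Cfsg.Statements.S2793
import Cfsg.Agent.OD.Pre
import Cfsg.Agent.H9.ZJFail

set_option autoImplicit false
open Cfsg

namespace Cfsg.Agent.S2793
open Subgroup CfH9 CfH7
open scoped commutatorElement

theorem relIndex_eq {G : Type*} [Group G] [Finite G] {p : ℕ} [hp : Fact p.Prime] {H : Subgroup G}
    {u n : G} (hu : orderOf u = p) (hn : n ∈ H) {c : ℕ} (e : n * u * n⁻¹ = u ^ c)
    (hc : ∀ x : ZMod p, x ≠ 0 → ∃ k : ℕ, (c : ZMod p) ^ k = x) :
    (H ⊓ Cz(zpowers u)).relIndex (H ⊓ Nm(zpowers u)) = p - 1 := by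
  classical
  have hn' : n ∈ Nm(zpowers u) := mem_normalizer_of_cj_le (by
    rw [cj_zpowers, e, zpowers_le]; exact pow_mem (mem_zpowers u) c)
  let ψ : (H ⊓ Nm(zpowers u) : Subgroup G) →* MulAut (zpowers u) :=
    (zpowers u).normalizerMonoidHom.comp (inclusion inf_le_right)
  have hψ : ∀ g x, (ψ g x : G) = g * x * (g : G)⁻¹ := fun _ _ => rfl
  have h1 : ψ.ker = (H ⊓ Cz(zpowers u)).subgroupOf _ := by
    ext g
    rw [MonoidHom.mem_ker, mem_subgroupOf]
    refine ⟨fun h => mi g.2.1 (mem_centralizer_of_conj_eq fun x hx => ?_), fun h => ?_⟩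
    · rw [← hψ g ⟨x, hx⟩, h]; rfl
    · ext x
      rw [hψ, conj_eq_of_mem_centralizer h.2 x.2]; rfl
  have hpow : ∀ k : ℕ, n ^ k * u * (n ^ k)⁻¹ = u ^ c ^ k := fun k => by
    induction k with
    | zero => simp
    | succ k ih =>
      rw [pow_succ', pow_succ' c, pow_mul, ← e, conj_pow, ← ih]
      group
  have h2 : ψ.range = ⊤ := by
    refine top_unique fun φ _ => ?_
    obtain ⟨j, hj⟩ := (mem_zpowers_iff_mem_range_orderOf.1 (φ ⟨u, mem_zpowers u⟩).2 |>
      Finset.mem_image.1)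
    obtain ⟨k, hk⟩ := hc j fun h0 => ne_one_of_orderOf_eq_prime hu (by
      have h3 : φ ⟨u, mem_zpowers u⟩ = 1 := Subtype.ext (by
        rw [← hj.2]
        exact orderOf_dvd_iff_pow_eq_one.1 (hu ▸ (ZMod.natCast_eq_zero_iff j p).1 h0))
      exact congrArg Subtype.val (φ.map_eq_one_iff.1 h3))
    refine ⟨⟨n ^ k, pow_mem (mi hn hn') k⟩, ?_⟩
    have h3 : ψ ⟨n ^ k, pow_mem (mi hn hn') k⟩ ⟨u, mem_zpowers u⟩ = φ ⟨u, mem_zpowers u⟩ := by
      refine Subtype.ext ((hψ _ _).trans ((hpow k).trans (Eq.trans ?_ hj.2)))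
      rw [pow_eq_pow_iff_modEq, hu, ← ZMod.natCast_eq_natCast_iff, Nat.cast_pow, hk]
    ext ⟨_, i, rfl⟩
    have : (⟨u ^ i, i, rfl⟩ : zpowers u) = ⟨u, mem_zpowers u⟩ ^ i := rfl
    simp only [this, map_zpow, h3]
  rw [relIndex, ← h1, index_ker, h2, card_top, IsCyclic.card_mulAut, Nat.card_zpowers, hu,
    Nat.totient_prime hp.out]

/-- Let p be an odd prime, S a Sylow p-subgroup of the finite group G, J(S) the subgroup generated by the abelian subgroups of S of largest order, and suppose Z(J(S)) does not control strong fusion in G. Put H = N_G(Z(J(S))). Then the group F(p) of upper triangular 3 × 3 matrices (a b c; 0 a⁻¹ d; 0 0 1) over the field with p elements is involved in H, and Z(J(S)) contains a subgroup C of order p with |N_H(C) : C_H(C)| = p − 1. -/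
theorem result {G : Type*} [Group G] [Finite G] {p : ℕ} [Fact p.Prime] (hp : p ≠ 2) (S : Sylow p G) (h : ¬ Cfsg.ControlsStrongFusion p (Cfsg.centerThompsonAOf (S : Subgroup G))) (H : Subgroup G) (hH : H = Subgroup.normalizer ((Cfsg.centerThompsonAOf (S : Subgroup G)) : Set G)) : Cfsg.Involves ↥(Cfsg.fOver (ZMod p)) ↥H ∧ ∃ C : Subgroup G, C ≤ (Cfsg.centerThompsonAOf (S : Subgroup G)) ∧ Nat.card C = p ∧ (H ⊓ Subgroup.centralizer (C : Set G)).relIndex (H ⊓ Subgroup.normalizer (C : Set G)) = p - 1 := by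
  subst hH
  rw [centerThompsonAOf_eq] at h ⊢
  obtain ⟨g, hg⟩ := IsCyclic.exists_monoid_generator (α := (ZMod p)ˣ)
  have hc : ∀ x : ZMod p, x ≠ 0 → ∃ k : ℕ, (((g : ZMod p).val : ℕ) : ZMod p) ^ k = x := fun x hx => by
    obtain ⟨k, hk⟩ := hg (Units.mk0 x hx)
    exact ⟨k, by rw [ZMod.natCast_zmod_val]; exact congrArg Units.val hk⟩
  have key := zj_fail hp (c := (g : ZMod p).val) (fun e => g.ne_zero (by
    rw [← ZMod.natCast_zmod_val (g : ZMod p)]; exact (ZMod.natCast_eq_zero_iff _ _).2 e)) G S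
    (sylIn_top S) fun hsc => h ⟨S, hsc.1, fun B hB =>
      ((hsc.ctrlFus_of_comm (sylIn_top S) (elemAb_ZJ _).1).mono inf_le_right).set B hB⟩
  obtain ⟨u, hu, ho, n, hn, e⟩ := key.eigen (sylIn_top S)
  obtain ⟨P, m, h1, h2, h3⟩ := key.2
  exact ⟨h3.involves hp hc h1 h2, zpowers u, zpowers_le.2 hu, by rw [Nat.card_zpowers, ho],
    relIndex_eq ho hn e hc⟩

end Cfsg.Agent.S2793
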