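import Cfsg.Statements.S2796
import Cfsg.Agent.H1.SC4
import Cfsg.Agent.OD.Pre

set_option autoImplicit false
universe u
open Cfsg

namespace Cfsg.Agent.S2796

/-- Let G be a finite group in which the symmetric group of degree 4 is not involved, such that for every section K/R of G with C(O₂(K/R)) ≤ O₂(K/R) every non-abelian composition factor of K/R is a Suzuki group Sz(2^(2n+1)) or PSL₂ over a field with 3^(2n+1) elements. Let S be a Sylow 2-subgroup, J_e(S) the subgroup generated by its elementary abelian subgroups of largest order, and A the normal closure of Ω₁(Z(S)) in N_G(J_e(S)). Then A is an elementary abelian subgroup of S, strongly closed in S with respect to G, and A controls strong fusion in G. -/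
theorem result {G : Type u} [Group G] [Finite G] (hfree : ¬ Cfsg.Involves (Equiv.Perm (Fin 4)) G) (hsec : ∀ (K R : Subgroup G) [hR : (R.subgroupOf K).Normal], Subgroup.centralizer (Cfsg.pCore 2 (K ⧸ R.subgroupOf K) : Set (K ⧸ R.subgroupOf K)) ≤ Cfsg.pCore 2 (K ⧸ R.subgroupOf K) → Cfsg.IsCompositionKGroupWith Cfsg.IsSuzukiOrPSL2OddPowerThree (K ⧸ R.subgroupOf K)) (S : Sylow 2 G) (N : Subgroup G) (hN : N = Subgroup.normalizer (Cfsg.thompsonSubgroupOf 2 (S : Subgroup G) : Set G)) (A : Subgroup G) (hA : A = (Subgroup.normalClosure (((Cfsg.omegaOne 2 ((S : Subgroup G) ⊓ Subgroup.centralizer ((S : Subgroup G) : Set G))).subgroupOf N : Subgroup ↥N) : Set ↥N)).map N.subtype) : A ≤ S ∧ Cfsg.IsElementaryAbelian 2 A ∧ Cfsg.IsStronglyClosed A (S : Subgroup G) ∧ Cfsg.ControlsStrongFusion 2 A := by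
  haveI : Fact (Nat.Prime 2) := ⟨Nat.prime_two⟩
  have hS := CfH9.sylIn_top S
  obtain ⟨h1, h2⟩ := CfH1.s4_free_sc hfree (CfH1.secCK_of hsec) hS
  rw [CfH7.map_normalClosure_subgroupOf (hN ▸ (CfH7.OZ_le _).trans (CfH8.le_Nm_J _)), hN] at hA
  rw [← hA] at h1 h2
  have h3 : A ≤ S := h1.trans ((CfH7.OZ_le _).trans (CfH1.JH_le _))
  refine ⟨h3, CfH7.elemAb_of_le h1 (CfH7.elemAb_OZ _), ⟨h3, fun x hx g hg => ?_⟩, S, h3, h2.set⟩
  obtain ⟨k, hk, e⟩ := h2.elem (h3 hx) (Subgroup.mem_top g) hg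
  exact e ▸ CfH9.conj_mem_of_mem_normalizer hk hx

end Cfsg.Agent.S2796
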