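import Cfsg.Statements.S2807
import Cfsg.Agent.OD.Pre
import Cfsg.Agent.H9.Yoshida
import Cfsg.Agent.OD.Helper9x66dd25992d

set_option autoImplicit false
open Cfsg

namespace Cfsg.Agent.S2807
open Subgroup CfH9 CfH7
open scoped commutatorElement

theorem wreath {S : Type*} [Group S] [Finite S] {p : ℕ} [hp : Fact p.Prime] (K : Subgroup S)
    (hT : IsPGroup p S) (h1 : K.index = p ^ 2)
    (h2 : p ^ (p + 1) * Nat.card K.normalCore ≤ Nat.card S) :
    ∃ (P : Sylow p (Equiv.Perm (Fin (p ^ 2))))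
      (f : S →* (P : Subgroup (Equiv.Perm (Fin (p ^ 2))))), Function.Surjective f := by
  have := Fintype.ofFinite (S ⧸ K)
  let e : (S ⧸ K) ≃ Fin (p ^ 2) :=
    Fintype.equivFinOfCardEq (by rw [← Nat.card_eq_fintype_card]; exact h1)
  obtain ⟨f, hker⟩ : ∃ f : S →* Equiv.Perm (Fin (p ^ 2)), f.ker = K.normalCore :=
    ⟨e.permCongrHom.toMonoidHom.comp (MulAction.toPermHom S (S ⧸ K)), by
      rw [normalCore_eq_ker]
      exact MonoidHom.ker_comp_of_injective _ _ e.permCongrHom.injective⟩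
  obtain ⟨P, hP⟩ := (hT.of_surjective _ f.rangeRestrict_surjective).exists_le_sylow
  have h3 : p ^ (p + 1) ≤ Nat.card f.range := by
    rw [← f.ker.card_mul_index, index_ker, hker, mul_comm] at h2
    exact Nat.le_of_mul_le_mul_left h2 Nat.card_pos
  have h4 : Nat.card P = p ^ (p + 1) := by
    rw [P.card_eq_multiplicity, Nat.card_perm, Nat.card_fin, Nat.factorization_def _ hp.out,
      pow_two, padicValNat_factorial_mul]
    have := padicValNat_factorial_mul (p := p) 1
    rw [mul_one] at this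
    rw [this]
    simp [add_comm]
  have h5 : f.range = P := eq_of_le_of_card_ge hP (h4 ▸ h3)
  refine ⟨P, f.codRestrict _ fun s => hP ⟨s, rfl⟩, fun q => ?_⟩
  obtain ⟨s, hs⟩ : (q : Equiv.Perm (Fin (p ^ 2))) ∈ f.range := by rw [h5]; exact q.2
  exact ⟨s, Subtype.ext hs⟩


theorem chain {G : Type*} [Group G] [Finite G] {p : ℕ} [Fact p.Prime] {T U : Subgroup G}
    (hT : IsPGroup p T) (hUT : U ≤ T) (hU : U.relIndex T = p) {z y : G} (hz : z ∈ T) (hy : y ∈ U)
    {ℓ : G → ZMod p} (hℓ : AddOn U ℓ)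
    (hsum : ∑ i ∈ Finset.range p, ℓ ((z ^ i)⁻¹ * y * z ^ i) ≠ 0) :
    ∃ L : Subgroup G, p ^ p * Nat.card L ≤ Nat.card U ∧
      ∀ w ∈ U, (∀ i : ℕ, ℓ ((z ^ i)⁻¹ * w * z ^ i) = 0) → w ∈ L := by
  have hp := (Fact.out : p.Prime)
  have hN := CfH1.le_Nm_of_relIndex_prime hT hUT hU
  have hc : ∀ w ∈ U, ∀ i : ℕ, (z ^ i)⁻¹ * w * z ^ i ∈ U := fun w hw i =>
    conj_mem_of_mem_normalizer' (Subgroup.pow_mem _ (hN hz) i) hw
  set a : G → ℕ → ZMod p := fun w i => ℓ ((z ^ i)⁻¹ * w * z ^ i) with ha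
  have hA : ∀ k : ℕ, AddOn U fun w => (fwdDiff 1)^[k] (a w) := fun k v hv w hw => by
    rw [← fwdDiff_iter_add]
    refine congrArg _ (funext fun i => ?_)
    simp only [ha, Pi.add_apply]
    rw [← hℓ _ (hc v hv i) _ (hc w hw i)]
    congr 1; group
  have hzero : (fwdDiff 1)^[p] (a y) = 0 := by
    funext i
    have h1 : (fwdDiff 1)^[p] (a y) = fwdDiff 1 ((fwdDiff 1)^[p - 1] (a y)) := by
      rw [← Function.iterate_succ_apply' (fwdDiff 1), Nat.succ_eq_add_one, Nat.sub_add_cancel hp.pos]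
    have h2 : a y (i + p) = a y i := by
      have := hℓ.conj (U.inv_mem (CfH1.Phi_le_of_relIndex_prime hU (CfH1.pow_mem_Phi hT hz)))
        (hc y hy i)
      simp only [ha]
      rw [← this, pow_add]
      congr 1; group
    have h3 := Finset.sum_range_succ (fun j => a y (i + j)) p
    rw [Finset.sum_range_succ', h2, add_zero, add_left_inj] at h3
    rw [h1, fwdDiff, fwdDiff_pred_eq_sum, fwdDiff_pred_eq_sum, ← h3, Pi.zero_apply, sub_eq_zero]
    exact Finset.sum_congr rfl fun j _ => by rw [add_right_comm, add_assoc]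
  have hchain : ∀ k ≤ p, p ^ k * Nat.card (hA 0).ker ≤ Nat.card (hA k).ker := by
    intro k hk
    induction k with
    | zero => simp
    | succ k ih =>
      refine le_trans ?_ (CfH1.mul_card_le_of_lt (Q := (hA k).ker)
        (hT.to_le ((hA _).ker_le.trans hUT)) ?_)
      · rw [pow_succ', mul_assoc]
        exact Nat.mul_le_mul_left _ (ih (by omega))
      obtain ⟨h1, h2⟩ := hℓ.iter_comm (hN hz) hy (p - 1 - k)
      have h3 : a _ = (fwdDiff 1)^[p - 1 - k] (a y) := funext h2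
      refine SetLike.lt_iff_le_and_exists.2 ⟨fun w hw => ⟨hw.1, ?_⟩, _,
        (hA _).mem_ker.2 ⟨h1, ?_⟩, fun e => hsum ?_⟩
      · have := hw.2
        simp only at this ⊢
        rw [Function.iterate_succ_apply', this]
        funext i; simp [fwdDiff]
      · rw [h3, ← Function.iterate_add_apply, show k + 1 + (p - 1 - k) = p by omega, hzero]
      · have := congrFun e.2 0
        simp only at this
        rw [h3, ← Function.iterate_add_apply, show k + (p - 1 - k) = p - 1 by omega,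
          fwdDiff_pred_eq_sum] at this
        simpa [ha] using this
  exact ⟨(hA 0).ker, (hchain p le_rfl).trans (card_le_of_le (hA p).ker_le),
    fun w hw h => ⟨hw, funext h⟩⟩



/-- Let S be a Sylow p-subgroup of the finite group G. If S ∩ G' ≠ S ∩ (N_G(S))' (derived subgroups), then the wreath product Z_p ≀ Z_p — realised as a Sylow p-subgroup of the symmetric group of degree p² — is a homomorphic image of S. -/
theorem result {G : Type*} [Group G] [Finite G] {p : ℕ} [Fact p.Prime] (S : Sylow p G) (h : (S : Subgroup G) ⊓ commutator G ≠ (S : Subgroup G) ⊓ ⁅Subgroup.normalizer ((S : Subgroup G) : Set G), Subgroup.normalizer ((S : Subgroup G) : Set G)⁆) : ∃ (P : Sylow p (Equiv.Perm (Fin (p ^ 2)))) (f : ↥(S : Subgroup G) →* ↥(P : Subgroup (Equiv.Perm (Fin (p ^ 2))))), Function.Surjective f := by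
  have hW : IsWeaklyClosed (S : Subgroup G) (S : Subgroup G) :=
    ⟨le_rfl, fun g hg => cj_eq_of_mem_normalizer (mem_normalizer_of_cj_le hg)⟩
  obtain ⟨T, U, z, y, ℓ, hWT, hTS, hUT, hU, hz, hzU, hy, hℓ, hsum⟩ :=
    yoshida_key (sylIn_top S) hW h
  obtain rfl : T = S := le_antisymm hTS hWT
  have hp := (Fact.out : p.Prime)
  have hT := S.isPGroup'
  obtain ⟨L, hL, hL'⟩ := chain hT hUT hU hz hy hℓ hsum
  have hc : ∀ w ∈ U, ∀ i : ℕ, (z ^ i)⁻¹ * w * z ^ i ∈ U := fun w hw i =>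
    conj_mem_of_mem_normalizer' (Subgroup.pow_mem _
      (CfH1.le_Nm_of_relIndex_prime hT hUT hU hz) i) hw
  obtain ⟨i, -, hi⟩ := Finset.exists_ne_zero_of_sum_ne_zero hsum
  have h1 : hℓ.ker.relIndex S = p ^ 2 := by
    rw [← relIndex_mul_relIndex _ _ _ hℓ.ker_le hUT, hℓ.relIndex_ker_prime (hc y hy i) hi, hU,
      pow_two]
  refine wreath (S := (S : Subgroup G)) (hℓ.ker.subgroupOf (S : Subgroup G)) hT h1 ?_
  have h2 : (hℓ.ker.subgroupOf S).normalCore.map (S : Subgroup G).subtype ≤ L := by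
    rintro _ ⟨w, hw, rfl⟩
    refine hL' _ (mem_subgroupOf.1 (normalCore_le _ hw)).1 fun i => ?_
    have := (mem_subgroupOf.1 (hw (⟨z ^ i, pow_mem hz i⟩⁻¹))).2
    rwa [inv_inv] at this
  have h4 := (Nat.mul_le_mul_left _ (card_le_of_le h2)).trans hL
  rw [CfH9.card_map_subtype] at h4
  rw [CfH1.card_eq_mul_of_relIndex hUT hU, pow_succ', mul_assoc]
  exact Nat.mul_le_mul_left _ h4

end Cfsg.Agent.S2807
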