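import Cfsg.Statements.S2808
import Cfsg.Agent.OD.Pre
import Cfsg.Agent.L.PU11


set_option autoImplicit false
universe u
open Cfsg

namespace Cfsg.Agent.S2808


/-- Let p be a prime and S a finite p-group with J(S) generated by the abelian subgroups of largest order, Z(J(S)) its centre and J̃(S) = C_S(Z(J(S))). Put S₀ = [Φ(S), S]·Φ(Φ(S)) if p = 2, S₀ = [[Φ(S), S], S]·Φ(Φ(S)) if p = 3, and S₀ = [Φ(S), S]·℧¹(S) if p > 3. If [Z(J(S)), S] ≠ 1 or S₀ ≠ 1, then S has nontrivial characteristic subgroups S₁ ≤ Z(S) and S₂ ≤ J̃(S), with S₂ characteristic in J̃(S), such that in every finite group G containing S as a Sylow p-subgroup with C_G(O_p(G)) ≤ O_p(G), S in exactly one maximal subgroup of G, and G/K ≅ PSL₂(p^n) for some normal K and n ≥ 1, at least one of S₁, S₂ is normal. -/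
theorem result {S : Type u} [Group S] [Finite S] {p : ℕ} [Fact p.Prime] (hS : IsPGroup p S) (S₀ : Subgroup S) (hS₀ : S₀ = if p = 2 then ⁅frattini S, (⊤ : Subgroup S)⁆ ⊔ (frattini ↥(frattini S)).map (frattini S).subtype else if p = 3 then ⁅⁅frattini S, (⊤ : Subgroup S)⁆, (⊤ : Subgroup S)⁆ ⊔ (frattini ↥(frattini S)).map (frattini S).subtype else ⁅frattini S, (⊤ : Subgroup S)⁆ ⊔ Cfsg.powerClosure p 1 (⊤ : Subgroup S)) (h : ⁅Cfsg.thompsonSubgroupA S ⊓ Subgroup.centralizer (Cfsg.thompsonSubgroupA S : Set S), (⊤ : Subgroup S)⁆ ≠ ⊥ ∨ S₀ ≠ ⊥) : ∃ S₁ S₂ : Subgroup S, S₁ ≠ ⊥ ∧ S₂ ≠ ⊥ ∧ S₁.Characteristic ∧ S₂.Characteristic ∧ S₁ ≤ Subgroup.center S ∧ S₂ ≤ Subgroup.centralizer ((Cfsg.thompsonSubgroupA S ⊓ Subgroup.centralizer (Cfsg.thompsonSubgroupA S : Set S) : Subgroup S) : Set S) ∧ (S₂.subgroupOf (Subgroup.centralizer ((Cfsg.thompsonSubgroupA S ⊓ Subgroup.centralizer (Cfsg.thompsonSubgroupA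 S : Set S) : Subgroup S) : Set S))).Characteristic ∧ ∀ (G : Type u) [Group G] [Finite G] (τ : S →* G), Function.Injective τ → (∃ P : Sylow p G, (P : Subgroup G) = τ.range) → Subgroup.centralizer (Cfsg.pCore p G : Set G) ≤ Cfsg.pCore p G → (∃! M : Subgroup G, IsCoatom M ∧ τ.range ≤ M) → (∃ (K : Subgroup G) (_ : K.Normal) (F : Type) (_ : Field F) (_ : Fintype F) (n : ℕ), 1 ≤ n ∧ Fintype.card F = p ^ n ∧ Nonempty (G ⧸ K ≃* Matrix.ProjectiveSpecialLinearGroup (Fin 2) F)) → (S₁.map τ).Normal ∨ (S₂.map τ).Normal := by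
  have e0 : CfLp.S0 p (⊤ : Subgroup S) = S₀ := by
    rw [hS₀, CfLp.S0, CfLp.Phi_top]
  have key : ∃ S₁ S₂ : Subgroup S, CfLp.Out p S₁ S₂ := by
    rcases h with h | h
    · exact ⟨_, _, CfLp.outA hS h⟩
    have : Nontrivial S := by
      by_contra hh
      rw [not_nontrivial_iff_subsingleton] at hh
      exact h (Subgroup.eq_bot_of_subsingleton _)
    rcases CfLp.out_or_cds hS with ⟨S₁, S₂, h, -⟩ | ⟨hJ, hn, hc, hm⟩
    · exact ⟨S₁, S₂, h⟩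
    · obtain ⟨S₁, S₂, h, -⟩ := CfLp.out_of_S0 hS hJ hc (e0 ▸ h)
      exact ⟨S₁, S₂, h⟩
  obtain ⟨S₁, S₂, h⟩ := key
  refine ⟨S₁, S₂, h.n1, h.n2, h.c1, h.c2, h.l1, h.l2, h.c3, ?_⟩
  rintro G _ _ τ hτ ⟨P, hP⟩ hc hu ⟨K, _, F, _, _, n, -, hF, he⟩
  obtain ⟨M, k⟩ := CfLp.exists_pu hF (hP ▸ CfH9.sylIn_top P) hc hu K he
  rw [CfH9.normal_iff_top_le_Nm, CfH9.normal_iff_top_le_Nm]
  exact h.nm ⟨G, τ, hτ, _, ⊤, _, M, by rwa [← MonoidHom.range_eq_map]⟩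

end Cfsg.Agent.S2808
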