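import Cfsg.Statements.S2856
import Cfsg.Agent.OD.Pre
import Cfsg.Agent.H8.Amalgam3

set_option autoImplicit false
open Cfsg

namespace Cfsg.Agent.S2856

/-- Let (M₁, M₂) be an amalgam pair in X satisfying the rank-two standing hypothesis (characteristic p, the normalizers in M₁ and in M₂ of a Sylow p-subgroup of M₁ ∩ M₂ equal and contained in M₁ ∩ M₂, and strongly p-embedded residues), λ a vertex of the coset graph, L_λ the subgroup of its stabilizer generated by the p-elements, Q_λ = O_p of the stabilizer, O^p(L_λ) the subgroup of L_λ generated by its elements of order prime to p, and V_λ^{(k)} the subgroup generated by the Z_μ over the vertices μ at distance at most k from λ (Z_μ being generated by the Ω₁(Z(S)), S a Sylow p-subgroup of the stabilizer of μ). If n ≥ 1 and V_λ^{(n)} ≤ Q_λ, then O^p(L_λ) does not centralize V_λ^{(n)}/[V_λ^{(n)}, Q_λ], that is, [V_λ^{(n)}, O^p(L_λ)] is not contained in [V_λ^{(n)}, Q_λ]. -/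
theorem result {X : Type*} [Group X] {p : ℕ} [Fact p.Prime] (M₁ M₂ : Subgroup X) (h : Cfsg.IsSpeAmalgamPair p M₁ M₂) (lam : Cfsg.CosetVertex M₁ M₂) (n : ℕ) (hn : 1 ≤ n) (V : Subgroup X) (hV : V = Cfsg.vertexVIter p M₁ M₂ n lam) (hVQ : V ≤ Cfsg.vertexQ p lam) : ¬ ⁅V, ((Cfsg.pResidual p ↥(Cfsg.pElementClosure p (MulAction.stabilizer X lam))).map (Cfsg.pElementClosure p (MulAction.stabilizer X lam)).subtype)⁆ ≤ ⁅V, Cfsg.vertexQ p lam⁆ := by
  open Subgroup MulAction CfH9 CfH8 commutatorElement in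
  intro hle
  have ha := am_of_charP h.1
  obtain ⟨μ, hμ⟩ := exists_adj lam
  obtain ⟨m, rfl⟩ := Nat.exists_eq_add_of_le' hn
  subst hV
  have hUV := ha.vertexVIter_le_of_adj hμ m
  have hQp : IsPGroup p (Cfsg.vertexQ p lam) := CfH7.isPGroup_pCoreOf _
  have := ha.fin lam
  have := finite_of_le (CfH7.pCoreOf_le (p := p) (stabilizer X lam))
  have hQV : Cfsg.vertexQ p lam ≤ Nm(Cfsg.vertexVIter p M₁ M₂ (m + 1) lam) :=
    (CfH7.pCoreOf_le _).trans (stab_le_Nm_vertexVIter ha.gen _ _)
  refine ha.not_vertexVIter_le hμ hVQ ?_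
  obtain ⟨k, hk⟩ := exists_iterCommutator_eq_bot_of_nilpotent hQp.isNilpotent hVQ le_rfl
  refine le_of_le_sup_commutator (hUV.trans le_normalizer) ((hUV.trans hVQ).trans le_normalizer)
    ((ha.Q_le_of_adj hμ).trans (stab_le_Nm_vertexVIter ha.gen _ _)) hk ?_
  refine spe_vertexVIter_le h hμ le_sup_left ?_ ?_
  · refine le_normalizer_of_commutator_le le_sup_right (le_trans (commutator_mono ?_ le_rfl) hle)
    exact sup_le hUV (commutator_le_left_of_le_normalizer hQV)
  · exact le_normalizer_sup (inf_le_right.trans (stab_le_Nm_vertexVIter ha.gen _ _))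
      (le_normalizer_commutator (inf_le_left.trans (stab_le_Nm_vertexVIter ha.gen _ _))
        (inf_le_left.trans (stab_le_Nm_vertexQ p lam)))

end Cfsg.Agent.S2856
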