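import Cfsg.Statements.S2941
import Cfsg.Agent.OD.Pre
import Cfsg.Agent.H8.Thompson

set_option autoImplicit false
open Cfsg

namespace Cfsg.Agent.S2941

/-- Let G be a finite group of characteristic 2 type in which every 2-local subgroup is solvable and the centralizer of Ω₁(Z(S)) lies in N_G(S) for every Sylow 2-subgroup S, and let T be a nontrivial 2-subgroup and K a J(T)-component (J the Thompson subgroup generated by the elementary abelian 2-subgroups of largest order). If a subgroup Q is normalized by ⟨K, J(T)⟩ and normalizes J(T), then Q normalizes K. -/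
theorem result {G : Type*} [Group G] [Finite G] (hL : Cfsg.IsCharacteristicTwoType G) (hN : ∀ N : Subgroup G, Cfsg.IsTwoLocal N → Group.IsSolvable ↥N)
    (hZ : ∀ S : Sylow 2 G, Subgroup.centralizer (Cfsg.omegaCenterOf (S : Subgroup G) : Set G) ≤ Subgroup.normalizer ((S : Subgroup G) : Set G)) (T : Subgroup G) (hT : IsPGroup 2 ↥T) (hT1 : T ≠ ⊥) (K : Subgroup G) (hK : Cfsg.IsJComponent T K)
    (Q : Subgroup G) (hQ1 : K ⊔ Cfsg.thompsonSubgroupOf 2 T ≤ Subgroup.normalizer (Q : Set G)) (hQ2 : Q ≤ Subgroup.normalizer (Cfsg.thompsonSubgroupOf 2 T : Set G)) :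
    Q ≤ Subgroup.normalizer (K : Set G) := by
  open Subgroup MulAction CfH9 CfH8 commutatorElement in
  obtain ⟨h1, h2, -⟩ := hK
  set J := Cfsg.thompsonSubgroupOf 2 T with hJ
  have hKO : Cfsg.pResidualOf 2 K = K := by
    rw [CfH7.pResidualOf_eq_closure]
    simp only [Nat.coprime_two_right]
    exact h1
  have hJK : J ≤ Nm(K) := h2 ▸ normalizer_commutator_ge_right K J
  have e1 : CfH7.nclo J K = J ⊔ K := by rw [CfH7.nclo_eq_sup, commutator_comm, h2]
  have e2 : CfH7.nclo J (Q ⊔ K) = CfH7.nclo J K := by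
    apply le_antisymm _ (CfH7.nclo_mono le_rfl le_sup_right)
    rw [CfH7.nclo_le_iff']
    intro g hg
    obtain ⟨k, hk, q, hq, rfl⟩ := (mem_sup_iff_of_le_normalizer_right (le_trans le_sup_left hQ1)).1
      (sup_comm Q K ▸ hg)
    rw [cj_mul, cj_eq_of_mem_normalizer (hQ2 hq)]
    exact CfH7.cj_le_nclo hk
  have h3 : Q ≤ Nm(K ⊔ J) := by
    rw [sup_comm, ← e1, ← e2]
    exact le_trans le_sup_left (CfH7.right_le_Nm_nclo _ _)
  have h4 := le_trans h3 (CfH7.normalizer_le_normalizer_pResidualOf (p := 2) _)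
  rwa [CfH7.pResidualOf_sup_of_isPGroup (isPGroup_J hT) hJK, hKO] at h4

end Cfsg.Agent.S2941
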