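import Cfsg.Statements.S2946
import Cfsg.Agent.OD.Pre
import Cfsg.Agent.H8.JComp2

set_option autoImplicit false
open Cfsg

namespace Cfsg.Agent.S2946

/-- Let G be a finite group of characteristic 2 type in which every 2-local subgroup is solvable and the centralizer of Ω₁(Z(S)) lies in N_G(S) for every Sylow 2-subgroup S, and let T be a nontrivial 2-subgroup (below, J is the Thompson subgroup generated by the elementary abelian 2-subgroups of largest order), K a J(T)-component and Z₀ = Ω₁(Z(J(T))). Then Z₀ meets W_K = [Ω₁(Z(O₂(K))), K] in a subgroup of order 2, and Z₀ is the product of Z₀ ∩ Z(⟨K, J(T)⟩) and Z₀ ∩ W_K. -/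
theorem result {G : Type*} [Group G] [Finite G] (hL : Cfsg.IsCharacteristicTwoType G) (hN : ∀ N : Subgroup G, Cfsg.IsTwoLocal N → Group.IsSolvable ↥N)
    (hZ : ∀ S : Sylow 2 G, Subgroup.centralizer (Cfsg.omegaCenterOf (S : Subgroup G) : Set G) ≤ Subgroup.normalizer ((S : Subgroup G) : Set G)) (T : Subgroup G) (hT : IsPGroup 2 ↥T) (hT1 : T ≠ ⊥) (K : Subgroup G) (hK : Cfsg.IsJComponent T K)
    (Z₀ : Subgroup G) (hZ₀ : Z₀ = Cfsg.omegaCenterOf (Cfsg.thompsonSubgroupOf 2 T)) :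
    Nat.card ↥(Z₀ ⊓ Cfsg.wOf K) = 2 ∧
      (Z₀ ⊓ ((K ⊔ Cfsg.thompsonSubgroupOf 2 T) ⊓ Subgroup.centralizer ((K ⊔ Cfsg.thompsonSubgroupOf 2 T) : Set G))) ⊔ (Z₀ ⊓ Cfsg.wOf K) = Z₀ := by
  open Subgroup MulAction CfH9 CfH8 commutatorElement in
  have h := isJComponent_iff.1 hK
  subst hZ₀
  refine ⟨h.card_OZ_inf_wOf hT, le_antisymm (sup_le inf_le_left inf_le_left) ?_⟩
  refine (h.OZ_le_sup hT).trans (sup_le_sup_right (le_inf inf_le_left (le_inf ?_ ?_)) _)
  · exact inf_le_left.trans ((CfH7.OZ_le _).trans le_sup_right)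
  · intro x hx
    rw [mem_centralizer_iff]
    rintro y (hy | hy)
    · exact (mem_centralizer_iff.1 hx.2) y hy
    · exact (mem_centralizer_iff.1 (CfH7.OZ_le_Cz _ hx.1)) y hy

end Cfsg.Agent.S2946
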