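import Cfsg.Statements.S2947
import Cfsg.Agent.OD.Pre
import Cfsg.Agent.H8.Thompson
import Cfsg.Agent.H9.SPE

set_option autoImplicit false
open Cfsg

namespace Cfsg.Agent.S2947

/-- Let G be a finite group of characteristic 2 type in which every 2-local subgroup is solvable and the centralizer of Ω₁(Z(S)) lies in N_G(S) for every Sylow 2-subgroup S; suppose O₂(G) = 1, fix a Sylow 2-subgroup S and a 2-local subgroup M containing N_G(J(S)) (J the Thompson subgroup generated by the elementary abelian 2-subgroups of largest order). Then M is strongly embedded in G (a proper subgroup of even order whose intersection with each conjugate by an element outside M has odd order) if and only if no nontrivial 2-subgroup of M lies in a 2-local subgroup of G not contained in M. -/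
theorem result {G : Type*} [Group G] [Finite G] (hL : Cfsg.IsCharacteristicTwoType G) (hN : ∀ N : Subgroup G, Cfsg.IsTwoLocal N → Group.IsSolvable ↥N)
    (hZ : ∀ S : Sylow 2 G, Subgroup.centralizer (Cfsg.omegaCenterOf (S : Subgroup G) : Set G) ≤ Subgroup.normalizer ((S : Subgroup G) : Set G)) (hO : Cfsg.pCore 2 G = ⊥) (S : Sylow 2 G) (M : Subgroup G) (hM : Cfsg.IsTwoLocal M)
    (hMJ : Subgroup.normalizer (Cfsg.thompsonSubgroupOf 2 (S : Subgroup G) : Set G) ≤ M) :
    Cfsg.IsStronglyEmbedded M ↔ Cfsg.straddlingTwoSubgroups M = ∅ := by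
  open Subgroup MulAction CfH9 CfH8 commutatorElement in
  have : Fact (Nat.Prime 2) := ⟨Nat.prime_two⟩
  have hiff : Cfsg.IsStronglyEmbedded M ↔ SPE 2 M ⊤ := by
    rw [spe_iff_not_dvd_inf, Cfsg.IsStronglyEmbedded]
    simp only [le_top, true_and, mem_top, forall_true_left, even_iff_two_dvd, ← Nat.not_even_iff_odd]
    rfl
  rw [hiff]
  constructor
  · intro h
    rw [Set.eq_empty_iff_forall_notMem]
    rintro T ⟨hT, hT1, hTM, L, ⟨R, hR, hR1, rfl⟩, hTL, hLM⟩
    apply hLM
    have hP : IsPGroup 2 (T ⊔ R : Subgroup G) := isPGroup_sup hT hR hTL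
    have hPM : T ⊔ R ≤ M := by
      by_contra hc
      have hlt : (T ⊔ R) ⊓ M < T ⊔ R := lt_of_le_of_ne inf_le_left fun e => hc (e ▸ inf_le_right)
      have h1 := lt_inf_Nm hP hlt
      refine h1.not_ge (le_inf inf_le_left (le_trans ?_ (h.norm _ inf_le_right
        (hP.to_le inf_le_left) (ne_bot_of_le (le_inf le_sup_left hTM) hT1))))
      exact le_inf le_top inf_le_right
    exact le_trans (le_inf le_top le_rfl) (h.norm R (le_trans le_sup_right hPM) hR hR1)
  · intro h
    obtain ⟨R, hR, hR1, hMR⟩ := hM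
    have hRM : R ≤ M := hMR ▸ le_normalizer
    refine ⟨le_top, fun e => hR1 ?_, dvd_card_iff_exists.2 ⟨R, hRM, hR, hR1⟩, fun A hA hAp hA1 => ?_⟩
    · exact CfH7.eq_bot_of_normal_of_pCore_eq_bot hO (normalizer_eq_top_iff.1 (hMR ▸ e)) hR
    · by_contra hc
      refine (Set.eq_empty_iff_forall_notMem.1 h) A ⟨hAp, hA1, hA, Nm(A), ⟨A, hAp, hA1, rfl⟩,
        le_normalizer, fun h' => hc (le_trans inf_le_right h')⟩

end Cfsg.Agent.S2947
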