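import Cfsg.Statements.S2951
import Cfsg.Agent.OD.Pre
import Cfsg.Agent.H8.JComp4

set_option autoImplicit false
open Cfsg

namespace Cfsg.Agent.S2951

/-- Let G be a finite group of characteristic 2 type in which every 2-local subgroup is solvable and the centralizer of Ω₁(Z(S)) lies in N_G(S) for every Sylow 2-subgroup S; suppose O₂(G) = 1, fix a Sylow 2-subgroup S and a 2-local subgroup M containing N_G(J(S)) (J the Thompson subgroup generated by the elementary abelian 2-subgroups of largest order), and put Z = Ω₁(Z(S)). Let T ≤ S be maximal (for the order of a largest elementary abelian subgroup, then the order of J(T), then the order of T) among the nontrivial 2-subgroups of M lying in a 2-local subgroup not inside M, K a J(T)-component not contained in M with J(T) the Thompson subgroup of every Sylow 2-subgroup of N_G(W_K) containing J(T), and O₂(⟨K, T⟩) ≠ 1, L a maximal 2-local subgroup containing ⟨K, J(T)⟩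 (there is only one), and Z₀ = Ω₁(Z(J(T))). Then Z₀ ∩ W_K ≠ 1, and one of: Z = Z₀ has order 2; Z = Z₀ has order 4 and T = S; Ω₁(Z(T)) = Z₀ has order 4 and C_L(Z₀) has index 2 in N_G(Z₀). -/
theorem result {G : Type*} [Group G] [Finite G] (hL : Cfsg.IsCharacteristicTwoType G) (hN : ∀ N : Subgroup G, Cfsg.IsTwoLocal N → Group.IsSolvable ↥N)
    (hZ : ∀ S : Sylow 2 G, Subgroup.centralizer (Cfsg.omegaCenterOf (S : Subgroup G) : Set G) ≤ Subgroup.normalizer ((S : Subgroup G) : Set G)) (hO : Cfsg.pCore 2 G = ⊥) (S : Sylow 2 G) (M : Subgroup G) (hM : Cfsg.IsTwoLocal M)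
    (hMJ : Subgroup.normalizer (Cfsg.thompsonSubgroupOf 2 (S : Subgroup G) : Set G) ≤ M) (T : Subgroup G) (hT : T ∈ Cfsg.maxStraddlingTwoSubgroups M)
    (hTS : T ≤ (S : Subgroup G)) (K : Subgroup G) (hK : K ∈ Cfsg.jComponentsOutside M T)
    (L : Subgroup G) (hLmax : Cfsg.IsMaximalTwoLocal L) (hKL : K ⊔ Cfsg.thompsonSubgroupOf 2 T ≤ L)
    (Z Z₀ : Subgroup G) (hZdef : Z = Cfsg.omegaCenterOf (S : Subgroup G)) (hZ₀ : Z₀ = Cfsg.omegaCenterOf (Cfsg.thompsonSubgroupOf 2 T)) :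
    Z₀ ⊓ Cfsg.wOf K ≠ ⊥ ∧
      ((Z = Z₀ ∧ Nat.card ↥Z₀ = 2) ∨ (Z = Z₀ ∧ Nat.card ↥Z₀ = 4 ∧ T = (S : Subgroup G)) ∨
        (Cfsg.omegaCenterOf T = Z₀ ∧ Nat.card ↥Z₀ = 4 ∧
          (L ⊓ Subgroup.centralizer (Z₀ : Set G)).relIndex (Subgroup.normalizer (Z₀ : Set G)) = 2)) := by
  open Subgroup MulAction CfH9 CfH8 commutatorElement in
  have hG := zn_of hL hN hZ
  have h : TS S M T := ⟨sylIn_top S, hMJ, hT⟩
  obtain ⟨L', u⟩ := h.exists_uc hG (mem_jComponentsZero_iff.1 hK.1).1 hK.2.1 hK.2.2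
  obtain rfl : L = L' := u.eq_of_max hLmax hKL
  subst hZdef hZ₀
  refine ⟨u.jc.OZ_inf_wOf_ne_bot h.pgrp, ?_⟩
  by_cases hc : Nm(CfH7.OZ 2 (JJ 2 T)) ≤ L
  · have e : T = S := by
      by_contra hne
      have := lt_inf_Nm S.isPGroup' (lt_of_le_of_ne hTS hne)
      exact this.not_ge (u.ll.syl.le_of_le_Nm' (S.isPGroup'.to_le inf_le_left)
        (inf_le_right.trans ((Nm_le_Nm_J T).trans ((CfH7.Nm_le_Nm_OZ _).trans hc))) inf_le_right)
    obtain ⟨K₂, L₂, u₂, hne⟩ := u.exists_pair hG hO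
    have e2 := pair_OZ hG u u₂ hne
    rcases pair_card u u₂ hne with h1 | h1
    · exact Or.inl ⟨e ▸ e2, h1⟩
    · exact Or.inr (Or.inl ⟨e ▸ e2, h1, e⟩)
  · obtain ⟨e, h1 | ⟨h1, h2⟩ | h1⟩ := u.tri hG (sylIn_top S) hTS hc
    · exact Or.inl h1
    · exact Or.inr (Or.inl ⟨h2 ▸ e, h1, h2⟩)
    · exact Or.inr (Or.inr ⟨e, h1⟩)

end Cfsg.Agent.S2951
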