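import Cfsg.Statements.S2954
import Cfsg.Agent.OD.Pre
import Cfsg.Agent.H8.JComp4

set_option autoImplicit false
open Cfsg

namespace Cfsg.Agent.S2954

/-- Let G be a finite group of characteristic 2 type in which every 2-local subgroup is solvable and the centralizer of Ω₁(Z(S)) lies in N_G(S) for every Sylow 2-subgroup S; suppose O₂(G) = 1, fix a Sylow 2-subgroup S and a 2-local subgroup M containing N_G(J(S)) (J the Thompson subgroup generated by the elementary abelian 2-subgroups of largest order). If T is maximal (for the order of a largest elementary abelian subgroup, then the order of J(T), then the order of T) among the nontrivial 2-subgroups of M lying in a 2-local subgroup not inside M, then there are two distinct maximal 2-local subgroups P₁, P₂ of G, each having T as a Sylow 2-subgroup, that are both isomorphic to the symmetric group on four letters or both isomorphic to its direct product with a group of order 2. -/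
theorem result {G : Type*} [Group G] [Finite G] (hL : Cfsg.IsCharacteristicTwoType G) (hN : ∀ N : Subgroup G, Cfsg.IsTwoLocal N → Group.IsSolvable ↥N)
    (hZ : ∀ S : Sylow 2 G, Subgroup.centralizer (Cfsg.omegaCenterOf (S : Subgroup G) : Set G) ≤ Subgroup.normalizer ((S : Subgroup G) : Set G)) (hO : Cfsg.pCore 2 G = ⊥) (S : Sylow 2 G) (M : Subgroup G) (hM : Cfsg.IsTwoLocal M)
    (hMJ : Subgroup.normalizer (Cfsg.thompsonSubgroupOf 2 (S : Subgroup G) : Set G) ≤ M) (T : Subgroup G) (hT : T ∈ Cfsg.maxStraddlingTwoSubgroups M) :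
    ∃ P₁ P₂ : Subgroup G, P₁ ≠ P₂ ∧ Cfsg.IsMaximalTwoLocal P₁ ∧ Cfsg.IsMaximalTwoLocal P₂ ∧
      Cfsg.IsSylowTwoIn T P₁ ∧ Cfsg.IsSylowTwoIn T P₂ ∧
      ((Nonempty (↥P₁ ≃* Equiv.Perm (Fin 4)) ∧ Nonempty (↥P₂ ≃* Equiv.Perm (Fin 4))) ∨
        (Nonempty (↥P₁ ≃* Equiv.Perm (Fin 4) × Multiplicative (ZMod 2)) ∧
          Nonempty (↥P₂ ≃* Equiv.Perm (Fin 4) × Multiplicative (ZMod 2)))) := by
  open Subgroup MulAction CfH9 CfH8 commutatorElement in
  have hG := zn_of hL hN hZ
  have h : TS S M T := ⟨sylIn_top S, hMJ, hT⟩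
  obtain ⟨K, hK, hKM, hKO⟩ := h.exists_comp hG
  obtain ⟨L, u⟩ := h.exists_uc hG hK hKM hKO
  obtain ⟨K₂, L₂, u₂, hne⟩ := u.exists_pair hG hO
  have e := pair_OZ hG u u₂ hne
  obtain ⟨l1, l2, h3⟩ := pair_amalgam hG u u₂ hne
  refine ⟨L, L₂, hne, u.isMax, u₂.isMax, isSylowTwoIn_iff.2 u.ll.syl, isSylowTwoIn_iff.2 u₂.ll.syl, ?_⟩
  rw [u.eq_P hG e l1 (by omega), u₂.eq_P hG e l2 (by omega)]
  rcases h3 with ⟨-, -, h4⟩ | ⟨-, -, ⟨f⟩, ⟨g⟩⟩
  · exact Or.inl h4
  · exact Or.inr ⟨⟨f.trans MulEquiv.prodComm⟩, ⟨g.trans MulEquiv.prodComm⟩⟩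

end Cfsg.Agent.S2954
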