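import Cfsg.Statements.S3085
import Cfsg.Agent.OD.Pre
import Cfsg.Agent.H4.Extra2

set_option autoImplicit false
open Cfsg

open CfH4

namespace Cfsg.Agent.S3085

/-- Let Q be an extraspecial 2-group of order 2^(2n+1) with n ≥ 3 that is of plus type (it contains an elementary abelian subgroup of order 2^(n+1)). Then the group of inner automorphisms of Q has no complement in the full automorphism group of Q: the extension of the inner automorphism group (elementary abelian of order 2^(2n)) by the outer automorphism group (the orthogonal group of plus type) does not split. -/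
theorem result {Q : Type*} [Group Q] [Finite Q] (n : ℕ) (hn : 3 ≤ n) (hQ : Cfsg.IsExtraspecial 2 Q) (hcard : Nat.card Q = 2 ^ (2 * n + 1)) (hplus : ∃ E : Subgroup Q, Cfsg.IsElementaryAbelian 2 E ∧ Nat.card ↥E = 2 ^ (n + 1)) (L : Subgroup (MulAut Q)) : ¬ (Cfsg.Inn Q).IsComplement' L := by
  obtain ⟨z, h⟩ := exists_es2 hQ
  obtain ⟨A, hA, hAc⟩ := hplus
  have h1 := h.card_order_four hcard hA hAc
  have h2 : Nonempty {x : Q // orderOf x = 4} := by
    refine (Nat.card_pos_iff.1 ?_).1
    rw [h1]
    exact Nat.sub_pos_of_lt (Nat.pow_lt_pow_right one_lt_two (by omega))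
  obtain ⟨y, hy⟩ := h2
  have hy2 := (h.sq_eq y).resolve_left (h.orderOf_eq_four_iff.1 hy)
  let B : Subgroup Q := A ⊓ Subgroup.centralizer {y}
  have hB : 8 ≤ Nat.card B := by
    have h3 := h.card_centralizer_mul (Subgroup.zpowers y)
    have h4 : Subgroup.zpowers y ⊓ Subgroup.center Q = Subgroup.center Q := by
      refine inf_eq_right.2 fun x hx => ?_
      rcases h.mem_center_iff.1 hx with h5 | h5
      · rw [h5]; exact one_mem _
      · rw [h5, ← hy2]; exact mul_mem (Subgroup.mem_zpowers y) (Subgroup.mem_zpowers y)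
    rw [h4, h.card_center, Nat.card_zpowers, hy, Subgroup.zpowers_eq_closure,
      Subgroup.centralizer_closure] at h3
    have h5 := Subgroup.card_mul_index (Subgroup.centralizer ({y} : Set Q))
    have h6 : (Subgroup.centralizer ({y} : Set Q)).index = 2 := by
      apply Nat.eq_of_mul_eq_mul_left (Nat.card_pos (α := Subgroup.centralizer ({y} : Set Q)))
      omega
    have h7 : B.relIndex A ≤ 2 := by
      rw [Subgroup.inf_relIndex_left, ← h6, ← Subgroup.relIndex_top_right]
      exact Subgroup.relIndex_le_of_le_right le_top (by rw [Subgroup.relIndex_top_right, h6]; decide)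
    have h8 : Nat.card B * B.relIndex A = Nat.card A := by
      rw [← Subgroup.card_mul_index (B.subgroupOf A),
        Nat.card_congr (Subgroup.subgroupOfEquivOfLe (inf_le_left : B ≤ A)).toEquiv]
      rfl
    have h9 : 2 ^ 4 ≤ Nat.card A := hAc ▸ Nat.pow_le_pow_right two_pos (by omega)
    nlinarith
  classical
  have := Fintype.ofFinite Q
  have hex : ∀ s : Finset Q, s.card < 8 → ∃ x ∈ B, x ∉ s := fun s hs => by
    by_contra hc
    push Not at hc
    have : Nat.card B ≤ s.card := by
      rw [Nat.card_eq_fintype_card, Fintype.card_subtype]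
      exact Finset.card_le_card fun x hx => hc x (Finset.mem_filter.1 hx).2
    omega
  obtain ⟨u, huB, hu⟩ := hex {1, z} (lt_of_le_of_lt Finset.card_le_two (by decide))
  obtain ⟨v, hvB, hv⟩ := hex {1, z, u, u * z} (lt_of_le_of_lt Finset.card_le_four (by decide))
  simp only [Finset.mem_insert, Finset.mem_singleton, not_or] at hu hv
  have hu2 : u * u = 1 := by rw [← pow_two]; exact hA.2 u huB.1
  have hv2 : v * v = 1 := by rw [← pow_two]; exact hA.2 v hvB.1
  refine h.not_isComplement hy2 hu2 hv2 (huB.2 y rfl) (hvB.2 y rfl)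
    (congrArg Subtype.val (hA.1.is_comm.comm ⟨u, huB.1⟩ ⟨v, hvB.1⟩)) ?_ ?_ ?_ L
  · rw [h.mem_center_iff, not_or]; exact hu
  · rw [h.mem_center_iff, not_or]; exact ⟨hv.1, hv.2.1⟩
  · rw [h.mem_center_iff, not_or]
    constructor
    · intro h3
      exact hv.2.2.1 (mul_left_cancel (h3.trans hu2.symm))
    · intro h3
      apply hv.2.2.2
      rw [← h3, ← mul_assoc, hu2, one_mul]

end Cfsg.Agent.S3085
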